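import Mathlib
import Cfsg.Agent.Block.Mod3
import Cfsg.Agent.Block.Height
import Cfsg.Agent.Char.Kernel

/-! Brauer–Nesbitt: the Cartan invariant of the trivial module against two coprime subgroups. -/

set_option autoImplicit false

namespace Cfsg.Agent.BN

open Cfsg Cfsg.Agent.Char Cfsg.Agent.Block Subgroup
open scoped _root_.Classical ComplexConjugate

variable {G : Type*} [Group G] [Fintype G] {p : ℕ} {M : Ideal AlgInt}

theorem avg (hM : IsPModular p M) (S : MS M G) (H : Subgroup G) (hH : ¬ p ∣ Nat.card H) :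
    ∃ m : Fin S.S.n → ℕ, ∀ f, IsClassFunction G f →
      (Nat.card H : ℂ)⁻¹ * ∑ h : H, f h = ∑ i, m i * lin f (S.e i) := by
  obtain ⟨m, hm⟩ := S.exists_mult (x := mapG ℂ H.subtype (blockIdem {⟨_, isIrr_one⟩}))
    ((isV_blockIdem_of_not_dvd hM hH _).mapG H.subtype) (by rw [← map_mul, blockIdem_mul_self])
  refine ⟨m, fun f hf => ?_⟩
  rw [← hm f hf, lin_mapG, lin_blockIdem_singleton _ (classFun_comp H.subtype hf)]
  simp [classInner]

theorem exists_i0 (hM : IsPModular p M) (S : MS M G) :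
    ∃ i0, S.dn ⟨_, isIrr_one⟩ i0 = 1 ∧ ∀ i, i ≠ i0 → S.dn ⟨_, isIrr_one⟩ i = 0 := by
  have h := S.apply_regular hM (irr_classFun ⟨_, isIrr_one⟩) (g := 1)
    (by rw [orderOf_one, Nat.dvd_one]; exact hM.1.ne_one)
  choose n hn0 hn using S.exists_φ_one
  have e : ∀ i, lin (fun _ => (1 : ℂ)) (S.e i) = S.dn ⟨_, isIrr_one⟩ i :=
    fun i => S.lin_e ⟨_, isIrr_one⟩ i
  simp only [e, hn] at h
  have h1 : (1 : ℕ) = ∑ i, S.dn ⟨_, isIrr_one⟩ i * n i := by exact_mod_cast h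
  have h2 : ∃ i0, S.dn ⟨_, isIrr_one⟩ i0 ≠ 0 := by
    by_contra hc
    push Not at hc
    simp [hc] at h1
  obtain ⟨i0, hi0⟩ := h2
  rw [← Finset.add_sum_erase _ _ (Finset.mem_univ i0)] at h1
  have h3 : 0 < S.dn ⟨_, isIrr_one⟩ i0 * n i0 := Nat.mul_pos (Nat.pos_of_ne_zero hi0) (hn0 i0)
  have h4 : S.dn ⟨_, isIrr_one⟩ i0 * n i0 = 1 := by omega
  have h5 : ∑ i ∈ Finset.univ.erase i0, S.dn ⟨_, isIrr_one⟩ i * n i = 0 := by omega
  refine ⟨i0, Nat.eq_one_of_mul_eq_one_right h4, fun i hi => ?_⟩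
  have := Finset.sum_eq_zero_iff.1 h5 i (by simp [hi])
  exact (Nat.mul_eq_zero.1 this).resolve_right (hn0 i).ne'

theorem avg_ge (hM : IsPModular p M) (S : MS M G) {i0 : Fin S.S.n}
    (h1 : S.dn ⟨_, isIrr_one⟩ i0 = 1) (h0 : ∀ i, i ≠ i0 → S.dn ⟨_, isIrr_one⟩ i = 0)
    (H : Subgroup G) (hH : ¬ p ∣ Nat.card H) :
    ∃ x : IrrCharacter G → ℕ, ∀ χ : IrrCharacter G, S.dn χ i0 ≤ x χ ∧
      (Nat.card H : ℂ)⁻¹ * ∑ h : H, χ.1 h = x χ := by
  obtain ⟨m, hm⟩ := avg hM S H hH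
  have hm0 : m i0 = 1 := by
    have h := hm _ (irr_classFun ⟨_, isIrr_one⟩)
    have e : ∀ i, lin (fun _ => (1 : ℂ)) (S.e i) = S.dn ⟨_, isIrr_one⟩ i :=
      fun i => S.lin_e ⟨_, isIrr_one⟩ i
    simp only [e] at h
    rw [Finset.sum_eq_single i0 (fun i _ hi => by simp [h0 i hi]) (by simp), h1] at h
    have hc : (Nat.card H : ℂ) ≠ 0 := card_ne_zero
    simp only [Finset.sum_const, Finset.card_univ, nsmul_eq_mul, mul_one, Nat.cast_one,
      ← Nat.card_eq_fintype_card] at h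
    rw [inv_mul_cancel₀ hc] at h
    exact_mod_cast h.symm
  refine ⟨fun χ => ∑ i, m i * S.dn χ i, fun χ => ⟨?_, ?_⟩⟩
  · have := Finset.single_le_sum (f := fun i => m i * S.dn χ i) (fun i _ => Nat.zero_le _)
      (Finset.mem_univ i0)
    simpa [hm0] using this
  · rw [hm _ (irr_classFun χ)]
    simp [S.lin_e]

theorem sum_avg (Q R : Subgroup G) (hc : (Nat.card Q).Coprime (Nat.card R)) :
    ∑ χ : IrrCharacter G, (∑ h : Q, χ.1 h) * conj (∑ h : R, χ.1 h) = Nat.card G := by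
  simp only [map_sum, Finset.sum_mul_sum]
  rw [Finset.sum_comm]
  simp only [Finset.sum_comm (s := (Finset.univ : Finset (IrrCharacter G)))]
  rw [Finset.sum_eq_single 1, Finset.sum_eq_single 1]
  · rw [sum_irr_mul_conj_of_isConj (by simp)]
    simp [centralizer_eq_top_iff_subset.2]
  · intro v _ hv
    refine sum_irr_mul_conj_of_not_isConj fun h => hv ?_
    exact Subtype.ext (by simpa [eq_comm] using h)
  · simp
  · intro u _ hu
    refine Finset.sum_eq_zero fun v _ => sum_irr_mul_conj_of_not_isConj fun h => hu ?_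
    obtain ⟨c, hc'⟩ := isConj_iff.1 h
    have e : orderOf (u : G) = orderOf (v : G) := by
      rw [← hc']; exact ((MulAut.conj c).orderOf_eq (u : G)).symm
    have h1 : orderOf (u : G) ∣ Nat.card Q := Subgroup.orderOf_dvd_natCard Q u.2
    have h2 : orderOf (u : G) ∣ Nat.card R := e ▸ Subgroup.orderOf_dvd_natCard R v.2
    exact Subtype.ext (orderOf_eq_one_iff.1 (Nat.eq_one_of_dvd_coprimes hc h1 h2))
  · simp

/-- Brauer–Nesbitt. -/
theorem main (hp : p.Prime) (Q R : Subgroup G) (hc : (Nat.card Q).Coprime (Nat.card R))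
    (hQ : ¬ p ∣ Nat.card Q) (hR : ¬ p ∣ Nat.card R)
    (hcount : Nat.card {g : G // ¬ p ∣ orderOf g} = Nat.card Q * Nat.card R) :
    ∃ N : Subgroup G, N.Normal ∧ ∀ g, g ∈ N ↔ ¬ p ∣ orderOf g := by
  obtain ⟨M, hM⟩ := exists_isPModular hp
  obtain ⟨S⟩ := exists_ms M G
  obtain ⟨i0, h1, h0⟩ := exists_i0 hM S
  obtain ⟨x, hx⟩ := avg_ge hM S h1 h0 Q hQ
  obtain ⟨y, hy⟩ := avg_ge hM S h1 h0 R hR
  have hq : (Nat.card Q : ℂ) ≠ 0 := card_ne_zero
  have hr : (Nat.card R : ℂ) ≠ 0 := card_ne_zero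
  have hg : (Nat.card G : ℂ) ≠ 0 := card_ne_zero
  set k : ℕ := ∑ χ, x χ * y χ with hk
  have hkG : Nat.card Q * Nat.card R * k = Nat.card G := by
    have h := sum_avg Q R hc
    have ex : ∀ χ : IrrCharacter G, ∑ h : Q, χ.1 h = Nat.card Q * x χ := fun χ => by
      rw [← (hx χ).2, mul_inv_cancel_left₀ hq]
    have ey : ∀ χ : IrrCharacter G, ∑ h : R, χ.1 h = Nat.card R * y χ := fun χ => by
      rw [← (hy χ).2, mul_inv_cancel_left₀ hr]
    simp only [ex, ey, map_mul, map_natCast] at h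
    have : ((Nat.card Q * Nat.card R * k : ℕ) : ℂ) = Nat.card G := by
      rw [← h, hk]
      push_cast
      rw [Finset.mul_sum]
      exact Finset.sum_congr rfl fun χ _ => by ring
    exact_mod_cast this
  set D : ℕ := ∑ χ, S.dn χ i0 * S.dn χ i0 with hD
  have hDk : D ≤ k := Finset.sum_le_sum fun χ _ => Nat.mul_le_mul (hx χ).1 (hy χ).1
  have hΦΦ : ∑ g, S.Φ i0 g * conj (S.Φ i0 g) = Nat.card G * D := by
    have h := S.inner_Φ (S.classFun_Φ i0) i0
    rw [classInner] at h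
    rw [← mul_inv_cancel_left₀ hg (∑ g, S.Φ i0 g * conj (S.Φ i0 g)), h]
    congr 1
    conv_lhs => rw [MS.Φ, lin_sum_left]
    simp [lin_smul_left, S.lin_e, hD]
  have hΦ1 : ∑ g, conj (S.Φ i0 g) = Nat.card G := by
    have h := S.inner_Φ (irr_classFun ⟨_, isIrr_one⟩) i0
    rw [classInner, S.lin_e, h1] at h
    simp only [one_mul, Nat.cast_one] at h
    rw [← mul_inv_cancel_left₀ hg (∑ g, conj (S.Φ i0 g)), h, mul_one]
  have hΦ2 : ∑ g, S.Φ i0 g = Nat.card G := by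
    have := congrArg conj hΦ1
    simpa [map_sum] using this
  let L : Finset G := Finset.univ.filter fun g => ¬ p ∣ orderOf g
  have hL : L.card = Nat.card Q * Nat.card R := by
    rw [← hcount, Nat.card_eq_fintype_card, Fintype.card_subtype]
  have hz : ∀ F : ℂ → ℂ, F 0 = 0 → ∑ g ∈ L, F (S.Φ i0 g) = ∑ g, F (S.Φ i0 g) := fun F hF => by
    refine Finset.sum_subset (Finset.subset_univ _) fun g _ hg' => ?_
    rw [S.Φ_eq_zero hM i0 (by simpa [L] using hg'), hF]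
  have key : ((∑ g ∈ L, Complex.normSq (S.Φ i0 g - k) : ℝ) : ℂ) =
      Nat.card G * D - Nat.card G * k := by
    have e : ∀ g, ((Complex.normSq (S.Φ i0 g - k) : ℝ) : ℂ) =
        S.Φ i0 g * conj (S.Φ i0 g) - k * S.Φ i0 g - k * conj (S.Φ i0 g) + k * k := fun g => by
      rw [← Complex.mul_conj, map_sub, map_natCast]; ring
    push_cast
    simp only [e, Finset.sum_add_distrib, Finset.sum_sub_distrib, ← Finset.mul_sum]
    rw [hz (fun z => z * conj z) (by simp), hz (fun z => z) rfl, hz (fun z => conj z) (by simp),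
      hΦΦ, hΦ1, hΦ2, Finset.sum_const, hL, nsmul_eq_mul, ← hkG]
    push_cast
    ring
  have key' : ∑ g ∈ L, Complex.normSq (S.Φ i0 g - k) = Nat.card G * D - Nat.card G * k := by
    exact_mod_cast key
  have hle : ∑ g ∈ L, Complex.normSq (S.Φ i0 g - k) ≤ 0 := by
    rw [key', sub_nonpos]
    exact_mod_cast Nat.mul_le_mul_left _ hDk
  have hall : ∀ g, ¬ p ∣ orderOf g → S.Φ i0 g = k := fun g hg' => by
    have h := (Finset.sum_eq_zero_iff_of_nonneg fun g _ => Complex.normSq_nonneg _).1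
      (le_antisymm hle (Finset.sum_nonneg fun g _ => Complex.normSq_nonneg _)) g (by simpa [L] using hg')
    exact sub_eq_zero.1 (Complex.normSq_eq_zero.1 h)
  have hone : S.Φ i0 1 = k := hall 1 (by rw [orderOf_one, Nat.dvd_one]; exact hp.ne_one)
  have hk0 : (k : ℂ) ≠ 0 := by
    have : k ≠ 0 := fun h => by
      rw [h, mul_zero] at hkG
      exact (Nat.card_pos (α := G)).ne hkG
    exact_mod_cast this
  refine ⟨charKer (S.Φ i0), charKer_normal (S.classFun_Φ i0), fun g => ?_⟩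
  rw [mem_charKer_iff (S.isChar_Φ i0), hone]
  exact ⟨fun h hg' => hk0 (by rw [← h, S.Φ_eq_zero hM i0 hg']), hall g⟩

end Cfsg.Agent.BN
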