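import Mathlib

/-! Lifting projective representations (Higman's criterion) to characteristic zero. -/

set_option autoImplicit false

namespace Cfsg.Agent.Isaacs

open scoped TensorProduct

variable {G : Type*} [Group G] [Fintype G]

theorem lift_higman {M M' : Type*} [Ring M] [Ring M'] (f : M' →+* M) (hf : Function.Surjective f)
    (h0 : ∀ a b, f a = 0 → f b = 0 → a * b = 0) (τ : G →* M) {T : M} (hT : ∑ g, τ g * T * τ g⁻¹ = 1) :
    ∃ (σ : G →* M') (S : M'), (∀ g, f (σ g) = τ g) ∧ ∑ g, σ g * S * σ g⁻¹ = 1 := by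
  choose U hU using fun g => hf (τ g)
  obtain ⟨S, rfl⟩ := hf T
  have c : ∀ a x y, f a = 0 → f x = f y → a * x = a * y := fun a x y i j =>
    sub_eq_zero.mp (by rw [← mul_sub]; exact h0 _ _ i (by simp [j]))
  have un : ∀ x, f x = 1 → x * (2 - x) = 1 := fun x i => by
    have := h0 (1 - x) (1 - x) (by simp [i]) (by simp [i])
    rw [← sub_eq_zero, ← neg_eq_zero, ← this]; noncomm_ring
  let a : G → G → M' := fun g h => U g * U h - U (g * h)
  have ha : ∀ g h, f (a g h) = 0 := fun g h => by simp [a, hU]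
  let b : G → M' := fun g => ∑ k, a g k * (S * U k⁻¹)
  have hb : ∀ g, f (b g) = 0 := fun g => by simp [b, ha]
  have m : ∀ g h, (U g - b g) * (U h - b h) = U (g * h) - b (g * h) := fun g h => by
    have e1 : b g * U h = ∑ k, a g (h * k) * (S * U k⁻¹) := by
      rw [Finset.sum_mul]
      exact (Fintype.sum_equiv (Equiv.mulLeft h) _ _ fun k => by
        rw [mul_assoc]; exact c _ _ _ (ha _ _) (by simp only [map_mul f, hU, mul_assoc, ← τ.map_mul]; simp)).symm
    have e2 : a g h = ∑ k, a g h * U k * (S * U k⁻¹) := by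
      simp only [mul_assoc, ← Finset.mul_sum]
      exact (mul_one _).symm.trans (c _ _ _ (ha _ _) (by simpa [hU, mul_assoc] using hT.symm))
    have e3 : U g * b h - b (g * h) + b g * U h = a g h := by
      rw [e1, e2, Finset.mul_sum, ← Finset.sum_sub_distrib, ← Finset.sum_add_distrib]
      exact Finset.sum_congr rfl fun k _ => by simp only [a, mul_assoc g]; noncomm_ring
    have := h0 _ _ (hb g) (hb h)
    rw [sub_mul, mul_sub, mul_sub, this]
    linear_combination (norm := (simp only [a]; abel1)) -e3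
  have o : U 1 - b 1 = 1 := by
    have := un (U 1 - b 1) (by simp [hU, hb])
    rw [← mul_one (U 1 - b 1), ← this, ← mul_assoc, m, mul_one]
  let σ : G →* M' := ⟨⟨fun g => U g - b g, o⟩, fun g h => (m g h).symm⟩
  have s : ∀ g, f (σ g) = τ g := fun g => by simp [σ, hU, hb]
  set θ := ∑ g, σ g * S * σ g⁻¹
  have t : ∀ g, θ * σ g⁻¹ = σ g⁻¹ * θ := fun g => by
    rw [Finset.sum_mul, Finset.mul_sum]
    exact Fintype.sum_equiv (Equiv.mulLeft g) _ _ fun k => by
      simp only [Equiv.coe_mulLeft, ← mul_assoc, ← σ.map_mul]; simp [mul_assoc]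
  refine ⟨σ, S * (2 - θ), s, (un θ (by simpa [θ, s] using hT)).symm ▸ ?_⟩
  rw [Finset.sum_mul]
  exact Finset.sum_congr rfl fun g _ => by simp only [mul_assoc, sub_mul, mul_sub, t]; noncomm_ring

variable {ι : Type*} [Fintype ι] [DecidableEq ι]

/-- a projective matrix representation over `O` which is faithful at all points -/
def Good (O : Type*) [CommRing O] (i j : G → ι) : Prop := ∃ (τ : G →* Matrix ι ι O) (T : Matrix ι ι O) (y : G → O),
  ∑ g, τ g * T * τ g⁻¹ = 1 ∧ ∀ g, g ≠ 1 → (τ g - 1) (i g) (j g) * y g = 1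

variable {O O' : Type*} [CommRing O] [CommRing O'] {i j : G → ι}

theorem Good.map (h : Good O i j) (f : O →+* O') : Good O' i j := by
  obtain ⟨τ, T, y, a, b⟩ := h
  refine ⟨f.mapMatrix.toMonoidHom.comp τ, f.mapMatrix T, fun g => f (y g), by simpa using congrArg f.mapMatrix a, fun g c => ?_⟩
  simpa [Matrix.one_apply, apply_ite f] using congrArg f (b g c)

theorem Good.lift (h : Good O i j) (f : O' →+* O) (hf : Function.Surjective f)
    (h0 : ∀ a b, f a = 0 → f b = 0 → a * b = 0) : Good O' i j := by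
  obtain ⟨τ, T, y, a, b⟩ := h
  obtain ⟨σ, S, c, d⟩ := lift_higman (f.mapMatrix (m := ι)) (fun A => ⟨A.map (Function.surjInv hf), Matrix.ext fun _ _ =>
    Function.surjInv_eq hf _⟩) (fun A B u v => Matrix.ext fun k l =>
    Finset.sum_eq_zero fun m _ => h0 _ _ (congrFun₂ u k m) (congrFun₂ v m l)) τ a
  choose z hz using fun g => hf (y g)
  refine ⟨σ, S, fun g => z g * (2 - (σ g - 1) (i g) (j g) * z g), d, fun g e => ?_⟩
  have k : f (1 - (σ g - 1) (i g) (j g) * z g) = 0 := by
    rw [map_sub, map_mul, hz, map_one, ← b g e, ← c, ← map_one f.mapMatrix, ← map_sub]; exact sub_self _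
  linear_combination -h0 _ _ k k

theorem Good.pi {κ : Type*} {O : κ → Type*} [∀ k, CommRing (O k)] (h : ∀ k, Good (O k) i j) : Good (∀ k, O k) i j := by
  choose τ T y a b using h
  refine ⟨⟨⟨fun g => .of fun l m k => τ k g l m, ?_⟩, fun g h => ?_⟩, .of fun l m k => T k l m, fun g k => y k g, ?_,
    fun g c => funext fun k => ?_⟩
  · ext l m k; simp [Matrix.one_apply, ite_apply]
  · ext l m k; simp [Matrix.mul_apply]
  · ext l m k; simpa [Matrix.one_apply, ite_apply, Matrix.mul_apply, Matrix.sum_apply] using congrFun₂ (a k) l m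
  · simpa [Matrix.one_apply, ite_apply] using b k g c

theorem Good.fg (h : Good O i j) : ∃ S : Subalgebra ℤ O, Algebra.FiniteType ℤ S ∧ Good S i j := by
  obtain ⟨τ, T, y, a, b⟩ := h
  let S := Algebra.adjoin ℤ (Set.range (fun x : G × ι × ι => τ x.1 x.2.1 x.2.2) ∪
    Set.range (fun x : ι × ι => T x.1 x.2) ∪ Set.range y)
  have inj : Function.Injective (S.val.toRingHom.mapMatrix (m := ι)) := Matrix.map_injective Subtype.val_injective
  refine ⟨S, Algebra.FiniteType.adjoin_of_finite (Set.toFinite _), ⟨⟨fun g => .of fun l m =>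
    ⟨τ g l m, Algebra.subset_adjoin (.inl (.inl ⟨(g, l, m), rfl⟩))⟩, inj (τ.map_one.trans (map_one _).symm)⟩, fun g h =>
    inj ((τ.map_mul g h).trans (by rw [map_mul]; rfl))⟩, .of fun l m => ⟨T l m, Algebra.subset_adjoin (.inl (.inr ⟨(l, m), rfl⟩))⟩,
    fun g => ⟨y g, Algebra.subset_adjoin (.inr ⟨g, rfl⟩)⟩, inj ?_, fun g c => Subtype.ext ?_⟩
  · simp only [map_sum, map_mul, map_one]; exact a
  · simpa [Matrix.one_apply, apply_ite Subtype.val] using b g c

theorem exists_point (A : Type*) [CommRing A] [Nontrivial A] [Algebra ℂ A] [Algebra.FiniteType ℂ A] :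
    Nonempty (A →+* ℂ) := by
  obtain ⟨m, hm⟩ := Ideal.exists_maximal A
  let := Ideal.Quotient.field m
  have := finite_of_finite_type_of_isJacobsonRing ℂ (A ⧸ m)
  exact ⟨(IsAlgClosed.lift : _ →ₐ[ℂ] ℂ).toRingHom.comp (Ideal.Quotient.mk m)⟩

theorem Good.complex [Nontrivial O] (h : Good O i j) : Good ℂ i j := by
  obtain ⟨S, a, b⟩ := h.fg
  obtain ⟨n, f, c⟩ := Algebra.FiniteType.iff_quotient_mvPolynomial''.mp a
  set I := RingHom.ker f
  have d : ∀ k, Good (MvPolynomial (Fin n) ℤ ⧸ I ^ (k + 1)) i j := fun k => by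
    induction k with
    | zero => exact b.map ((Ideal.quotEquivOfEq (pow_one I)).trans (RingHom.quotientKerEquivOfSurjective c)).symm.toRingHom
    | succ k ih =>
      refine ih.lift (Ideal.Quotient.factor (Ideal.pow_le_pow_right (k + 1).le_succ)) (Ideal.Quotient.factor_surjective _)
        fun x y => x.inductionOn' fun x => y.inductionOn' fun y u v => Ideal.Quotient.eq_zero_iff_mem.mpr ?_
      exact Ideal.pow_le_pow_right (show k + 1 + 1 ≤ k + 1 + (k + 1) by omega) (pow_add I _ _ ▸ Ideal.mul_mem_mul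
        (Ideal.Quotient.eq_zero_iff_mem.mp u) (Ideal.Quotient.eq_zero_iff_mem.mp v))
  obtain ⟨S', e, g⟩ := (Good.pi d).fg
  have : Nontrivial (ℂ ⊗[ℤ] S') := Algebra.TensorProduct.nontrivial_of_algebraMap_injective_of_flat_left _ _ _
    ((injective_iff_map_eq_zero _).mpr fun m u => by
      have : (m : MvPolynomial (Fin n) ℤ) ∈ ⨅ k, I ^ k := Ideal.mem_iInf.mpr fun k =>
        Ideal.pow_le_pow_right k.le_succ (Ideal.Quotient.eq_zero_iff_mem.mp (by
          simpa using congrFun (congrArg Subtype.val u) k))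
      simpa [Ideal.iInf_pow_eq_bot_of_isDomain I (RingHom.ker_ne_top f)] using this)
  exact (exists_point (ℂ ⊗[ℤ] S')).elim fun φ => (g.map Algebra.TensorProduct.includeRight.toRingHom).map φ

end Cfsg.Agent.Isaacs
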