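import Mathlib
import Cfsg.Agent.Isaacs.Lift
import Cfsg.Agent.Isaacs.Jordan

/-! The Brauer-Feit analogue of Jordan's theorem in characteristic `p`. -/

set_option autoImplicit false

namespace Cfsg.Agent.Isaacs

open scoped Pointwise

variable {F : Type*} [Field F] {G : Type*} [Group G] [Fintype G]

/-- precomposition as an algebra homomorphism -/
def pre (F : Type*) [Field F] {α β : Type*} (e : α → β) : (β → F) →ₐ[F] (α → F) :=
  AlgHom.pi fun a => Pi.evalAlgHom F _ (e a)

@[simp] theorem pre_apply {α β : Type*} (e : α → β) (f : β → F) (a : α) : pre F e f a = f (e a) := rfl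

theorem prod_mem_pow {A : Type*} [CommRing A] [Algebra F A] {V : Submodule F A} {ι : Type*} (s : Multiset ι) {f : ι → A}
    (h : ∀ x, f x ∈ V) : (s.map f).prod ∈ V ^ s.card := by
  induction s using Multiset.induction_on with
  | empty => simp [Submodule.one_le.mp]
  | cons a s ih =>
    rw [Multiset.map_cons, Multiset.prod_cons, Multiset.card_cons, pow_succ']
    exact Submodule.mul_mem_mul (h a) ih

omit [Fintype G] in
theorem exists_trace_one (P : Subgroup G) [Fintype P] {V : Submodule F (G → F)}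
    (hV : ∀ g, ∀ v ∈ V, pre F (· * g) v ∈ V) {κ : Type*} [Fintype κ] {u v : κ → G → F} (hu : ∀ k, u k ∈ V)
    (hv : ∀ k, v k ∈ V) (h : ∀ g, ∑ k, u k g * ∑ y : P, v k (g * y) = 1) :
    ∃ f ∈ V ^ (2 * Fintype.card P), ∀ g, ∑ y : P, f (g * y) = 1 := by
  classical
  let t : κ → G → F := fun k => ∑ y : P, pre F (· * y.1) (v k)
  have ht : ∀ k g (z : P), t k (g * z) = t k g := fun k g z => by
    simpa [t] using Fintype.sum_equiv (Equiv.mulLeft z) _ _ fun y => by simp [mul_assoc]
  let μ : (P → κ) → Multiset κ := fun φ => Finset.univ.val.map φ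
  have : ∀ s : Multiset κ, s ≠ 0 → ∃ k, k ∈ s := fun s => Multiset.exists_mem_of_ne_zero
  have : Nonempty κ := by
    by_contra c
    simpa [Finset.univ_eq_empty_iff.mpr (not_nonempty_iff.mp c)] using h 1
  choose! c hc using ‹∀ s : Multiset κ, s ≠ 0 → ∃ k, k ∈ s›
  have hμ : ∀ φ, c (μ φ) ∈ μ φ := fun φ => hc _ (by simp [μ, Finset.univ_nonempty.ne_empty])
  refine ⟨∑ φ : P → κ, (∏ y : P, pre F (· * y.1) (u (φ y))) * ((((μ φ).erase (c (μ φ))).map t).prod * v (c (μ φ))),
    Submodule.sum_mem _ fun φ _ => ?_, fun g => ?_⟩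
  · rw [two_mul, pow_add]
    refine Submodule.mul_mem_mul (prod_mem_pow Finset.univ.val fun y => hV _ _ (hu _)) ?_
    have := Submodule.mul_mem_mul (prod_mem_pow (V := V) (f := t) ((μ φ).erase (c (μ φ))) fun x =>
      Submodule.sum_mem _ fun y _ => hV _ _ (hv _)) (hv (c (μ φ)))
    rwa [← pow_succ, Multiset.card_erase_add_one (hμ φ), Multiset.card_map] at this
  have e : ∀ z : P, ∑ φ : P → κ, (∏ y : P, u (φ y) (g * z * y)) * ((((μ φ).erase (c (μ φ))).map (t · (g * z))).prod *
      v (c (μ φ)) (g * z)) = ∑ φ : P → κ, (∏ y : P, u (φ y) (g * y)) * ((((μ φ).erase (c (μ φ))).map (t · g)).prod *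
      v (c (μ φ)) (g * z)) := fun z => by
    refine Fintype.sum_equiv ((Equiv.mulLeft z).arrowCongr (Equiv.refl κ)) _ _ fun φ => ?_
    have : μ ((Equiv.mulLeft z).arrowCongr (Equiv.refl κ) φ) = μ φ := by
      simp only [μ]
      conv_lhs => rw [← Finset.map_univ_equiv (Equiv.mulLeft z), Finset.map_val, Multiset.map_map]
      simp
    simp only [this, ht]
    congr 1
    exact Fintype.prod_equiv (Equiv.mulLeft z) _ _ fun y => by simp [mul_assoc]
  simp only [Finset.sum_apply, Pi.mul_apply, Finset.prod_apply, pre_apply, Pi.multiset_prod_apply, Multiset.map_map,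
    Function.comp_def, e]
  rw [Finset.sum_comm]
  calc _ = ∑ φ : P → κ, ∏ y : P, u (φ y) (g * y) * t (φ y) (g * y) := Finset.sum_congr rfl fun φ _ => by
        simp only [← Finset.mul_sum, Finset.prod_mul_distrib, ht]
        rw [mul_comm (Multiset.prod _), show ∑ y : P, v (c (μ φ)) (g * y) = t (c (μ φ)) g by simp [t],
          Multiset.prod_map_erase (f := (t · g)) (hμ φ), Multiset.map_map]
        rfl
    _ = 1 := by
      rw [← Fintype.prod_sum fun (y : P) k => u k (g * y) * t k (g * y)]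
      exact Finset.prod_eq_one fun y _ => by simpa [t] using h (g * y)

omit [Fintype G] in
theorem exists_sep (P : Subgroup G) [Fintype P] {n : ℕ} (M : G →* Matrix (Fin n) (Fin n) F) (hM : Function.Injective M)
    {W : Submodule F (G → F)} (h1 : 1 ∈ W) (h2 : ∀ i j, (fun g => M g i j) ∈ W) (h3 : ∀ i j, (fun g => M g⁻¹ i j) ∈ W) :
    ∃ (m : ℕ) (u v : Fin m → G → F), (∀ k, u k ∈ W ^ Fintype.card P) ∧ (∀ k, v k ∈ W ^ Fintype.card P) ∧
      ∀ g, ∑ k, u k g * ∑ y : P, v k (g * y) = 1 := by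
  classical
  let a := pre F (Prod.fst : G × G → G)
  let b := pre F (Prod.snd : G × G → G)
  have z : ∀ u ∈ W, ∀ v ∈ W, a u * b v ∈ W.map a.toLinearMap * W.map b.toLinearMap := fun u i v j =>
    Submodule.mul_mem_mul ⟨u, i, rfl⟩ ⟨v, j, rfl⟩
  have : ∀ x : P, ∃ K ∈ W.map a.toLinearMap * W.map b.toLinearMap, (∀ g, K (g, g) = 1) ∧
      (x ≠ 1 → ∀ g, K (g, g * x) = 0) := fun x => by
    by_cases c : x = 1
    · exact ⟨_, z 1 h1 1 h1, by simp, fun i => absurd c i⟩
    obtain ⟨i, j, e⟩ : ∃ i j, (1 : Matrix (Fin n) (Fin n) F) i j - M x i j ≠ 0 := by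
      by_contra! e
      exact c (Subtype.ext (hM (M.map_one ▸ Matrix.ext fun i j => (sub_eq_zero.mp (e i j)).symm)))
    have k : ∀ g h, ∑ l, M g⁻¹ i l * M h l j = M (g⁻¹ * h) i j := fun g h => by rw [map_mul, Matrix.mul_apply]
    exact ⟨_, Submodule.smul_mem _ ((1 : Matrix (Fin n) (Fin n) F) i j - M x i j)⁻¹ (Submodule.sub_mem _
      (Submodule.sum_mem (t := Finset.univ) _ fun l _ => z _ (h3 i l) _ (h2 l j)) (Submodule.smul_mem _ (M x i j) (z 1 h1 1 h1))),
      fun g => by simp [a, b, k, e], fun _ g => by simp [a, b, k, -map_mul]⟩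
  choose K k1 k2 k3 using this
  have := prod_mem_pow Finset.univ.val k1
  rw [mul_pow, ← Submodule.map_pow, ← Submodule.map_pow, Submodule.mul_eq_span_mul_set,
    Submodule.mem_span_set'] at this
  obtain ⟨m, c, w, e⟩ := this
  choose u hu v hv using fun k => (w k).2
  choose u' hu' e1 using hu
  choose v' hv' e2 using fun k => (hv k).1
  refine ⟨m, fun k => c k • u' k, v', fun k => Submodule.smul_mem _ _ (hu' k), hv', fun g => ?_⟩
  have : ∀ y : P, ∑ k, c k * u' k g * v' k (g * y) = if y = 1 then 1 else 0 := fun y => by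
    have := congrFun e (g, g * y)
    simp only [← fun k => (hv k).2, ← e1, ← e2, Finset.sum_apply, ← Finset.prod_eq_multiset_prod, Finset.prod_apply] at this
    refine (by simpa [a, b, mul_assoc] using this : _ = ∏ x, K x (g, g * y)).trans ?_
    split_ifs with i
    · simp [i, k2]
    · exact Finset.prod_eq_zero (Finset.mem_univ y) (k3 y i g)
  simp only [Finset.mul_sum, Pi.smul_apply, smul_eq_mul]
  rw [Finset.sum_comm]
  simp [this]

section
variable {V : Type*} [AddCommGroup V] [Module F V] [FiniteDimensional F V] (σ : Representation F G V)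

omit [FiniteDimensional F V] in
theorem tr_comm (T : Module.End F V) (g : G) : (∑ g, σ g * T * σ g⁻¹) * σ g = σ g * ∑ g, σ g * T * σ g⁻¹ := by
  rw [Finset.sum_mul, Finset.mul_sum]
  exact Fintype.sum_equiv (Equiv.mulLeft g⁻¹) _ _ fun k => by
    simp only [Equiv.coe_mulLeft, ← mul_assoc, ← σ.map_mul]; simp [mul_assoc]

theorem good_of_unit [Nontrivial G] {T : Module.End F V} (c : IsUnit (∑ g, σ g * T * σ g⁻¹)) (h : ∀ g, σ g = 1 → g = 1) :
    ∃ i j : G → Fin (Module.finrank F V), Good F i j := by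
  obtain ⟨a, η, b⟩ : ∃ η, (∑ g, σ g * T * σ g⁻¹) * η = 1 ∧ η * (∑ g, σ g * T * σ g⁻¹) = 1 := isUnit_iff_exists.mp c
  let φ := LinearMap.toMatrixAlgEquiv (Module.finBasis F V)
  have : ∀ g, g ≠ 1 → ∃ x : Fin _ × Fin _, (φ (σ g) - 1) x.1 x.2 ≠ 0 := fun g i => by
    by_contra! j
    exact i (h g (φ.injective ((sub_eq_zero.mp (Matrix.ext fun l m => j (l, m))).trans (map_one φ).symm)))
  have ne := (exists_ne (1 : G)).elim fun g i => (this g i).nonempty
  choose! x hx using this
  refine ⟨fun g => (x g).1, fun g => (x g).2, φ.toMonoidHom.comp σ, φ (T * a), fun g => ((φ (σ g) - 1) (x g).1 (x g).2)⁻¹, ?_,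
    fun g i => mul_inv_cancel₀ (hx g i)⟩
  have : ∀ g, a * σ g = σ g * a := fun g => by
    rw [← mul_one (a * σ g), ← η, ← mul_assoc, mul_assoc a, ← tr_comm, ← mul_assoc a, b, one_mul]
  simpa [← mul_assoc, mul_assoc _ (φ a), ← map_mul φ a, this, Finset.sum_mul] using congrArg φ η

theorem exists_good [Nontrivial G] (n : ℕ) : ∀ (U : Submodule F V) (T : Module.End F V), (∀ g, ∀ x ∈ U, σ g x ∈ U) →
    (∀ x, T x ∈ U) → Module.finrank F U ≤ n → (∀ g, g ≠ 1 → ∃ w, (∑ g, σ g * T * σ g⁻¹) w = w ∧ σ g w ≠ w) →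
    ∃ N ≤ n, ∃ i j : G → Fin N, Good F i j := by
  induction n using Nat.strong_induction_on with
  | _ n ih =>
  intro U T hU hT hn h
  have t := tr_comm σ T
  set θ := ∑ g, σ g * T * σ g⁻¹ with e
  have d : ∀ x, θ x ∈ U := fun x => by simpa [e, LinearMap.sum_apply] using U.sum_mem fun g _ => hU g _ (hT _)
  by_cases c : U ≤ U.map θ
  · refine ⟨_, hn, good_of_unit (σ.subrepresentation U hU) (T := T.restrict fun x _ => hT x)
      ((LinearMap.isUnit_iff_range_eq_top _).mpr (eq_top_iff.mpr fun x _ => (c x.2).elim fun y i => ⟨⟨y, i.1⟩, Subtype.ext ?_⟩))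
      fun g i => not_not.mp fun j => (h g j).elim fun w k => k.2 (congrArg Subtype.val (LinearMap.congr_fun i ⟨w, k.1 ▸ d w⟩))⟩
    refine .trans ?_ i.2
    rw [LinearMap.sum_apply, Submodule.coe_sum]
    exact (LinearMap.sum_apply _ (fun g => σ g * T * σ g⁻¹) y).symm
  · have : ∑ g, σ g * (θ * T) * σ g⁻¹ = θ * θ := by
      conv_rhs => rw [e, Finset.mul_sum, ← e]
      simp only [← mul_assoc, t]
    have l := (Submodule.finrank_lt_finrank_of_lt (lt_of_le_not_ge (Submodule.map_le_iff_le_comap.mpr fun x _ => d x) c)).trans_le hn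
    obtain ⟨N, i, j⟩ := ih _ l (U.map θ) (θ * T) (fun g _ ⟨x, i, j⟩ => ⟨σ g x, hU g x i, j ▸ LinearMap.congr_fun (t g) x⟩)
      (fun x => ⟨_, hT x, rfl⟩) le_rfl fun g i => (h g i).imp fun w j => ⟨by simp [this, j.1], j.2⟩
    exact ⟨N, i.trans l.le, j⟩

end

theorem exists_faith {n p : ℕ} [hp : Fact p.Prime] [CharP F p] (ρ : Representation F G (Fin n → F))
    (h : Function.Injective ρ) : Faith G ((1 + 2 * n ^ 2) ^ (2 * (p ^ (Nat.card G).factorization p) ^ 2 + 1)) := by
  classical
  rcases subsingleton_or_nontrivial G with _ | _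
  · exact ⟨0, 0, chr_zero, by simp, Nat.zero_le _, fun g _ => Subsingleton.elim _ _⟩
  obtain ⟨P⟩ : Nonempty (Sylow p G) := inferInstance
  let M : G →* Matrix (Fin n) (Fin n) F := LinearMap.toMatrixAlgEquiv'.toMonoidHom.comp ρ
  have hM : Function.Injective M := LinearMap.toMatrixAlgEquiv'.injective.comp h
  let s : Finset (G → F) := insert 1 (Finset.univ.image (fun x : Fin n × Fin n => fun g => M g x.1 x.2) ∪
    Finset.univ.image fun x : Fin n × Fin n => fun g => M g⁻¹ x.1 x.2)
  let W := Submodule.span F (s : Set (G → F))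
  have h1 : 1 ∈ W := Submodule.subset_span (by simp [s])
  have h2 : ∀ i j, (fun g => M g i j) ∈ W := fun i j => Submodule.subset_span (by simp [s])
  have h3 : ∀ i j, (fun g => M g⁻¹ i j) ∈ W := fun i j => Submodule.subset_span (by simp [s])
  have hW : ∀ (d : ℕ) g, ∀ v ∈ W ^ d, pre F (· * g) v ∈ W ^ d := fun d g v i => by
    refine pow_le_pow_left' (a := W.map (pre F (· * g)).toLinearMap) ?_ d (Submodule.map_pow W (pre F (· * g)) d ▸ ⟨v, i, rfl⟩)
    rw [Submodule.map_span_le]
    simp only [s, Finset.coe_insert, Finset.coe_union, Finset.coe_image]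
    rintro _ (rfl | ⟨x, -, rfl⟩ | ⟨x, -, rfl⟩)
    · exact h1
    · convert W.sum_mem (t := Finset.univ) fun l _ => W.smul_mem (M g l x.2) (h2 x.1 l)
      ext; simp [Matrix.mul_apply, mul_comm]
    · convert W.sum_mem (t := Finset.univ) fun l _ => W.smul_mem (M g⁻¹ x.1 l) (h3 l x.2)
      ext; simp [Matrix.mul_apply]
  obtain ⟨m, u, v, hu, hv, e⟩ := exists_sep P.1 M hM h1 h2 h3
  obtain ⟨f, f1, f2⟩ := exists_trace_one P.1 (hW _) hu hv e
  rw [← pow_mul, ← Nat.card_eq_fintype_card, P.card_eq_multiplicity, mul_left_comm, ← sq] at f1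
  generalize 2 * (p ^ (Nat.card G).factorization p) ^ 2 = D at *
  have f3 : ∀ g, ∑ x, f (g * x) = P.index := fun g => by
    obtain ⟨S, c, -⟩ := P.1.exists_isComplement_left 1
    rw [Fintype.sum_equiv (Equiv.mulLeft g) (fun x => f (g * x)) f fun _ => rfl, ← Fintype.sum_equiv
      c.equiv.symm _ f fun _ => rfl, Fintype.sum_prod_type, ← c.card_left]
    exact (Finset.sum_congr rfl fun (x : S) _ => f2 x).trans (by simp)
  have f4 : (P.index : F) ≠ 0 := fun i => P.not_dvd_index ((CharP.cast_eq_zero_iff F p _).mp i)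
  have r : Module.finrank F (W ^ (D + 1) :) ≤ (1 + 2 * n ^ 2) ^ (D + 1) := by
    rw [Submodule.span_pow, ← Finset.coe_pow]
    refine (finrank_span_finset_le_card _).trans (Finset.card_pow_le.trans (Nat.pow_le_pow_left ?_ _))
    refine (Finset.card_insert_le _ _).trans ((Nat.succ_le_succ ((Finset.card_union_le _ _).trans
      (Nat.add_le_add Finset.card_image_le Finset.card_image_le))).trans_eq ?_)
    simp; ring
  obtain ⟨π, hπ⟩ := W.exists_isCompl
  let σ : Representation F G (G → F) := ⟨⟨fun g => (pre F (· * g)).toLinearMap, by ext; simp⟩, fun a b => by ext; simp [mul_assoc]⟩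
  obtain ⟨N, hN, i, j, k⟩ := exists_good σ _ _ (LinearMap.mulLeft F ((P.index : F)⁻¹ • f) ∘ₗ W.projection π hπ) (hW (D + 1))
    (fun x => pow_succ W D ▸ Submodule.mul_mem_mul (Submodule.smul_mem _ _ f1) (W.projection_apply_mem hπ x)) r fun g i => by
    obtain ⟨a, b, c⟩ : ∃ a b, M g a b ≠ M 1 a b := by
      by_contra! c
      exact i (hM (Matrix.ext c))
    refine ⟨fun g => M g a b, funext fun x => ?_, fun l => c (by simpa [σ] using congrFun l 1)⟩
    have : ∀ x : G, W.projection π hπ (σ x fun g => M g a b) = σ x fun g => M g a b := fun x =>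
      Submodule.projection_apply_left hπ ⟨_, pow_one W ▸ hW 1 x _ ((pow_one W).symm ▸ h2 a b)⟩
    simp only [LinearMap.sum_apply, Module.End.mul_apply, LinearMap.comp_apply, this]
    simp [σ, ← Finset.sum_mul, ← Finset.mul_sum, f3, f4]
  obtain ⟨τ, -, y, -, l⟩ := k.complex
  have o := funext (Char.IndRep.character_repOfMatrix τ)
  refine ⟨_, N, chr_top.mpr (Char.isChar_character (Char.IndRep.repOfMatrix τ)), by simp, hN, fun g c => not_not.mp fun d => ?_⟩
  have := (Char.character_eq_finrank_iff _ g).mp (c.trans (by simp))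
  rw [Char.IndRep.repOfMatrix_apply, ← Matrix.toLin'_one, Matrix.toLin'.injective.eq_iff] at this
  simpa [this] using l g d

theorem brauer_feit {n p : ℕ} [hp : Fact p.Prime] [CharP F p] (ρ : Representation F G (Fin n → F))
    (h : Function.Injective ρ) : ∃ A : Subgroup G, A.Normal ∧ IsMulCommutative A ∧ A.index ≤
      (Finset.range ((1 + 2 * n ^ 2) ^ (2 * (p ^ (Nat.card G).factorization p) ^ 2 + 1) + 1)).sup
        fun d => d.factorial * 12 ^ (d * ((d + 1).primeCounting + 1)) := by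
  obtain ⟨χ, d, a, b, c, e⟩ := exists_faith ρ h
  obtain ⟨A, i, j, k⟩ := jordan (chr_top.mp a) e b
  exact ⟨A, i, PGrp.isMulCommutative_iff_forall.mpr fun _ u _ => comm_of_commutator_eq_bot j u,
    k.trans (Finset.le_sup (f := fun d => d.factorial * 12 ^ (d * ((d + 1).primeCounting + 1)))
      (Finset.mem_range.mpr (Nat.lt_succ_of_le c)))⟩

end Cfsg.Agent.Isaacs
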