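import Mathlib
import Cfsg.Agent.Isaacs.CD
import Cfsg.Agent.Isaacs.TIDeg

/-! Groups with small character degrees. -/

set_option autoImplicit false

open scoped ComplexConjugate commutatorElement Pointwise

namespace Cfsg.Agent.Isaacs

open Cfsg Cfsg.Agent.Char Subgroup

variable {G : Type*} [Group G] [Finite G] {A H K L M N P : Subgroup G} {θ χ ψ β : G → ℂ} {p m n b : ℕ}
  {R S : ℕ → Prop}

theorem comm_of_lt [hp : Fact p.Prime] (hP : IsPGroup p P) (h : CD ⊥ P (· < p)) : ⁅P, P⁆ ≤ ⊥ :=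
  CD.comm ((h.and cd_dvd).mono le_rfl fun d ⟨e, f⟩ => by
    obtain ⟨j, hj⟩ := hP.exists_card_eq
    rw [relIndex_bot_left, hj] at f
    obtain ⟨_ | i, -, rfl⟩ := (Nat.dvd_prime_pow hp.out).mp f
    · rfl
    · exact absurd (Nat.le_self_pow i.succ_ne_zero p) e.not_ge) norm_top bot_le

theorem CD.lt_sub (h : CD ⊥ K (· < b)) (hl : H ≤ K) : CD ⊥ H (· < b) := fun θ a _ d c => by
  obtain ⟨χ, e, f⟩ := a.exists_over hl
  obtain ⟨k, -, g⟩ := e.deg
  exact ((e.chr.res hl).deg_le a f g c).trans_lt (h χ e ker_bot k g)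

/-- a minimal counterexample to normality of an abelian Sylow subgroup has T.I. Sylow subgroups -/
theorem ti_of_min [hp : Fact p.Prime] (P : Sylow p G) (hc : ⁅(P : Subgroup G), (P : Subgroup G)⁆ ≤ ⊥)
    (h0 : pCore p G = ⊥) (h : ∀ H : Subgroup G, H ≠ ⊤ → ∀ Q : Sylow p H, (Q : Subgroup H).Normal) (g : G)
    (hg : g ∉ normalizer ((P : Subgroup G) : Set G)) :
    (P : Subgroup G) ⊓ MulAut.conj g • (P : Subgroup G) = ⊥ := by
  by_contra a
  set D := (P : Subgroup G) ⊓ MulAut.conj g • (P : Subgroup G)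
  have h1 : (P : Subgroup G) ≤ normalizer (D : Set G) := norm_of_comm_le inf_le_left (hc.trans bot_le)
  have h2 : ((g • P : Sylow p G) : Subgroup G) ≤ normalizer (D : Set G) := norm_of_comm_le inf_le_right (by
    rw [Sylow.coe_subgroup_smul, Core.conj_smul_eq_map, ← map_commutator]
    exact (map_mono hc).trans (by simp))
  have h3 : normalizer (D : Set G) ≠ ⊤ := fun e => a (le_bot_iff.mp (h0 ▸
    Core.le_pCore (Core.normal_of_le_normalizer e.ge) (P.isPGroup'.to_le inf_le_left)))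
  have := Sylow.unique_of_normal _ (h _ h3 (P.subtype h1))
  exact hg (Sylow.smul_eq_iff_mem_normalizer.mp (Sylow.subtype_injective
    (Subsingleton.elim ((g • P).subtype h2) (P.subtype h1))))

theorem normal_of_quot [hp : Fact p.Prime] (P : Sylow p G) [N.Normal] (hN : IsPGroup p N)
    (h : ∀ Q : Sylow p (G ⧸ N), (Q : Subgroup (G ⧸ N)).Normal) : (P : Subgroup G).Normal := by
  have := (h (P.mapSurjective (QuotientGroup.mk'_surjective N))).comap (QuotientGroup.mk' N)
  rwa [Sylow.coe_mapSurjective, comap_map_eq, QuotientGroup.ker_mk', sup_eq_left.mpr (hN.le_sylow_of_normal P)] at this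

theorem exists_constit_ne_one (hH : H ≠ ⊤) : ∃ χ, Irr ⊤ χ ∧ χ ≠ (fun _ => 1) ∧ inn H χ (fun _ => 1) ≠ 0 := by
  by_contra! a
  have e := (chr_one.indc (le_top (a := H))).eqv_smul irr_one fun φ b c => eqv_top.mpr (by_contra fun d =>
    inn_ne_comm c (by rw [inn_ind_right le_top b.inv]; exact a φ b d))
  have := e.one
  rw [inn_ind_left le_top irr_one.inv, irr_one.inn_self, ind_one] at this
  exact hH (index_eq_one.mp (by simpa using this))

theorem normal_of_lt.{u} [hp : Fact p.Prime] (G : Type u) [Group G] [Finite G] :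
    CD (⊥ : Subgroup G) ⊤ (· < p) → ∀ P : Sylow p G, (P : Subgroup G).Normal := by
  refine Core.induction_on_card (P := fun G _ _ =>
    CD (⊥ : Subgroup G) ⊤ (· < p) → ∀ P : Sylow p G, (P : Subgroup G).Normal) (fun G _ _ ih h P => ?_) G
  by_cases h0 : pCore p G = ⊥
  swap
  · exact normal_of_quot P (Core.pCore_isPGroup p) (ih _ (Core.card_quotient_lt _ h0) (h.mono bot_le fun _ => id).quot)
  by_contra a
  obtain ⟨χ, b, c, d⟩ := exists_constit_ne_one (mt normalizer_eq_top_iff.mp a)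
  obtain ⟨n, -, e⟩ := b.deg
  refine (h χ b ker_bot n e).not_ge (le_trans (Nat.le_of_dvd Nat.card_pos (Core.prime_dvd_card_of_isPGroup P.isPGroup'
    fun f => a (f ▸ inferInstance))) (ti_deg P (ti_of_min P (comm_of_lt P.isPGroup' (h.lt_sub le_top)) h0
      fun H hH => ih H (Core.card_lt_of_ne_top H hH) (h.lt_sub le_top).sub') le_rfl (irr_top.mp b) c d e))

end Cfsg.Agent.Isaacs
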