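import Mathlib
import Cfsg.Agent.Isaacs.OddCorr

/-! The parity correspondence of Isaacs for an abelian section of a group of odd order. -/

set_option autoImplicit false

open scoped ComplexConjugate commutatorElement

namespace Cfsg.Agent.Isaacs

open Cfsg Cfsg.Agent.Char Subgroup

variable {G : Type*} [Group G] [Finite G] {A B C D H K L M N P Q S T U V W Z : Subgroup G}
  {θ φ ψ χ η β ξ μ : G → ℂ} {p : ℕ} {X Y X' Y' : (G → ℂ) → Prop}

omit [Finite G] in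
theorem map_le_cent {R : Type*} [Group R] (f : G →* R) (h : H ≤ centralizer (A : Set G)) :
    H.map f ≤ centralizer (A.map f : Set R) := by
  rintro _ ⟨x, hx, rfl⟩ _ ⟨a, ha, rfl⟩
  rw [← map_mul, h hx a ha, map_mul]

theorem gd_of_aut (hp : p.Prime) (τ : MulAut G) (hτ : τ ^ p = 1) (hμ : Irr Z μ) (hl : Z ≤ K) (hl' : Z ≤ H)
    (hab : ⁅K, K⁆ ≤ Z) (hA : A ≤ normalizer (K : Set G)) (hM : K ⊔ H = M)
    (hn : H ≤ normalizer (K : Set G)) (hH : H ≤ centralizer (A : Set G))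
    (hZ : M ≤ centralizer (Z : Set G)) (hAZ : A ≤ centralizer (Z : Set G))
    (hc : (Nat.card A).Coprime (Nat.card M)) (hf : K ⊓ centralizer (A : Set G) ≤ Z)
    (hPK : ∀ x ∈ K, τ x ∈ K) (hPA : ∀ x ∈ A, τ x ∈ A) (hM' : ¬ p ∣ Nat.card M)
    (hPH : ∀ x ∈ M, τ x = x ↔ x ∈ H) (hf' : K ⊓ H ≤ Z) :
    GD p (Ov A Z μ M) (Ov A Z μ H) M H := by
  have := Fact.mk hp
  let Ω := SemidirectProduct G (MulAut G) (MonoidHom.id _)
  have : Finite Ω := Finite.of_equiv _ SemidirectProduct.equivProd.symm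
  let f : G →* Ω := SemidirectProduct.inl
  have hf1 : Function.Injective f := SemidirectProduct.inl_injective
  let s : Ω := SemidirectProduct.inr τ
  have h1 : ∀ x, s * f x * s⁻¹ = f (τ x) := fun x => by
    rw [← map_inv]; exact (SemidirectProduct.inl_aut τ x).symm
  have h2 : ∀ {X : Subgroup G}, (∀ x ∈ X, τ x ∈ X) → zpowers s ≤ normalizer ((X.map f : Subgroup Ω) : Set Ω) :=
    fun h => zpowers_le.mpr (mem_normalizer_fintype (by
      rintro _ ⟨x, hx, rfl⟩; exact ⟨_, h x hx, (h1 x).symm⟩))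
  have h3 : H ≤ M := hM ▸ le_sup_right
  have h4 : A ≤ normalizer (H : Set G) := (le_centralizer_iff.mp hH).trans (centralizer_le_normalizer _)
  refine (GD.map_iff f (μ := fun ω => μ ω.left) (by rw [f.ker_eq_bot_iff.mpr hf1, bot_inf_eq]) hl' h3
    (hM ▸ Core.le_normalizer_sup hA h4) h4).mp (gd_of_pgroup (P := zpowers s) (K := K.map f) hp
      (IsPGroup.of_card_dvd_pow (n := 1) ?_) (Irr.to_map f hμ) (map_mono hl) (map_mono hl')
      (map_commutator K K f ▸ map_mono hab) (Core.map_le_normalizer_map hA f) (by rw [← Subgroup.map_sup, hM])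
      (Core.map_le_normalizer_map hn f) (map_le_cent f hH) (map_le_cent f hZ) (map_le_cent f hAZ)
      (by rwa [card_map_of_injective hf1, card_map_of_injective hf1]) ?_ (h2 hPK) (h2 hPA)
      (by rwa [card_map_of_injective hf1]) (le_antisymm ?_ (le_inf (map_mono h3) ?_))
      (by rw [← map_inf _ _ _ hf1]; exact map_mono hf'))
  · rw [Nat.card_zpowers, pow_one]
    exact orderOf_dvd_of_pow_eq_one (by rw [← map_pow, hτ, map_one])
  · rintro _ ⟨⟨x, hx, rfl⟩, h⟩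
    exact ⟨x, hf ⟨hx, fun a ha => hf1 (by rw [map_mul, map_mul]; exact h _ ⟨a, ha, rfl⟩)⟩, rfl⟩
  · rintro _ ⟨⟨x, hx, rfl⟩, h⟩
    exact ⟨x, (hPH x hx).mp (hf1 (by rw [← h1, h s (mem_zpowers s), mul_inv_cancel_right])), rfl⟩
  · rintro _ ⟨x, hx, rfl⟩ y hy
    refine (comm_zpowers (mul_inv_eq_iff_eq_mul.mp ?_ : Commute s (f x)).symm y hy).symm
    rw [h1, (hPH x (h3 hx)).mpr hx]

theorem mem_of_comm_rel (hl : N ≤ V) (hV : V ≤ normalizer (N : Set G)) (hA : A ≤ normalizer (N : Set G))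
    (hAV : A ≤ normalizer (V : Set G)) (hab : ⁅V, V⁆ ≤ N) (hc : (N.relIndex A).Coprime (N.relIndex V))
    {x : G} (hx : x ∈ ⁅V, A⁆ ⊔ N) (h : ∀ a ∈ A, a * x * a⁻¹ * x⁻¹ ∈ N) : x ∈ N := by
  set L := normalizer (N : Set G)
  let f := QuotientGroup.mk' (N.subgroupOf L)
  have hf : ∀ y, f y = 1 ↔ (y : G) ∈ N := fun y => QuotientGroup.eq_one_iff y
  have h1 : ∀ X : Subgroup G, X ≤ L → Nat.card ((X.subgroupOf L).map f) = N.relIndex X := fun X hX => by
    rw [← relIndex_ker, QuotientGroup.ker_mk', relIndex_subgroupOf hX]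
  have h2 := Core.centralizer_inf_commutator_eq_bot ((A.subgroupOf L).map f) ((V.subgroupOf L).map f)
    ⟨⟨by
      rintro ⟨_, a, ha, rfl⟩ ⟨_, b, hb, rfl⟩
      exact Subtype.ext (commutatorElement_eq_one_iff_mul_comm.mp (by
        rw [← map_commutatorElement, hf]; exact hab (commutator_mem_commutator ha hb)))⟩⟩
    (Core.map_le_normalizer_map (Core.subgroupOf_le_normalizer_subgroupOf hAV L) f) (by rwa [h1 A hA, h1 V hV])
  have h3 : x ∈ V := sup_le (Core.commutator_le_of_le_normalizer hAV) hl hx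
  have h4 : ⁅V, A⁆ ⊔ N = (⁅V.subgroupOf L, A.subgroupOf L⁆ ⊔ N.subgroupOf L).map L.subtype := by
    rw [Subgroup.map_sup, map_commutator, map_subgroupOf_eq_of_le hV, map_subgroupOf_eq_of_le hA,
      map_subgroupOf_eq_of_le le_normalizer]
  obtain ⟨y, hy, rfl⟩ := h4.le hx
  refine (hf y).mp (h2.le ⟨⟨⟨y, h3, rfl⟩, ?_⟩, ?_⟩)
  · rintro _ ⟨a, ha, rfl⟩
    have := (hf (a * y * a⁻¹ * y⁻¹)).mpr (h a ha)
    simp only [map_mul, map_inv] at this
    exact mul_inv_eq_iff_eq_mul.mp (mul_inv_eq_one.mp this)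
  · have := mem_map_of_mem f hy
    rwa [Subgroup.map_sup, map_commutator, (Subgroup.map_eq_bot_iff _).mpr (QuotientGroup.ker_mk' _).ge,
      sup_bot_eq] at this

omit [Finite G] in
theorem comm_mul_center {a b u v : G} (hu : u ∈ center G) (hv : v ∈ center G) :
    ⁅a * u, b * v⁆ = ⁅a, b⁆ := by
  have h1 := mem_center_iff.mp hu
  have h2 := mem_center_iff.mp hv
  calc _ = a * (u * (b * v)) * u⁻¹ * (a⁻¹ * v⁻¹) * b⁻¹ := by group
    _ = _ := by rw [← h1, mem_center_iff.mp (inv_mem hv)]; group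

theorem gd_central_odd (hZ : Z ≤ center G) (hμ : Irr Z μ) (hl : Z ≤ K) (hl' : Z ≤ H)
    (hab : ⁅K, K⁆ ≤ Z) (hA : A ≤ normalizer (K : Set G)) (hM : K ⊔ H = M)
    (hn : H ≤ normalizer (K : Set G)) (hH : H ≤ centralizer (A : Set G))
    (hc : (Nat.card A).Coprime (Nat.card M)) (hf : K ⊓ centralizer (A : Set G) ≤ Z)
    (ho : Odd (Nat.card M)) : GD 2 (Ov A Z μ M) (Ov A Z μ H) M H := by
  have := normal_of_le_center' hZ
  have h1 : K ≤ M := hM ▸ le_sup_left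
  have hc' := Core.coprime_of_le_right hc h1
  let d : G →* G × G := (MonoidHom.id G).prod (MonoidHom.id G)
  let f := MonoidHom.fst G G
  let τ : MulAut (G × G) := MulEquiv.prodComm
  have hd : ∀ X : Subgroup G, (X.map d).map f = X := fun X => by rw [map_map]; exact map_id X
  have hd' : ∀ X : Subgroup G, ∀ x ∈ X.map d, τ x = x := by rintro X _ ⟨x, -, rfl⟩; rfl
  let E : Subgroup (G × G) :=
    { carrier := {x | x.1 ∈ K ∧ x.2 ∈ K ∧ x.1 * x.2 ∈ Z}
      mul_mem' := fun {x y} hx hy => ⟨mul_mem hx.1 hy.1, mul_mem hx.2.1 hy.2.1, by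
        have := mul_mem (mul_mem hx.2.2 (hab (commutator_mem_commutator (inv_mem hx.2.1) hy.1))) hy.2.2
        simpa [commutatorElement_def, mul_assoc] using this⟩
      one_mem' := ⟨one_mem _, one_mem _, by simp⟩
      inv_mem' := fun {x} hx => ⟨inv_mem hx.1, inv_mem hx.2.1, by
        simpa [mul_assoc] using inv_mem (this.conj_mem _ hx.2.2 x.1⁻¹)⟩ }
  have e1 : ∀ {X : Subgroup G}, X ≤ normalizer (K : Set G) → X.map d ≤ normalizer (E : Set (G × G)) :=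
    fun h => le_norm (by
      rintro _ ⟨a, ha, rfl⟩ x hx
      exact ⟨conj_mem h ha hx.1, conj_mem h ha hx.2.1, by
        simpa [d, mul_assoc] using this.conj_mem _ hx.2.2 a⟩)
  have e2 : Z.map d ≤ E := by rintro _ ⟨z, hz, rfl⟩; exact ⟨hl hz, hl hz, mul_mem hz hz⟩
  have e3 : Z.map d ≤ center (G × G) := by
    rintro _ ⟨z, hz, rfl⟩
    exact mem_center_iff.mpr fun g => Prod.ext (mem_center_iff.mp (hZ hz) _) (mem_center_iff.mp (hZ hz) _)
  have e4 : ⁅E, E⁆ ≤ Z.map d := commutator_le.mpr fun x hx y hy =>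
    ⟨_, hab (commutator_mem_commutator hx.1 hy.1), Prod.ext rfl (by
      change ⁅x.1, y.1⁆ = ⁅x.2, y.2⁆
      rw [show x.2 = x.1⁻¹ * (x.1 * x.2) by group, show y.2 = y.1⁻¹ * (y.1 * y.2) by group,
        comm_mul_center (hZ hx.2.2) (hZ hy.2.2), show ⁅x.1⁻¹, y.1⁻¹⁆ = (y.1 * x.1)⁻¹ * ⁅x.1, y.1⁆ * (y.1 * x.1) by
          group, mem_center_iff.mp (hZ (hab (commutator_mem_commutator hx.1 hy.1))), inv_mul_cancel_right])⟩
  set U := ⁅E, A.map d⁆ ⊔ Z.map d
  have u1 : U ≤ E := sup_le (Core.commutator_le_of_le_normalizer (e1 hA)) e2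
  have u2 : ∀ x ∈ U, x.1 ∈ Z → x ∈ Z.map d := fun x hx h =>
    mem_of_comm_rel e2 (norm_of_le_center e3) (norm_of_le_center e3) (e1 hA) e4
      (((hc'.mul_right hc').coprime_dvd_left ((Core.relIndex_dvd_card' _ _).trans (card_map_dvd _ _))).coprime_dvd_right
        ((Core.relIndex_dvd_card' _ _).trans (by
          rw [← Nat.card_prod, ← Nat.card_congr (prodEquiv K K).toEquiv]
          exact card_dvd_of_le fun y hy => ⟨hy.1, hy.2.1⟩))) hx fun a _ => by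
      have h2 := (Z.mul_mem_cancel_left h).mp (u1 hx).2.2
      rw [show a * x = x * a from Prod.ext (mem_center_iff.mp (hZ h) _) (mem_center_iff.mp (hZ h2) _)]
      simp
  have u3 : H.map d ≤ normalizer (U : Set (G × G)) := Core.le_normalizer_sup (Core.le_normalizer_commutator
    (e1 hn) ((map_le_cent d hH).trans (centralizer_le_normalizer _))) (norm_of_le_center e3)
  have u4 : U.map f = K := by
    have : E.map f = K := le_antisymm (by rintro _ ⟨x, hx, rfl⟩; exact hx.1) fun k hk =>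
      ⟨(k, k⁻¹), ⟨hk, inv_mem hk, by simp⟩, rfl⟩
    rw [Subgroup.map_sup, map_commutator, hd, hd, this]
    exact le_antisymm (sup_le (Core.commutator_le_of_le_normalizer hA) hl) ((Core.commutator_sup_centralizer
      A K hA hc' (FGS.solvable_or_of_coprime hc')).ge.trans (sup_le_sup_left hf _))
  have u5 : f.ker ⊓ (U ⊔ H.map d) = ⊥ := eq_bot_iff.mpr fun w hw => by
    obtain ⟨u, hu, _, ⟨x, hx, rfl⟩, rfl⟩ := (Core.mem_sup_of_le_normalizer u3).mp hw.2
    have h2 : u.1 = x⁻¹ := eq_inv_of_mul_eq_one_left hw.1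
    obtain ⟨z, -, rfl⟩ := u2 u hu (hf ⟨(u1 hu).1, h2 ▸ hH (inv_mem hx)⟩)
    rw [← map_mul, show z * x = 1 from hw.1, map_one]; exact one_mem _
  have u6 : (U ⊔ H.map d).map f = M := by rw [Subgroup.map_sup, u4, hd, hM]
  have u7 : Nat.card (U ⊔ H.map d : Subgroup (G × G)) = Nat.card M := by
    rw [← u6, ← relIndex_ker, ← inf_relIndex_right, u5, relIndex_bot_left]
  have u8 : A.map d ≤ normalizer (U : Set (G × G)) :=
    Core.le_normalizer_sup (Core.le_normalizer_commutator (e1 hA) le_normalizer) (norm_of_le_center e3)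
  have u9 := (le_centralizer_iff.mp (map_le_cent d hH)).trans (centralizer_le_normalizer _)
  have cz : ∀ X : Subgroup (G × G), X ≤ centralizer (Z.map d : Set (G × G)) := fun _ g _ z hz =>
    (mem_center_iff.mp (e3 hz) g).symm
  have := (GD.map_iff f (μ := μ) u5 (map_mono hl') le_sup_right (Core.le_normalizer_sup u8 u9) u9).mpr
    (gd_of_aut Nat.prime_two τ (by ext <;> rfl) (Irr.of_map f (by rwa [hd])) le_sup_right (map_mono hl')
      ((commutator_mono u1 u1).trans e4) u8 rfl u3 (map_le_cent d hH) (cz _) (cz _)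
      (u7 ▸ hc.coprime_dvd_left (card_map_dvd _ _))
      (fun x hx => u2 x hx.1 (hf ⟨(u1 hx.1).1, fun a ha => congrArg Prod.fst (hx.2 _ ⟨a, ha, rfl⟩)⟩))
      (fun x hx => ?_) (fun x hx => by rwa [hd' A x hx]) (u7 ▸ ho.not_two_dvd_nat)
      (fun w hw => ⟨fun e => ?_, hd' H w⟩) ?_)
  · rwa [hd, hd, hd, u6] at this
  · refine (sup_le (commutator_le.mpr fun x hx a ha => ?_) fun x hx => ?_ :
      U ≤ U.comap τ.toMonoidHom) hx
    · rw [mem_comap, map_commutatorElement]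
      refine mem_sup_left (commutator_mem_commutator ⟨hx.2.1, hx.1, ?_⟩ (by
        rw [MulEquiv.coe_toMonoidHom, hd' A a ha]; exact ha))
      change x.2 * x.1 ∈ Z
      simpa [mul_assoc] using this.conj_mem _ hx.2.2 x.1⁻¹
    · rw [mem_comap, MulEquiv.coe_toMonoidHom, hd' Z x hx]; exact mem_sup_right hx
  · obtain ⟨u, hu, _, ⟨x, hx, rfl⟩, rfl⟩ := (Core.mem_sup_of_le_normalizer u3).mp hw
    have h2 : u.2 = u.1 := mul_right_cancel (congrArg Prod.fst e)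
    refine mul_mem (map_mono hl' (u2 u hu (le_of_normal_sylow Nat.prime_two norm_top (K := K)
      (fun h => ho.not_two_dvd_nat (h.trans ((Core.relIndex_dvd_card' _ _).trans (card_dvd_of_le h1))))
      (u1 hu).1 (k := 1) ?_))) ⟨x, hx, rfl⟩
    rw [pow_one, pow_two]; exact (h2 ▸ (u1 hu).2.2 :)
  · rintro _ ⟨hu, x, hx, rfl⟩
    exact u2 _ hu (hf ⟨(u1 hu).1, hH hx⟩)

theorem inn_sh_mem {x : G} (hx : x ∈ K) : inn K (sh x θ) (sh x φ) = inn K θ φ := by
  have := Fintype.ofFinite K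
  refine mul_left_cancel₀ (Nat.cast_ne_zero.mpr (Nat.card_pos (α := K)).ne') ?_
  rw [card_mul_inn, card_mul_inn]
  exact Fintype.sum_equiv (Equiv.mulRight (⟨x, hx⟩ : K)) _ _ fun _ => rfl

theorem inn_sup_center (hZ : Z ≤ center G) (hμ : Chr Z μ) (h1 : μ 1 = 1) (hM : K ⊔ Z = M)
    (h : ∀ g ∈ M, ∀ z ∈ Z, θ (z * g) = μ z * θ g) (h' : ∀ g ∈ M, ∀ z ∈ Z, φ (z * g) = μ z * φ g) :
    inn M θ φ = inn K θ φ := by
  have := Fintype.ofFinite M
  have hl : K ≤ M := hM ▸ le_sup_left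
  refine mul_left_cancel₀ (Nat.cast_ne_zero.mpr (Nat.card_pos (α := M)).ne') ?_
  rw [card_mul_inn_eq_sum hl, Nat.card_eq_fintype_card, ← nsmul_eq_mul, ← Finset.card_univ,
    ← Finset.sum_const]
  refine Finset.sum_congr rfl fun x _ => ?_
  obtain ⟨k, hk, z, hz, e⟩ := (Core.mem_sup_of_le_normalizer (hZ.trans (center_le_normalizer _))).mp (hM.ge x.2)
  have : ∀ {θ : G → ℂ}, (∀ g ∈ M, ∀ z ∈ Z, θ (z * g) = μ z * θ g) → Eqv K (sh x θ) (μ z • sh k θ) :=
    fun h y hy => by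
      rw [sh, e, ← mul_assoc, mem_center_iff.mp (hZ hz), h _ (hl (mul_mem hy hk)) z hz]; rfl
  rw [inn_congr (this h) (this h'), inn_smul_left, inn_smul_right, ← mul_assoc, hμ.mul_conj h1 hz, one_mul,
    inn_sh_mem hk]

theorem GD.central_ext (hZ : Z ≤ center G) (hμ : Chr Z μ) (h1 : μ 1 = 1) {Y : Subgroup G} (hY : Y ≤ Z)
    (hM : L ⊔ Y = M) (hd : Disjoint L Y) (hl : Z ≤ H) (hH : H ≤ M) (hA : A ≤ normalizer (L : Set G))
    (hA' : A ≤ normalizer (H : Set G))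
    (g : GD p (Ov A (Z ⊓ L) μ L) (Ov A (Z ⊓ L) μ (L ⊓ H)) L (L ⊓ H)) :
    GD p (Ov A Z μ M) (Ov A Z μ H) M H := by
  have hμ' := hμ.irr_of_one h1
  have h2 := (hμ.res (inf_le_left (b := L))).irr_of_one h1
  have hY' : Y ≤ normalizer (L : Set G) := (hY.trans hZ).trans (center_le_normalizer _)
  have hs : ∀ {X}, Z ≤ X → X ≤ M → L ⊓ X ⊔ Y = X := fun a b => by
    rw [← Core.sup_inf_of_le_right hY' (hY.trans a), hM, inf_eq_right.mpr b]
  have hs' : ∀ {X}, Z ≤ X → X ≤ M → L ⊓ X ⊔ Z = X := fun a b =>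
    le_antisymm (sup_le inf_le_right a) ((hs a b).ge.trans (sup_le_sup_left hY _))
  have sc : ∀ {X a}, Z ≤ X → Ov A Z μ X a → Eqv Z a (inn Z a μ • μ) := fun a b =>
    b.1.res_smul (norm_of_le_center hZ) a hμ' (inv_of_le_center hZ) b.2.2
  have dn : ∀ {X}, Z ≤ X → X ≤ M → ∀ a, Ov A Z μ X a → ∃ b, Ov A (Z ⊓ L) μ (L ⊓ X) b ∧ Eqv (L ⊓ X) a b ∧
      ∀ g ∈ X, ∀ z ∈ Z, a (z * g) = μ z * a g := fun {X} a b c d => by
    have := fun g hg z hz => d.1.chr.mul_of_smul (z := z) (g := g) a hμ h1 (sc a d) hz hg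
    exact ⟨c, ⟨(d.1.chr.res inf_le_right).irr (by
      rw [← inn_sup_center hZ hμ h1 (hs' a b) this this, d.1.inn_self]), d.2.1.mono le_rfl inf_le_right, by
        rw [h2.inn_of_smul ((sc a d).mono inf_le_left)]; exact d.2.2⟩, .refl _ _, this⟩
  have up : ∀ {X}, Z ≤ X → X ≤ M → A ≤ normalizer (X : Set G) → ∀ b, Ov A (Z ⊓ L) μ (L ⊓ X) b →
      ∃ a, Ov A Z μ X a ∧ Eqv (L ⊓ X) a b ∧ ∀ g ∈ X, ∀ z ∈ Z, a (z * g) = μ z * a g := fun {X} a b c β d => by
    have n1 : Y ≤ normalizer ((L ⊓ X : Subgroup G) : Set G) := (hY.trans hZ).trans (center_le_normalizer _)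
    obtain ⟨χ, a1, a2⟩ := d.1.exists_prod_lin (hμ.res hY) h1 (hd.mono_left inf_le_left)
      (norm_of_le_center (hY.trans hZ)) n1
    rw [hs a b] at a1
    have a3 : Eqv Z χ (inn (Z ⊓ L) β μ • μ) := fun x hx => by
      obtain ⟨u, hu, y, hy, rfl⟩ := (Core.mem_sup_of_le_normalizer n1).mp ((hs a b).ge (a hx))
      have h3 := (Z.mul_mem_cancel_right (hY hy)).mp hx
      rw [a2 u hu y hy, d.1.res_smul (norm_of_le_center (inf_le_left.trans hZ))
        (le_inf inf_le_right (inf_le_left.trans a)) h2 (inv_of_le_center (inf_le_left.trans hZ)) d.2.2 u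
        ⟨h3, hu.1⟩, Pi.smul_apply, Pi.smul_apply, hμ.map_mul h1 h3 (hY hy), smul_mul_assoc]
    refine ⟨χ, ⟨a1, fun s hs'' x hx => ?_, by rw [hμ'.inn_of_smul a3]; exact d.2.2⟩,
      fun x hx => by simpa [h1] using a2 x hx 1 (one_mem _),
      fun g hg z hz => a1.chr.mul_of_smul a hμ h1 a3 hz hg⟩
    obtain ⟨u, hu, y, hy, rfl⟩ := (Core.mem_sup_of_le_normalizer n1).mp ((hs a b).ge hx)
    rw [show s * (u * y) * s⁻¹ = s * u * s⁻¹ * y by
      rw [mul_assoc _ s⁻¹, mem_center_iff.mp (hZ (hY hy)) s⁻¹]; group,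
      a2 _ (conj_mem (Core.le_normalizer_inf hA c) hs'' hu) y hy, a2 u hu y hy, d.2.1 s hs'' u hu]
  have eq : ∀ {X}, Z ≤ X → X ≤ M → ∀ a b a' b' : G → ℂ,
      (Eqv (L ⊓ X) a b ∧ ∀ g ∈ X, ∀ z ∈ Z, a (z * g) = μ z * a g) →
      (Eqv (L ⊓ X) a' b' ∧ ∀ g ∈ X, ∀ z ∈ Z, a' (z * g) = μ z * a' g) → Eqv (L ⊓ X) b b' → Eqv X a a' :=
    fun h3 h4 a b a' b' c d e x hx => by
      obtain ⟨u, hu, y, hy, rfl⟩ := (Core.mem_sup_of_le_normalizer
        (hZ.trans (center_le_normalizer _))).mp ((hs' h3 h4).ge hx)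
      rw [mem_center_iff.mp (hZ hy), c.2 u hu.2 y hy, d.2 u hu.2 y hy, c.1 u hu, d.1 u hu, e u hu]
  have h5 : L ⊓ M = L := inf_eq_left.mpr (hM ▸ le_sup_left)
  have h6 : A ≤ normalizer (M : Set G) := hM ▸ Core.le_normalizer_sup hA (norm_of_le_center (hY.trans hZ))
  exact g.transport (fun a b => Eqv L a b ∧ ∀ g ∈ M, ∀ z ∈ Z, a (z * g) = μ z * a g)
    (fun a b => Eqv (L ⊓ H) a b ∧ ∀ g ∈ H, ∀ z ∈ Z, a (z * g) = μ z * a g)
    (by simpa only [h5] using dn (hl.trans hH) le_rfl) (by simpa only [h5] using up (hl.trans hH) le_rfl h6)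
    (dn hl hH) (up hl hH hA')
    (fun a b a' b' _ _ c d => by
      rw [inn_sup_center hZ hμ h1 (hs' hl hH) (fun g hg => c.2 g (hH hg)) d.2,
        inn_congr (c.1.mono inf_le_left) d.1]) (h5 ▸ eq (hl.trans hH) le_rfl) (eq hl hH)

end Cfsg.Agent.Isaacs
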