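import Mathlib
import Cfsg.Agent.Isaacs.CD3
import Cfsg.Agent.Isaacs.OddCorr2

/-! Character degrees `1` and `p`. -/

set_option autoImplicit false

open scoped ComplexConjugate commutatorElement Pointwise

namespace Cfsg.Agent.Isaacs

open Cfsg Cfsg.Agent.Char Subgroup

variable {G : Type*} [Group G] [Finite G] {A D H K L M N P T U Z : Subgroup G} {θ χ ψ β μ : G → ℂ}
  {p q m n b d : ℕ} {R S : ℕ → Prop}

theorem Inv.inn_of_vanish (h : Inv K K θ) (hn : K ≤ normalizer (L : Set G)) (hl : L ≤ K)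
    (e : ∀ x ∈ K, x ∉ L → θ x = 0) (hχ : Inv K K χ) : inn L θ χ = L.relIndex K * inn K θ χ := by
  rw [← inn_ind_left hl hχ, ← inn_smul_left]
  refine Eqv.inn_left fun x hx => ?_
  by_cases a : x ∈ L
  · exact (h.mono le_rfl hl).ind_res hn hl x a
  · rw [ind_eq_zero_of_normal hn a, Pi.smul_apply, e x hx a, smul_zero]

theorem CD.exists_ext (h : CD ⊥ K (· ≤ b)) (hl : H ≤ K) (hθ : Irr H θ) (hb : θ 1 = b) (hχ : Irr K χ)
    (e : inn H χ θ ≠ 0) : Eqv H χ θ := by
  obtain ⟨k, -, g⟩ := hχ.deg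
  exact (hχ.chr.res hl).eqv_of_deg hθ e (by
    rw [g, hb, (h χ hχ ker_bot k g).antisymm ((hχ.chr.res hl).deg_le hθ e g hb)])

theorem PType.lt (h : PType p K Z) (hK : MaxNA K) (hd : CD (⊥ : Subgroup G) ⊤ (· ≤ b)) : CD ⊥ Z (· < b) :=
  fun φ a _ d c => (hd.le_sub le_top φ a ker_bot d c).lt_of_ne fun e => by
  subst e
  have := h.normal
  have := hK.normal
  obtain ⟨ψ, t1, t2⟩ := a.exists_over le_top
  have t3 := hd.exists_ext le_top a c t1 t2
  obtain ⟨β, u1, u2, f, u3, u4⟩ := hK.exists_nonlin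
  have u5 := h.deg hK u1 u2 u4 u3
  have u6 : Ker ⁅⊤, Z⁆ β := u2.mono (commutator_le.mpr fun g _ x hx => (h.mem x).mp hx g)
  obtain ⟨l, l1, l2⟩ := u1.exists_under (le_top (a := Z))
  have l3 := u2.constit (u1.chr.res le_top) h.le l1 l2
  have l4 := l1.one_of_ker (l3.mono (commutator_le.mpr fun g _ x hx => (h.mem x).mp hx g))
  obtain ⟨k, -, -, l5⟩ := u1.ram norm_top le_top l1 (fun g _ x hx => by
    rw [PGrp.conj_eq_commutator_mul]
    exact l1.chr.mul_of_eq (h.le ((h.mem x).mp hx g)) (l3 _ ((h.mem x).mp hx g)) hx) l2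
  obtain rfl : f = k := by simpa [u4, l4] using l5.one
  obtain ⟨χ, v1, v2⟩ := (t1.chr.mul u1.chr).inv.exists_irr' (mul_ne_zero t1.one_ne u1.one_ne)
  obtain ⟨j, v3⟩ := (t1.chr.mul u1.chr).inn_nat v1.chr
  have v4 := (t1.chr.mul u1.chr).inv.inn_of_vanish norm_top le_top (fun x _ hx => by
    rw [Pi.mul_apply, (u1.sq_deg_iff le_top u4 u6).mp (by simpa using u5) x trivial hx, mul_zero]) v1.inv
  have w := a.mul_lin l1.chr l4
  obtain ⟨_, f0, v5⟩ := u1.deg
  obtain ⟨_, d0, v6⟩ := a.deg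
  obtain ⟨i, -, v7⟩ := v1.deg
  rw [u4, Nat.cast_inj] at v5
  rw [c, Nat.cast_inj] at v6
  rw [Eqv.inn_left (φ := (f : ℂ) • (φ * l)) fun x hx => by simp [t3 x hx, l5 x hx, mul_left_comm], inn_smul_left, v3,
    relIndex_top_right, ← u5, Nat.cast_pow, sq, mul_assoc, mul_right_inj' (by exact_mod_cast (v5 ▸ f0).ne'),
    w.chr.inn_comm (v1.chr.res le_top), ← Nat.cast_mul] at v4
  have := ((v1.chr.res le_top).mult_deg_le w v4 v7 (b := d) (by simp [c, l4])).trans (hd χ v1 ker_bot i v7)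
  have : 0 < j := Nat.pos_of_ne_zero fun e => v2 (by simp [v3, e])
  have : 2 ≤ f * j := by nlinarith [show 2 ≤ f by omega]
  nlinarith

theorem cover {X ι : Type*} [Group X] [Finite X] (s : Finset ι) (H : ι → Subgroup X) {H0 : Subgroup X} (h0 : H0 ≠ ⊤)
    (h : ∀ x, x ∈ H0 ∨ ∃ i ∈ s, x ∈ H i) : Nat.card X ≤ ∑ i ∈ s, Nat.card (H i) := by
  classical
  have := Fintype.ofFinite X
  have k : ∀ U : Subgroup X, (Finset.univ.filter fun x => x ∈ U ∧ x ∉ H0).card + Nat.card ↥(H0 ⊓ U) = Nat.card U := fun U => by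
    rw [Nat.card_eq_fintype_card, Nat.card_eq_fintype_card, Fintype.card_subtype, Fintype.card_subtype,
      ← Finset.card_filter_add_card_filter_not (s := Finset.univ.filter (· ∈ U)) (· ∉ H0), Finset.filter_filter,
      Finset.filter_filter]
    simp [and_comm]
  obtain ⟨j, hj⟩ : ∃ j, H0.index = j + 1 + 1 := ⟨H0.index - 2, by have := one_lt_index_of_ne_top h0; omega⟩
  have k1 := k ⊤
  rw [inf_top_eq, card_top] at k1
  have k2 : (Finset.univ.filter fun x => x ∈ (⊤ : Subgroup X) ∧ x ∉ H0).card ≤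
      ∑ i ∈ s, (Finset.univ.filter fun x => x ∈ H i ∧ x ∉ H0).card :=
    (Finset.card_le_card fun x hx => by
      have := (Finset.mem_filter.mp hx).2.2
      obtain ⟨i, a, b⟩ := (h x).resolve_left this
      exact Finset.mem_biUnion.mpr ⟨i, a, by simp [b, this]⟩).trans Finset.card_biUnion_le
  have k3 : (j + 2) * ∑ i ∈ s, (Finset.univ.filter fun x => x ∈ H i ∧ x ∉ H0).card ≤
      (j + 1) * ∑ i ∈ s, Nat.card (H i) := by
    rw [Finset.mul_sum, Finset.mul_sum]
    refine Finset.sum_le_sum fun i _ => ?_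
    have a := Core.card_inf_mul_relIndex H0 (H i)
    have b := relIndex_le_of_le_right (H := H0) (le_top (a := H i)) (by simp [hj])
    rw [relIndex_top_right, hj] at b
    nlinarith [k (H i), Nat.mul_le_mul_left (Nat.card ↥(H0 ⊓ H i)) b]
  have := H0.card_mul_index
  rw [hj] at this
  exact Nat.le_of_mul_le_mul_left (by nlinarith) j.succ_pos

theorem dual_cover {ι : Type*} (hZ : ⁅Z, Z⁆ ≤ ⊥) (s : Finset ι) (hs : s.card = p) (E : ι → Subgroup G) (h0 : D ≠ ⊥)
    (hD : D ≤ Z) (hE : ∀ i, E i ≤ Z) (hp : ∀ i, p ≤ Nat.card (E i))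
    (h : ∀ l, Irr Z l → Ker D l ∨ ∃ i ∈ s, Ker (E i) l) : ∀ i ∈ s, Nat.card (E i) = p := by
  let _ : CommGroup Z := ⟨fun a b => Subtype.ext (comm_of_commutator_eq_bot hZ a.2 b.2)⟩
  have : NeZero (Monoid.exponent Z) := ⟨Monoid.exponent_ne_zero_of_finite⟩
  have : Finite (Z →* ℂˣ) := Finite.of_injective (fun l => (⟨_, isIrr_linear l⟩ : IrrCharacter Z))
    fun _ _ a => Det.linear_ext (congrArg Subtype.val a)
  let F : Subgroup G → Subgroup (Z →* ℂˣ) := fun U => (MonoidHom.domRestrictHom (U.subgroupOf Z) ℂˣ).ker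
  have k : ∀ U ≤ Z, Nat.card U * Nat.card (F U) = Nat.card (Z →* ℂˣ) := fun U a => by
    rw [CommGroup.card_domRestrictHom_ker, CommGroup.card_monoidHom_of_hasEnoughRootsOfUnity, ← index_eq_card,
      ← Core.card_subgroupOf_of_le a, card_mul_index]
  have k1 : ∀ U (l : Z →* ℂˣ), Ker U (ez Z fun x => l x) → l ∈ F U := fun U l a => MonoidHom.ext fun x =>
    Units.ext (by simpa [ez_coe, ez_one] using a _ x.2)
  have := cover s (fun i => F (E i)) (H0 := F D) (fun e => h0 (by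
    have := k D hD
    rwa [e, card_top, mul_eq_right₀ Nat.card_pos.ne', card_eq_one] at this)) fun l =>
      (h _ (irr_ez.mpr (isIrr_linear l))).imp (k1 _ l) fun ⟨i, a, b⟩ => ⟨i, a, k1 _ l b⟩
  intro i hi
  by_contra c
  have lt := Finset.sum_lt_sum (s := s) (f := fun i => p * Nat.card (F (E i))) (g := fun _ => Nat.card (Z →* ℂˣ))
    (fun j _ => k _ (hE j) ▸ Nat.mul_le_mul_right _ (hp j))
    ⟨i, hi, k _ (hE i) ▸ Nat.mul_lt_mul_of_pos_right ((hp i).lt_of_ne' c) Nat.card_pos⟩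
  rw [← Finset.mul_sum, Finset.sum_const, hs, smul_eq_mul] at lt
  exact lt.not_ge (Nat.mul_le_mul_left p this)

theorem eq_of_card_prime (hp : p.Prime) (hA : Nat.card A = p) (hD : Nat.card D = p) {x : G} (h1 : x ≠ 1) (ha : x ∈ A)
    (hd : x ∈ D) : A = D := by
  have k : ∀ U : Subgroup G, Nat.card U = p → x ∈ U → zpowers x = U := fun U a b =>
    eq_of_le_of_card_ge (zpowers_le.mpr b) (by
      rw [Nat.card_zpowers, a, ((Nat.dvd_prime hp).mp (show orderOf x ∣ p from a ▸ U.orderOf_dvd_natCard b)).resolve_left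
        (by rwa [orderOf_eq_one_iff])])
  rw [← k A hA ha, k D hD hd]

theorem prime_deg [hp : Fact p.Prime] (h : CD (⊥ : Subgroup G) ⊤ fun d => d = 1 ∨ d = p) (hn : ¬ commutator G ≤ ⊥)
    (ha : ∀ A : Subgroup G, A.Normal → ⁅A, A⁆ ≤ ⊥ → A.index ≠ p) : (center G).index = p ^ 3 := by
  classical
  obtain ⟨q, e, hq, he, P, A, _, -, hP, hA, -, hPA⟩ := (two_deg h hn).resolve_left fun ⟨A, a, b, c⟩ => ha A a b c
  obtain rfl : q = p := (Nat.prime_dvd_prime_iff_eq hq hp.out).mp (he ▸ dvd_pow_self q fun a =>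
    hp.out.ne_one (by simpa [a] using he))
  have hG : commutator G ≤ P := commutator_le.mpr fun x _ y _ => by
    obtain ⟨u, hu, v, hv, rfl⟩ := (Core.mem_sup_of_le_normalizer norm_top).mp (hPA.ge (mem_top x))
    obtain ⟨u', hu', v', hv', rfl⟩ := (Core.mem_sup_of_le_normalizer norm_top).mp (hPA.ge (mem_top y))
    rw [comm_mul_center (hA hv) (hA hv')]
    exact commutator_le_self P (commutator_mem_commutator hu hu')
  obtain ⟨K, -, a⟩ := exists_maxNA hn
  have := a.normal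
  obtain ⟨r, Z, b⟩ := (a.cases (solvMod_of_solv (by have := solv_two h; infer_instance))).resolve_right
    fun ⟨_, N, b⟩ => ha N b.normal (b.two h).1 (b.two h).2
  have := b.normal
  obtain ⟨β, u1, u2, f, u3, u4⟩ := a.exists_nonlin
  obtain rfl := (h β u1 ker_bot f u4).resolve_left u3
  have hi := (b.deg a u1 u2 u4 u3).symm
  obtain rfl : f = r := by
    obtain ⟨j, e⟩ := b.deg_pow u1 u2 u4
    exact (Nat.prime_dvd_prime_iff_eq hq b.prime).mp (hq.dvd_of_dvd_pow e.dvd)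
  have hZ : ⁅Z, Z⁆ ≤ ⊥ := CD.comm (((h.under norm_top le_top).and (b.lt a (h.mono le_rfl fun d e =>
    e.elim (· ▸ hq.one_le) (·.le)))).mono le_rfl fun d ⟨⟨k, _, c⟩, e⟩ => c.elim Nat.eq_one_of_mul_eq_one_left fun c =>
      ((Nat.dvd_prime hq).mp (c ▸ dvd_mul_left _ _)).resolve_right e.ne) norm_top bot_le
  have hc : ∀ a ∈ Z, ∀ b ∈ Z, a * b = b * a := fun _ a _ b => comm_of_commutator_eq_bot hZ a b
  let ι := {M : Subgroup G // Z ≤ M ∧ M.index = f}
  have := Fintype.ofFinite ι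
  have hι : Fintype.card ι = f + 1 := Fintype.card_eq_nat_card.trans (PGrp.card_index_eq_prime_ge hi b.comm b.pw)
  have nM : ∀ M : ι, M.1.Normal := fun M => Core.normal_of_le_normalizer (norm_of_comm_le le_top (b.comm.trans M.2.1))
  have ex : ∀ x ∉ Z, Z ≤ Z ⊔ zpowers x ∧ (Z ⊔ zpowers x).index = f := fun x hx => ⟨le_sup_left,
    mul_left_cancel₀ hq.ne_zero (by
      rw [← sq, ← hi, ← relIndex_mul_index (le_sup_left (a := Z) (b := zpowers x)),
        PGrp.relIndex_sup_zpowers hq (norm_top (mem_top x)) (b.pw x) hx])⟩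
  have nc : ∀ x ∉ Z, ¬ Z ≤ centralizer {x} := fun x hx c => ha _ (nM ⟨_, ex x hx⟩) (commutator_eq_bot_of_comm
    (PGrp.isMulCommutative_iff_forall.mp (PGrp.isMulCommutative_sup_zpowers (PGrp.isMulCommutative_iff_forall.mpr hc)
      fun z hz => mem_centralizer_singleton_iff.mp (c hz)))) (ex x hx).2
  have ne : ∀ M : ι, (⁅M.1, Z⁆ : Subgroup G) ≠ ⊥ := fun M c => by
    obtain ⟨x, x1, x2⟩ := SetLike.exists_of_lt (M.2.1.lt_of_ne fun i => hq.ne_one (by
      have := M.2.2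
      rwa [← i, hi, sq, mul_eq_left₀ hq.ne_zero] at this))
    exact nc x x2 fun z hz => mem_centralizer_singleton_iff.mpr (commutatorElement_eq_one_iff_mul_comm.mp
      (c.le (commutator_mem_commutator x1 hz))).symm
  have pg : ∀ M : ι, IsPGroup f (⁅M.1, Z⁆ : Subgroup G) := fun M => hP.to_le ((commutator_mono le_top le_top).trans hG)
  have cv : ∀ l, Irr Z l → ∃ M : ι, Ker ⁅M.1, Z⁆ l := fun l c => by
    have l1 := c.one_of_ker (ker_bot.mono hZ)
    obtain ⟨x, x1, x2⟩ : ∃ x ∈ stab Z l ⊓ ⊤, x ∉ Z := SetLike.not_le_iff_exists.mp fun i => by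
      have := h _ ((c.ind_iff norm_top le_top).mpr i) ker_bot (f ^ 2) (by rw [ind_one, l1]; simp [hi])
      rw [sq, mul_eq_left₀ hq.ne_zero, mul_eq_one] at this
      exact hq.ne_one (this.elim And.left id)
    refine ⟨⟨_, ex x x2⟩, c.chr.ker_kerS.mono (commutator_le.mpr fun g hg z hz => c.chr.mem_kerS.mpr
      ⟨commutator_le_right ⊤ Z (commutator_mem_commutator trivial hz), ?_⟩)⟩
    rw [commutatorElement_def, c.chr.map_mul l1 (Normal.conj_mem inferInstance z hz g) (inv_mem hz), ← cj_apply g l,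
      (sup_le c.inv.le_stab (zpowers_le.mpr x1.1) hg).2 z hz, ← c.chr.map_mul l1 hz (inv_mem hz), mul_inv_cancel]
  have cd : ∀ M : ι, Nat.card (⁅M.1, Z⁆ : Subgroup G) = f := fun M => by
    obtain ⟨M0, e⟩ := Fintype.exists_ne_of_one_lt_card (by have := hq.pos; omega) M
    refine dual_cover hZ (Finset.univ.erase M0) (by simp [hι]) (fun M : ι => ⁅M.1, Z⁆) (ne M0) (commutator_le_right _ _)
      (fun _ => commutator_le_right _ _) (fun M => Nat.le_of_dvd Nat.card_pos (Core.prime_dvd_card_of_isPGroup (pg M) (ne M)))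
      (fun l c => ?_) M (by simp [e.symm])
    obtain ⟨M, i⟩ := cv l c
    exact (eq_or_ne M M0).imp (fun j : M = M0 => j ▸ i) fun j => ⟨M, by simp [j], i⟩
  have ce : ∀ M : ι, ⁅M.1, Z⁆ ≤ center G := fun M => by
    have := nM M
    obtain ⟨z, z1⟩ := ne_bot_iff_exists_ne_one.mp (Core.inf_centralizer_ne_bot_of_isPGroup (pg M) hP norm_top (ne M))
    have := (PGrp.eq_or_eq_of_relIndex_prime hq (by rw [relIndex_bot_left, cd M]) bot_le
      (inf_le_left (b := centralizer (P : Set G)))).resolve_left fun i => z1 (Subtype.ext (i.le z.2))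
    intro x hx
    refine mem_center_iff.mpr fun g => ?_
    obtain ⟨u, hu, v, hv, rfl⟩ := (Core.mem_sup_of_le_normalizer norm_top).mp (hPA.ge (mem_top g))
    rw [mul_assoc, ← mem_center_iff.mp (hA hv) x, ← mul_assoc, (this.ge hx).2 u hu, mul_assoc]
  have me : ∀ x, ∀ z ∈ Z, ⁅x, z⁆ ∈ ⁅Z ⊔ zpowers x, Z⁆ := fun x z hz =>
    commutator_mem_commutator (mem_sup_right (mem_zpowers x)) hz
  have ri : ∀ x ∉ Z, (centralizer {x}).relIndex Z = f := fun x hx => by
    let φ : Z →* (⁅Z ⊔ zpowers x, Z⁆ : Subgroup G) := MonoidHom.mk' (fun z => ⟨_, me x z z.2⟩) fun u v => Subtype.ext (by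
      have := mem_center_iff.mp (ce ⟨_, ex x hx⟩ (me x v v.2)) u
      calc ⁅x, (u : G) * v⁆ = ⁅x, (u : G)⁆ * (u * ⁅x, (v : G)⁆) * (u : G)⁻¹ := by simp [commutatorElement_def, mul_assoc]
        _ = _ := by rw [this]; simp [mul_assoc])
    have e : (centralizer {x}).subgroupOf Z = φ.ker := Subgroup.ext fun z => by
      simp [φ, mem_subgroupOf, mem_centralizer_singleton_iff, Subtype.ext_iff, commutatorElement_eq_one_iff_mul_comm, eq_comm]
    refine ((Nat.dvd_prime hq).mp ?_).resolve_left (mt relIndex_eq_one.mp (nc x hx))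
    rw [relIndex, e, index_ker, ← cd ⟨_, ex x hx⟩]
    exact card_subgroup_dvd_card _
  obtain ⟨x, -, hx⟩ := SetLike.exists_of_lt (lt_top_iff_ne_top.mpr fun i : Z = ⊤ => hq.ne_one (by simpa [i] using hi.symm))
  obtain ⟨y, -, hy⟩ := SetLike.exists_of_lt (lt_top_iff_ne_top.mpr fun i : Z ⊔ zpowers x = ⊤ => hq.ne_one (by
    simpa [i, eq_comm] using (ex x hx).2))
  have hy' : y ∉ Z := fun i => hy (mem_sup_left i)
  have hxy : x * y ∉ Z := fun i => hy ((mul_mem_cancel_left (mem_sup_right (mem_zpowers x))).mp (mem_sup_left i))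
  have ht := PGrp.sup_zpowers_eq_top_of_index_prime hq (ex x hx).2 hy
  have := nM ⟨_, ex x hx⟩
  have key : centralizer {x} ⊓ Z ≤ centralizer {y} := fun u ⟨u1, u2⟩ => by_contra fun u3 => by
    obtain ⟨v, ⟨v1, v2⟩, v3⟩ : ∃ v ∈ centralizer {y} ⊓ Z, v ∉ centralizer {x} := SetLike.not_le_iff_exists.mp fun i =>
      u3 ((Core.eq_of_le_of_card_le (le_inf i inf_le_right) (Nat.le_of_mul_le_mul_right (by
        rw [← ri x hx, Core.card_inf_mul_relIndex, ri x hx, ← ri y hy', Core.card_inf_mul_relIndex]) hq.pos)).ge ⟨u1, u2⟩).1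
    have n1 : ∀ {a b : G}, a ∉ centralizer {b} → ⁅b, a⁆ ≠ 1 := fun i j =>
      i (mem_centralizer_singleton_iff.mpr (commutatorElement_eq_one_iff_mul_comm.mp j).symm)
    have n2 : ∀ {a b : G}, a ∈ centralizer {b} → ⁅b, a⁆ = 1 := fun i =>
      commutatorElement_eq_one_iff_mul_comm.mpr (mem_centralizer_singleton_iff.mp i).symm
    have n3 : ∀ z : G, ⁅x * y, z⁆ = x * ⁅y, z⁆ * x⁻¹ * ⁅x, z⁆ := fun z => by simp [commutatorElement_def, mul_assoc]
    have e1 := eq_of_card_prime hq (cd ⟨_, ex y hy'⟩) (cd ⟨_, ex _ hxy⟩) (n1 u3) (me y u u2) (by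
      have := me (x * y) u u2
      rwa [n3, n2 u1, mul_one, mem_center_iff.mp (ce ⟨_, ex y hy'⟩ (me y u u2)) x, mul_inv_cancel_right] at this)
    have e2 := eq_of_card_prime hq (cd ⟨_, ex x hx⟩) (cd ⟨_, ex _ hxy⟩) (n1 v3) (me x v v2) (by
      simpa [n3, n2 v1] using me (x * y) v v2)
    obtain ⟨l, l1, -, l2⟩ := exists_irr_not_ker (L := ⊥) norm_top bot_le (commutator_le_right _ Z (me x v v2)) (n1 v3)
    obtain ⟨M, i⟩ := cv l l1
    refine l2 (i _ ((Core.eq_of_le_of_card_le (commutator_le.mpr fun g _ z hz => ?_)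
      ((cd ⟨_, ex x hx⟩).trans (cd M).symm).le).ge (me x v v2)))
    obtain ⟨w, hw, k, rfl⟩ := (PGrp.mem_sup_zpowers (norm_top (mem_top y))).mp (ht.ge (mem_top g))
    exact PGrp.commutator_mul_left_mem (norm_top (mem_top w)) (commutator_mem_commutator hw hz)
      (PGrp.commutator_zpow_left_mem (norm_top (mem_top y)) ((e1.trans e2.symm).le (me y z hz)) k)
  have : center G = centralizer {x} ⊓ Z := le_antisymm (fun z hz => ⟨mem_centralizer_singleton_iff.mpr
    (mem_center_iff.mp hz x).symm, (b.mem z).mpr fun g => by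
      rw [commutatorElement_eq_one_iff_mul_comm.mpr (mem_center_iff.mp hz g)]; exact one_mem _⟩) fun z hz => by
    rw [← centralizer_univ, ← coe_top, ← ht, PGrp.centralizer_sup_zpowers, PGrp.centralizer_sup_zpowers]
    exact ⟨⟨fun g hg => hc g hg z hz.2, hz.1⟩, key hz⟩
  rw [this, ← relIndex_mul_index inf_le_right, inf_relIndex_right, ri x hx, hi, ← pow_succ']

end Cfsg.Agent.Isaacs
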