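import Mathlib
import Cfsg.Agent.Isaacs.CD5
import Cfsg.Agent.Isaacs.CD2
import Cfsg.Agent.Isaacs.CD4

/-! Broline–Garrison; abelian subgroups of bounded index. -/

set_option autoImplicit false

open scoped ComplexConjugate commutatorElement Pointwise

namespace Cfsg.Agent.Isaacs

open Cfsg Cfsg.Agent.Char Subgroup

variable {G : Type*} [Group G] [Finite G] {A D H K L M N P T U Z : Subgroup G} {θ χ ψ β μ : G → ℂ}
  {p q m n b d : ℕ} {R S : ℕ → Prop}

theorem core_of_ext (hχ : Irr ⊤ χ) (hH : Irr H χ) (h : ∀ ψ, Irr ⊤ ψ → inn H ψ χ ≠ 0 → Eqv H ψ χ) {x : G} (hx : x ∈ H)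
    (h0 : χ x ≠ 0) : x ∈ H.normalCore := fun g => by
  have a := (ind_inv (L := H) (K := ⊤) (θ := χ)).cross (mem_top x) (mem_top 1) (a := χ 1) (b := χ x) fun η b c => by
    have := h η b (inn_ne_comm (by rwa [inn_ind_left le_top b.inv] at c))
    rw [this x hx, this.one, mul_comm]
  have e := ind_mul (L := H) (θ := fun _ => 1) hχ.inv
  rw [show (fun _ => 1) * χ = χ from one_mul χ] at e
  rw [e, Pi.mul_apply, Pi.mul_apply] at a
  refine (chr_one.of_ind_eq one_ne_zero le_top trivial ?_).1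
  rw [ind_inv (K := ⊤) g trivial x trivial]
  exact mul_left_cancel₀ (mul_ne_zero hχ.one_ne h0) (by linear_combination a)

theorem Irr.res_of_sup [K.Normal] (h : Irr ⊤ χ) (hk : Ker K χ) (e : K ⊔ H = ⊤) : Irr H χ := by
  obtain ⟨φ, a, b⟩ := h.exists_push (QuotientGroup.mk' K) (hk.mono (by simp))
  rw [← e, Subgroup.map_sup, QuotientGroup.map_mk'_self, bot_sup_eq] at a
  exact (a.of_map _).congr fun x _ => b x trivial

theorem bg_aux [K.Normal] (hχ : Irr ⊤ χ) (hK : ∀ g, g ∈ K ↔ χ g = χ 1) (hd : χ 1 = d) (hH : IsCoatom H) (e : K ⊔ H = ⊤)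
    (hn : ∀ ψ, Irr ⊤ ψ → ∀ n : ℕ, ψ 1 = n → d < n → ¬ kerS ⊤ ψ < K) {x : G} (hx : x ∈ H) (h0 : χ x ≠ 0) :
    x ∈ H.normalCore := by
  have a := hχ.res_of_sup (fun x hx => (hK x).mp hx) e
  refine core_of_ext hχ a (fun ψ b c => ?_) hx h0
  obtain ⟨n, -, f⟩ := b.deg
  refine (b.chr.res le_top).eqv_of_deg a c (by_contra fun g => ?_)
  have := Core.normal_of_le_normalizer (b.chr.normalizes_kerS norm_top b.inv)
  by_cases i : kerS ⊤ ψ ≤ H
  · refine hn ψ b n f (((b.chr.res le_top).deg_le a c f hd).lt_of_ne fun j => g (by rw [f, hd, j])) (lt_of_le_of_ne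
      (fun y hy => (hK y).mpr (b.chr.ker_kerS.constit (b.chr.res le_top) i a c y hy)) fun j => hH.1 ?_)
    rw [← e, ← j, sup_eq_right.mpr i]
  · exact g ((b.res_of_sup b.chr.ker_kerS (hH.2 _ (right_lt_sup.mpr i))).eqv a c).one

theorem bg [K.Normal] (hχ : Irr ⊤ χ) (hK : ∀ g, g ∈ K ↔ χ g = χ 1) (hd : χ 1 = d)
    (h : ¬ K ≤ fittingSubgroup G ∨ (K = fittingSubgroup G ∧ Group.IsSolvable (G ⧸ K) ∧ K ≠ ⊤)) :
    ∃ ψ, Irr ⊤ ψ ∧ ∃ n : ℕ, ψ 1 = n ∧ d < n ∧ kerS ⊤ ψ < K := by
  by_contra! hn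
  have k : ∀ (p : ℕ) [Fact p.Prime] (L P : Subgroup G) [L.Normal], Core.IsSylowOf p P L → ¬ P ≤ fittingSubgroup G →
      L ≤ K ⊔ P → ∃ C : Subgroup G, C.Normal ∧ ¬ P ≤ C ∧ ∀ x ∈ P, χ x ≠ 0 → x ∈ C := fun p _ L P _ a b c => by
    obtain ⟨H, d, e⟩ := PGrp.exists_coatom_ge (H := normalizer (P : Set G)) fun d =>
      b ((Core.le_pCore (Core.normal_of_le_normalizer d.ge) a.isPGroup).trans (Core.pCore_le_fitting p))
    refine ⟨H.normalCore, inferInstance, fun f => d.1 (top_le_iff.mp ((a.of_le (le_inf a.le f) inf_le_left).frattini_top.ge.trans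
      (sup_le (inf_le_right.trans H.normalCore_le) e))), fun x hx => bg_aux hχ hK hd d (top_le_iff.mp
        (a.frattini_top.ge.trans (sup_le (c.trans (sup_le_sup_left (le_normalizer.trans e) _)) (le_sup_of_le_right e))))
        hn (e (le_normalizer hx))⟩
  have k0 : ∀ x ∈ K, χ x ≠ 0 := fun x hx => (hK x).mp hx ▸ hχ.one_ne
  rcases h with h | ⟨h, hs, h'⟩
  · refine h (Core.le_of_forall_isSylowOf_le _ _ fun p hp _ => ?_)
    have := Fact.mk hp
    obtain ⟨P, a⟩ := Core.exists_isSylowOf p K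
    refine ⟨P, a, by_contra fun b => ?_⟩
    obtain ⟨C, -, c, d⟩ := k p K P a b le_sup_left
    exact c fun x hx => d x hx (k0 x (a.le hx))
  obtain ⟨L, -, c⟩ := exists_chief_above (A := ⊤) (lt_top_iff_ne_top.mpr h') norm_top norm_top
  have := Core.normal_of_le_normalizer c.nK
  obtain ⟨p, hp, -, j, -, e⟩ := c.exists_prime (c.comm_le norm_top (solvMod_of_quot hs))
  have := Fact.mk hp
  obtain ⟨P, a⟩ := Core.exists_isSylowOf p L
  have f := a.sup_eq_of_relIndex_eq_pow c.lt.le e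
  obtain ⟨C, _, g, i⟩ := k p L P a (fun g => c.lt.not_ge (f.ge.trans (sup_le le_rfl (h ▸ g)))) f.ge
  rcases c.min (K ⊔ L ⊓ C) le_sup_left (sup_le c.lt.le inf_le_left) norm_top with u | u
  · have hk : Ker K χ := fun x hx => (hK x).mp hx
    have := (hχ.inv.mono le_top le_top).inn_of_vanish norm_top c.lt.le (fun x hx v => by_contra fun w => by
      obtain ⟨y, hy, z, hz, rfl⟩ := (Core.mem_sup_of_le_normalizer norm_top).mp (f.ge hx)
      rw [hχ.chr.mul_of_eq trivial (hk y hy) trivial] at w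
      exact v (mul_mem hy (u.le (mem_sup_right ⟨a.le hz, i z hz w⟩)))) (inv_const 1)
    exact c.lt.not_ge fun x hx => (hK x).mpr (hχ.ker_of_inn norm_top le_top (fun v => hχ.one_ne (by
      rw [← hk.inn_one, this, v, mul_zero])) x hx)
  · refine g fun x hx => ?_
    obtain ⟨s, hs⟩ := a.isPGroup ⟨x, hx⟩
    refine le_of_normal_sylow (K := L) (k := s) hp norm_top (fun v => (a.inf_of_normal c.lt.le norm_top).not_dvd (v.trans ?_))
      (a.le hx) (by rw [show x ^ p ^ s = 1 from congrArg Subtype.val hs]; exact one_mem _)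
    rw [← relIndex_sup_left L C, ← u, sup_comm K, ← sup_assoc, sup_eq_left.mpr (inf_le_right (a := L)), relIndex_sup_left]
    exact relIndex_dvd_of_le_left _ fun y hy => i y hy.1 (k0 y hy.2)

theorem CD.half (h : CD (⊥ : Subgroup G) ⊤ (· ≤ b)) [K.Normal] (hK : ¬ commutator G ≤ K) : CD ⊥ K (· ≤ b / 2) :=
  fun φ a _ d c => by
  refine (Nat.le_div_iff_mul_le two_pos).mpr (not_lt.mp fun e => ?_)
  have k : ∀ χ, Irr ⊤ χ → inn K χ φ ≠ 0 → χ 1 = d := fun χ f g => by
    obtain ⟨k, -, i⟩ := f.deg_dvd_rel norm_top le_top a g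
    rw [c, ← Nat.cast_mul] at i
    have := h χ f ker_bot _ i
    obtain ⟨_, u, v⟩ := f.deg
    rw [i, Nat.cast_inj] at v
    obtain rfl : k = 1 := by rcases k with _ | _ | k <;> [simp_all; rfl; nlinarith]
    simpa using i
  obtain ⟨χ, f, g⟩ := a.exists_over le_top
  have i := (f.chr.res le_top).eqv_of_deg a g ((k χ f g).trans c.symm)
  refine hK (CD.comm (fun β u v j w => ?_) norm_top le_top)
  have := k _ (u.mul_of_ker norm_top le_top v f.chr (a.congr i.symm)) (by rw [a.inn_mul_ker v i]; exact u.one_ne)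
  rw [Pi.mul_apply, k χ f g, w, mul_eq_right₀ (c ▸ a.one_ne)] at this
  exact_mod_cast this

theorem exists_small_class (h : CD (⊥ : Subgroup G) ⊤ (· ≤ b)) [Nontrivial G] :
    ∃ x : G, x ≠ 1 ∧ (centralizer {x}).index ≤ b ^ 2 := by
  classical
  by_contra! a
  have := Fintype.ofFinite (ConjClasses G)
  have h1 := Group.sum_card_conj_classes_eq_card G
  have h2 := sum_degree_sq (G := G)
  have h3 := card_irr_eq_card_conjClasses (G := G)
  rw [finsum_eq_sum_of_fintype, ← Finset.add_sum_erase _ _ (Finset.mem_univ (ConjClasses.mk 1)), FGS.ncard_carrier,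
    FGS.index_centralizer_eq_one_iff.mpr (one_mem _)] at h1
  rw [← Finset.add_sum_erase _ _ (Finset.mem_univ ⟨_, irr_top.mp irr_one⟩), Block.charDegree_of_eq (n := 1) (by simp)] at h2
  have h4 := Finset.sum_le_card_nsmul (Finset.univ.erase (⟨_, irr_top.mp irr_one⟩ : IrrCharacter G))
    (fun χ => charDegree χ.1 ^ 2) (b ^ 2) fun χ _ => Nat.pow_le_pow_left (cd_iff.mp h χ) 2
  obtain ⟨x, x1⟩ := exists_ne (1 : G)
  have h5 := Finset.sum_lt_sum_of_nonempty (s := Finset.univ.erase (ConjClasses.mk (1 : G))) (f := fun _ => b ^ 2)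
    (g := fun c => c.carrier.ncard) ⟨ConjClasses.mk x, by simpa [ConjClasses.mk_eq_mk_iff_isConj] using x1⟩ fun c hc => by
      obtain ⟨y, rfl⟩ := c.exists_rep
      rw [FGS.ncard_carrier]
      exact a y fun e => by simp [e] at hc
  rw [Nat.card_eq_fintype_card, Nat.card_eq_fintype_card] at h3
  rw [Finset.sum_const, Finset.card_erase_of_mem (Finset.mem_univ _), Finset.card_univ] at h5
  rw [Finset.card_erase_of_mem (Finset.mem_univ _), Finset.card_univ, h3] at h4
  exact (h4.trans_lt h5).ne (add_left_cancel (h2.trans h1.symm))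

omit [Finite G] in
theorem MaxNA.eq_bot (h : MaxNA (⊥ : Subgroup G)) (hs : ¬ Group.IsSolvable G) [N.Normal] (hN : Group.IsSolvable N) :
    N = ⊥ := by_contra fun a => hs (by
  have := Core.solvable_of_le (h.max N inferInstance (bot_lt_iff_ne_bot.mpr a)) hN
  exact Group.isSolvable_of_ker_le_range (commutator G).subtype Abelianization.of (by simp))

theorem MaxNA.five_le (h : MaxNA (⊥ : Subgroup G)) (hs : ¬ Group.IsSolvable G) (hd : CD (⊥ : Subgroup G) ⊤ (· ≤ b)) :
    5 ≤ b := by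
  by_contra! a
  refine hs (burnside_of_primes Nat.prime_two Nat.prime_three fun p hp e => by_contra fun c => ?_)
  have := Fact.mk hp
  obtain ⟨P⟩ := (inferInstance : Nonempty (Sylow p G))
  have : 5 ≤ p := hp.five_le_of_ne_two_of_ne_three (by tauto) (by tauto)
  have := normal_of_lt G (hd.mono le_rfl fun d (i : d ≤ b) => (by omega : d < p)) P
  exact P.ne_bot_of_dvd_card e (h.eq_bot hs (Core.solvable_of_isPGroup P.isPGroup'))

theorem fact_bound (h : 5 ≤ b) : b ^ 4 * (b / 2).factorial ^ 2 ≤ b.factorial ^ 2 := by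
  obtain ⟨c, rfl⟩ := Nat.exists_eq_add_of_le' h
  rw [show 4 = 2 * 2 from rfl, pow_mul, ← mul_pow]
  refine Nat.pow_le_pow_left ((Nat.mul_le_mul_left _ (Nat.factorial_le (show _ ≤ c + 2 by omega))).trans ?_) 2
  rw [Nat.factorial_succ (c + 4), Nat.factorial_succ (c + 3), Nat.factorial_succ (c + 2), ← mul_assoc, ← mul_assoc]
  exact Nat.mul_le_mul_right _ (by nlinarith)

theorem exists_smaller (h : CD (⊥ : Subgroup G) ⊤ (· ≤ b)) (hn : ¬ commutator G ≤ ⊥) :
    ∃ (H : Subgroup G) (c : ℕ), c < b ∧ CD ⊥ H (· ≤ c) ∧ H.index * c.factorial ^ 2 ≤ b.factorial ^ 2 := by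
  obtain ⟨K, -, a⟩ := exists_maxNA hn
  have := a.normal
  obtain ⟨β, u1, u2, f, u3, u4⟩ := a.exists_nonlin
  have u5 : f ≤ b := h β u1 ker_bot f u4
  obtain ⟨_, u6, u7⟩ := u1.deg
  rw [u4, Nat.cast_inj] at u7
  by_contra c
  have k1 : ∀ H : Subgroup G, H.index ≤ b ^ 2 → ∃ θ, Irr H θ ∧ θ 1 = b := fun H d => by_contra fun e => by
    obtain ⟨b, rfl⟩ : ∃ j, b = j + 1 := ⟨b - 1, by omega⟩
    exact c ⟨H, b, b.lt_succ_self, fun θ i j k l => Nat.le_of_lt_succ ((h.le_sub le_top θ i j k l).lt_of_ne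
      fun m => e ⟨θ, i, m ▸ l⟩), by rw [Nat.factorial_succ, mul_pow]; exact Nat.mul_le_mul_right _ d⟩
  have k2 : ∀ n, K.index ≤ n → ¬ n * (b / 2).factorial ^ 2 ≤ b.factorial ^ 2 := fun n d e =>
    c ⟨K, b / 2, by omega, h.half a.ne, (Nat.mul_le_mul_right _ d).trans e⟩
  by_cases hs : Group.IsSolvable (G ⧸ K)
  · rcases a.cases (solvMod_of_quot hs) with ⟨p, Z, d⟩ | ⟨q, N, d⟩
    · obtain ⟨θ, i, j⟩ := k1 Z (d.deg a u1 u2 u4 u3 ▸ Nat.pow_le_pow_left u5 2)
      exact (d.lt a h θ i ker_bot b j).false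
    obtain ⟨γ, v1, -, v2⟩ := d.exists_deg
    have v3 : N.index ≤ b := h γ v1 ker_bot _ v2
    have v4 := one_lt_index_of_ne_top d.ne
    obtain ⟨θ, i, j⟩ := k1 N (v3.trans (Nat.le_self_pow two_ne_zero b))
    rcases d.dich i with ⟨χ, k, l⟩ | k
    · have : N.index * b ≤ b := h χ k ker_bot _ (by rw [l, j, Nat.cast_mul])
      nlinarith
    refine k2 (b ^ 3) (by
      rw [← relIndex_mul_index d.lt.le, pow_succ]; exact Nat.mul_le_mul (i.le_sq_of_vanish d.lt.le k j) v3) ?_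
    rcases le_or_gt 5 b with l | l
    · exact (Nat.mul_le_mul_right _ (Nat.pow_le_pow_right (by omega) (by omega))).trans (fact_bound l)
    obtain rfl | rfl | rfl : b = 2 ∨ b = 3 ∨ b = 4 := by omega
    · exact absurd ((show N.index = 2 by omega) ▸ d.dvd_of_vanish i.chr k j) d.not_dvd
    all_goals decide
  have hq := (h.mono bot_le fun _ => id).quot (N := K)
  have : Nontrivial (G ⧸ K) := by_contra fun e => by
    have := not_nontrivial_iff_subsingleton.mp e
    exact hs inferInstance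
  obtain ⟨x, x1, x2⟩ := exists_small_class hq
  rw [← index_comap_of_surjective _ (QuotientGroup.mk'_surjective K)] at x2
  set H := (centralizer {x}).comap (QuotientGroup.mk' K)
  have hl : K ≤ H := by simpa using ker_le_comap (QuotientGroup.mk' K) _
  obtain ⟨θ, i, j⟩ := k1 H x2
  obtain ⟨χ, v1, v2⟩ := i.exists_over le_top
  have v3 := h.exists_ext le_top i j v1 v2
  have v4 := fun y => core_of_ext (x := y) v1 (i.congr v3.symm) fun ψ k l =>
    (h.exists_ext le_top i j k (by rwa [← v3.inn_right])).trans v3.symm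
  rcases (normal_le_normalCore.mpr hl).eq_or_lt with e | e
  · refine k2 (b ^ 4) ?_ (fact_bound (a.quot.five_le hs hq))
    rw [← relIndex_mul_index hl, show 4 = 2 + 2 from rfl, pow_add]
    exact Nat.mul_le_mul (i.le_sq_of_vanish hl (fun y hy k => by_contra fun l => k (e.ge (v4 y hy (by rwa [v3 y hy])))) j) x2
  · have k := map_le_iff_le_comap.mpr ((a.max _ inferInstance e).trans H.normalCore_le)
    rw [map_comm] at k
    have l := a.quot.max (centralizer (commutator (G ⧸ K))) inferInstance (bot_lt_iff_ne_bot.mpr fun l =>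
      x1 (l.le fun y hy => mem_centralizer_singleton_iff.mp (k hy)))
    have := PGrp.isMulCommutative_iff_forall.mpr fun y hy z hz => l hz y hy
    exact a.quot.ne (a.quot.eq_bot hs Core.solvable_of_isMulCommutative).le

theorem exists_abelian_index.{u} (b : ℕ) : ∀ (G : Type u) [Group G] [Finite G], CD (⊥ : Subgroup G) ⊤ (· ≤ b) →
    ∃ A : Subgroup G, ⁅A, A⁆ ≤ ⊥ ∧ A.index ≤ b.factorial ^ 2 := by
  induction b using Nat.strong_induction_on with
  | _ b ih =>
    intro G _ _ h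
    by_cases hn : commutator G ≤ ⊥
    · exact ⟨⊤, hn, index_top.trans_le (pow_pos b.factorial_pos 2)⟩
    obtain ⟨H, c, d, e, f⟩ := exists_smaller h hn
    obtain ⟨A, g, i⟩ := ih c d H e.sub'
    refine ⟨A.map H.subtype, by rw [← map_commutator]; exact (map_mono g).trans (by simp), le_trans ?_ f⟩
    rw [index_map_subtype, mul_comm]
    exact Nat.mul_le_mul_left _ i

end Cfsg.Agent.Isaacs
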