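import Mathlib
import Cfsg.Agent.Isaacs.Real2
import Cfsg.Agent.Isaacs.BInd
import Cfsg.Agent.S0874

/-! Dade's theorem on invariant characters of normal subgroups of prime power index. -/

set_option autoImplicit false

namespace Cfsg.Agent.Isaacs

open Cfsg Cfsg.Agent.Char Cfsg.Agent.Core Subgroup
open scoped ComplexConjugate commutatorElement Pointwise

variable {G : Type*} [Group G] [Finite G] {D E H K L M N P : Subgroup G} {θ φ ψ χ α ξ : G → ℂ} {p : ℕ}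

theorem inn_ind_inv [N.Normal] (h : Inv E E ψ) (hi : Inv ⊤ N α) :
    inn N (ind E ⊤ ψ) α = (E ⊔ N).index * inn (E ⊓ N) ψ α := by
  have a : Eqv E (ind N ⊤ α) (((E ⊔ N).index : ℂ) • ind (E ⊓ N) E α) := fun x i => by
    by_cases j : x ∈ N
    · rw [hi.ind_res norm_top le_top x j, Pi.smul_apply, Pi.smul_apply, (hi.mono le_top inf_le_right).ind_res
        (le_normalizer_inf le_normalizer norm_top) inf_le_left x ⟨i, j⟩, Pi.smul_apply, smul_smul, ← Nat.cast_mul, inf_relIndex_left,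
        relIndex_top_right, ← relIndex_mul_index (le_sup_right : N ≤ E ⊔ N), relIndex_sup_right, mul_comm]
    rw [ind_eq_zero_of_normal norm_top j, Pi.smul_apply, ind_eq_zero_of_normal (le_normalizer_inf le_normalizer norm_top)
      fun k => j k.2, smul_zero]
  rw [← inn_ind_right le_top ind_inv, inn_ind_left le_top ind_inv, a.inn_right, inn_smul_right, map_natCast,
    inn_ind_right inf_le_left h]

theorem Irr.dade [N.Normal] (hp : p.Prime) {k : ℕ} (hk : N.index = p ^ k) (h : Irr N θ) (hi : Inv ⊤ N θ) :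
    ∃ (E : Subgroup G) (φ : G → ℂ), IsElementary p E ∧ E ⊔ N = ⊤ ∧ Irr (E ⊓ N) φ ∧ Inv E (E ⊓ N) φ ∧
      ∃ m : ℕ, ¬ p ∣ m ∧ inn (E ⊓ N) θ φ = m := by
  classical
  have := Fintype.ofFinite G
  have := Fact.mk hp
  obtain ⟨m, l, a, b, c⟩ := S0874.result (G := G) p hp
  by_contra! d
  have e : ∀ t ∈ l, ∃ n : ℤ, inn N (indFun t.1 t.2.1) (θ * fun x => conj (θ x)) = p * n := fun ⟨E, ψ, _⟩ i => by
    obtain ⟨u, v⟩ := b _ i
    have w := (chr_ez.mpr v).res (inf_le_left : E ⊓ N ≤ E)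
    have y := h.chr.res (inf_le_right : E ⊓ N ≤ N)
    obtain ⟨n, o⟩ := w.inn_nat (y.mul y.cnj)
    rw [← ind_top_ez, inn_ind_inv (chr_ez.mpr v).inv (hi.mul (hi.map _)), o]
    obtain ⟨j, -, r⟩ := (Nat.dvd_prime_pow hp).mp (hk ▸ index_dvd_of_le (le_sup_right : N ≤ E ⊔ N))
    rcases j with _ | j
    swap
    · exact ⟨p ^ j * n, by rw [r]; push_cast; ring⟩
    obtain ⟨P, s⟩ := exists_isSylowOf p E
    have n1 : E ≤ normalizer ((E ⊓ N : Subgroup G) : Set G) := le_normalizer_inf le_normalizer norm_top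
    obtain ⟨j, -, n2⟩ := (Nat.dvd_prime_pow hp).mp (hk ▸ relIndex_dvd_index_of_normal N E)
    have n3 := s.sup_eq_of_relIndex_eq_pow inf_le_left ((inf_relIndex_left E N).trans n2)
    obtain ⟨z, f⟩ := (w.mul y).gen.cong_fixed hp (((chr_ez.mpr v).inv.mono s.le inf_le_left).mul (hi.mono le_top inf_le_right))
      s.isPGroup (s.le.trans n1) le_rfl (s.le.trans n1) y.gen (hi.mono le_top inf_le_right)
    have g : ∀ φ ∈ Finset.univ.filter fun φ : IrrCharacter ↥(E ⊓ N) => Inv P (E ⊓ N) (ez (E ⊓ N) φ), ∃ z : ℤ,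
        inn (E ⊓ N) (ez E ψ * θ) (ez (E ⊓ N) φ) * inn (E ⊓ N) (ez (E ⊓ N) φ) θ = p * z := fun φ i => by
      have k := irr_ez.mpr φ.2
      obtain ⟨s1, s2⟩ := (w.mul y).inn_nat k.chr
      obtain ⟨t1, t2⟩ := y.inn_nat k.chr
      obtain ⟨t3, rfl⟩ : p ∣ t1 := by_contra fun o => d E _ u (index_eq_one.mp r) k
        ((k.inv.sup (Finset.mem_filter.mp i).2 le_normalizer (s.le.trans n1)).mono n3.ge le_rfl) t1 o t2
      exact ⟨s1 * t3, by rw [k.chr.inn_comm y, s2, t2]; push_cast; ring⟩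
    choose! z' g using g
    refine ⟨∑ φ ∈ Finset.univ.filter fun φ : IrrCharacter ↥(E ⊓ N) => Inv P (E ⊓ N) (ez (E ⊓ N) φ), z' φ + z, ?_⟩
    rw [r, ← o, inn_mul_right, pow_zero, Nat.cast_one, one_mul, Int.cast_add, mul_add, Int.cast_sum, Finset.mul_sum,
      ← Finset.sum_congr rfl g, ← f]
    simp only [Complex.conj_conj]
  have f : ∃ n : ℤ, inn N (l.map fun t => (t.2.2 : ℂ) • indFun t.1 t.2.1).sum (θ * fun x => conj (θ x)) = p * n := by
    clear b c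
    induction l with
    | nil => exact ⟨0, by simp [inn_zero_left]⟩
    | cons t l ih =>
      obtain ⟨u, i⟩ := e t List.mem_cons_self
      obtain ⟨v, j⟩ := ih fun t i => e t (List.mem_cons_of_mem _ i)
      exact ⟨t.2.2 * u + v, by rw [List.map_cons, List.sum_cons, inn_add_left, inn_smul_left, i, j]; push_cast; ring⟩
  obtain ⟨n, f⟩ := f
  rw [← c, Eqv.inn_left (φ := (m : ℂ) • fun _ => 1) fun _ _ => by simp, inn_smul_left, ← inn_conj, ← inn_eq_mul_one, h.inn_self] at f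
  exact a ⟨n, by exact_mod_cast (by simpa using f : (m : ℂ) = p * n)⟩

theorem Chr.exists_lin_ext (h : Chr D φ) (h1 : φ 1 = 1) (hl : D ≤ E) (hk : Ker (⁅E, E⁆ ⊓ D) φ) :
    ∃ μ, Chr E μ ∧ μ 1 = 1 ∧ Eqv D μ φ := by
  obtain ⟨l, e⟩ := h.exists_hom h1
  obtain ⟨μ, f⟩ := Det.exists_extend_linear (D.subgroupOf E) (l.comp (subgroupOfEquivOfLe hl).toMonoidHom) fun x i =>
    Units.ext ((congrFun e _).symm.trans ((hk _ ⟨map_commutator_subtype E ▸ mem_map_of_mem _ i, x.2⟩).trans h1))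
  exact ⟨ez E fun x => μ x, chr_ez.mpr (isChar_linear μ), by simp [ez_one], fun x i => by
    rw [ez_mem _ (hl i), f ⟨⟨x, hl i⟩, i⟩]; exact (congrFun e ⟨x, i⟩).symm⟩

theorem Chr.exists_over_not_dvd (h : Chr K ξ) (hl : N ≤ K) (hθ : Chr N θ) {d : ℕ} (e : inn N ξ θ = d) (hd : ¬ p ∣ d) :
    ∃ χ, Irr K χ ∧ inn K ξ χ ≠ 0 ∧ ∃ m : ℕ, ¬ p ∣ m ∧ inn N χ θ = m := by
  by_contra! c
  choose a ha using fun χ : IrrCharacter K => h.inn_nat (irr_ez.mpr χ.2).chr
  choose b hb using fun χ : IrrCharacter K => ((irr_ez.mpr χ.2).chr.res hl).inn_nat hθ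
  rw [← inn_ind_right hl h.inv, h.inv.inn_eq_sum, Finset.sum_congr rfl fun χ _ => by
    rw [inn_ind_right hl (irr_ez.mpr χ.2).inv, ha, hb, ← Nat.cast_mul], ← Nat.cast_sum, Nat.cast_inj] at e
  refine hd (e ▸ Finset.dvd_sum fun χ _ => ?_)
  by_cases i : a χ = 0
  · simp [i]
  exact Dvd.dvd.mul_left (by_contra fun o => c _ (irr_ez.mpr χ.2) (by rwa [ha, Nat.cast_ne_zero]) _ o (hb χ)) _

theorem Irr.ext_of_sylow [N.Normal] (hp : p.Prime) {k : ℕ} (hk : N.index = p ^ k) (h : Irr N θ) (hi : Inv ⊤ N θ)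
    (hP : IsSylowOf p P ⊤) (hc : ⁅P, P⁆ ⊓ N = ⊥) : ∃ χ, Irr ⊤ χ ∧ Eqv N χ θ := by
  have := Fact.mk hp
  obtain ⟨E, φ, ⟨x, x1, -, j, x2⟩, a, b, -, m, c, d⟩ := h.dade hp hk hi
  obtain ⟨Q, s⟩ := exists_isSylowOf p E
  obtain ⟨g, -, t⟩ := hP.exists_conj_le s.isPGroup le_top
  have u : zpowers (x : G) ≤ E := zpowers_le.mpr x.2
  have v := s.sup_eq_of_relIndex_eq_pow u (n := j) (by
    rw [← x2, relIndex, ← coe_subtype, ← MonoidHom.map_zpowers, subgroupOf, comap_map_eq_self_of_injective E.subtype_injective])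
  have z : ∀ y ∈ zpowers (x : G), ∀ e ∈ E, e * y = y * e := fun y i e j => ((zpowers_le.mpr (mem_centralizer_singleton_iff.mpr
    (congrArg Subtype.val (mem_center_iff.mp x1 ⟨e, j⟩)).symm) : _ ≤ centralizer {e}) i e rfl)
  have n : Q ≤ normalizer (zpowers (x : G) : Set G) := le_norm fun e i y j => by rwa [z y j e (s.le i), mul_inv_cancel_right]
  have e : ⁅E, E⁆ ≤ ⁅Q, Q⁆ := commutator_le.mpr fun y i w j => by
    obtain ⟨u, u1, y, y1, rfl⟩ := (mem_sup_of_le_normalizer n).mp (v.ge i)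
    obtain ⟨r, r1, w, w1, rfl⟩ := (mem_sup_of_le_normalizer n).mp (v.ge j)
    rw [show ⁅u * y, r * w⁆ = u * (⁅y, r⁆ * (r * ⁅y, w⁆ * r⁻¹)) * u⁻¹ * ⁅r * w, u⁆⁻¹ by simp only [commutatorElement_def]; group,
      commutatorElement_eq_one_iff_mul_comm.mpr (z r r1 y (s.le y1)), commutatorElement_eq_one_iff_mul_comm.mpr (z u u1 _ j)]
    have := commutator_mem_commutator y1 w1
    rwa [← z r r1 _ (commutator_le_self E (commutator_mono s.le s.le this)), mul_inv_cancel_right, one_mul, inv_one, mul_one,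
      ← z u u1 _ (commutator_le_self E (commutator_mono s.le s.le this)), mul_inv_cancel_right]
  have f : ⁅E, E⁆ ⊓ (E ⊓ N) ≤ ⊥ := fun y ⟨i, j⟩ => by
    have := hc.le ⟨commutator_mono t t ((map_commutator Q Q _).le (mem_map_of_mem (MulAut.conj g).toMonoidHom (e i))),
      ‹N.Normal›.conj_mem y j.2 g⟩
    simpa using this
  have b1 := b.one_of_ker (ker_bot.mono ((le_inf (commutator_mono inf_le_left inf_le_left) (commutator_le_self _)).trans f))
  obtain ⟨μ, c1, -, c2⟩ := b.chr.exists_lin_ext b1 inf_le_left (ker_bot.mono f)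
  obtain ⟨χ, e1, -, r, e2, e3⟩ := (c1.indc le_top).exists_over_not_dvd le_top h.chr (by
    rw [inn_ind_inv c1.inv hi, a, index_top, c2.inn_left, b.chr.inn_comm (h.chr.res inf_le_right), d, Nat.cast_one, one_mul]) c
  obtain ⟨w, -, w1, w2⟩ := e1.ram norm_top le_top h hi (by rw [e3, Nat.cast_ne_zero]; rintro rfl; simp at e2)
  rw [h.inn_of_smul w2, Nat.cast_inj] at e3
  obtain ⟨_ | i, -, w3⟩ := (Nat.dvd_prime_pow hp).mp (hk ▸ relIndex_top_right N ▸ w1)
  · exact ⟨χ, e1, by simpa [w3] using w2⟩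
  exact (e2 (e3 ▸ w3 ▸ dvd_pow_self p i.succ_ne_zero)).elim

end Cfsg.Agent.Isaacs
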