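import Mathlib
import Cfsg.Agent.Classical.P1Inst
import Cfsg.Agent.Isaacs.FrobSchur
import Cfsg.Agent.Isaacs.Misc

/-! Finite subgroups of `PGL₂(ℂ)` and primitive complex linear groups of degree two. -/

set_option autoImplicit false
set_option backward.isDefEq.respectTransparency false

open scoped MatrixGroups commutatorElement

namespace Cfsg.Agent.Isaacs

open Cfsg Cfsg.Agent.Char Matrix MulAction Cfsg.Agent.Classical.P1 Cfsg.Agent.Classical.P1Count
  Cfsg.Agent.Classical.P1Class Cfsg.Agent.Classical.P1Inst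

variable {G : Type*} [Group G] [Finite G] {χ : G → ℂ}

theorem aff_eq_one {c : PGL(2, ℂ)} {b : ℂ} {n : ℕ} (hn : n ≠ 0) (h : (c * aff 1 b * c⁻¹) ^ n = 1) :
    c * aff 1 b * c⁻¹ = 1 := by
  rw [conj_pow_eq_one_iff, aff_one_pow, aff_eq_one_iff] at h
  simp [(mul_eq_zero.mp h.2).resolve_left (Nat.cast_ne_zero.mpr hn)]

theorem tame_complex (ρ : G →* PGL(2, ℂ)) (hρ : Function.Injective ρ) : IsCyclic G ∨
    (∃ D : Subgroup G, IsCyclic D ∧ D.index = 2) ∨ Nat.card G = 12 ∨ Nat.card G = 24 ∨ Nat.card G = 60 := by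
  obtain ⟨p, h1, hp⟩ := Nat.exists_infinite_primes (Nat.card G + 1)
  haveI := Fact.mk hp
  have h2 : ∀ g : G, g ^ p = 1 → g = 1 := fun g a => by
    by_contra b
    exact absurd (Nat.le_of_dvd Nat.card_pos (orderOf_eq_prime a b ▸ orderOf_dvd_natCard g)) (by omega)
  have h3 : ∀ g : G, ρ g ^ Nat.card G = 1 := fun g => by rw [← map_pow, pow_card_eq_one', map_one]
  letI : MulAction G (PL ℂ) := MulAction.compHom _ ρ
  have h4 : ∀ (g : G) (x : PL ℂ), g • x = ρ g • x := fun _ _ => rfl
  have h : IsP1Action p G (PL ℂ) := by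
    refine ⟨⟨fun g _ _ => exists_fix (ρ g), fun g x y z a b c d e f =>
      hρ ((fix_three _ x y z a b c d e f).trans (map_one ρ).symm), fun g a _ _ _ _ _ => h2 g a, fun g a x b => ?_,
      fun g h _ _ _ a b => by rw [h2 g a, one_mul, b]⟩, fun g => exists_fix (ρ g), fun x _ => ?_⟩
    · obtain ⟨c, rfl⟩ := exists_smul_inf' x
      obtain ⟨u, v, e⟩ := exists_conj_aff (b : ρ g • _ = _) c rfl
      have ha : 1 - (u : ℂ) ≠ 0 := fun i => a (by
        obtain rfl : u = 1 := Units.ext (sub_eq_zero.1 i).symm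
        rw [hρ ((e.trans (aff_eq_one Nat.card_pos.ne' (e ▸ h3 g))).trans (map_one ρ).symm), one_pow])
      refine ⟨c • pt (v / (1 - u)), fun h => pt_ne_inf _ (smul_left_cancel c h), ?_⟩
      rw [h4, e, mul_smul, mul_smul, inv_smul_smul, aff_smul_pt]
      congr 2
      field_simp
      ring
    · obtain ⟨c, rfl⟩ := exists_smul_inf' x
      let f : stabilizer G (c • (inf : PL ℂ)) →* stabilizer PGL(2, ℂ) (inf : PL ℂ) :=
        ((MulAut.conj c⁻¹).toMonoidHom.comp (ρ.comp (Subgroup.subtype _))).codRestrict _ (fun g => by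
          have h1 : ρ g • c • (inf : PL ℂ) = c • inf := g.2
          change (c⁻¹ * ρ g * c⁻¹⁻¹) • (inf : PL ℂ) = inf
          rw [inv_inv, mul_smul, mul_smul, h1, inv_smul_smul])
      refine isCyclic_of_injective_ringHom ((Units.coeHom ℂ).comp (multInf.comp f)) ?_
      rw [injective_iff_map_eq_one]
      intro g hg
      obtain ⟨b, hb⟩ := multInf_spec (f g)
      rw [show multInf (f g) = 1 from Units.ext hg] at hb
      have e : ρ g = c * aff 1 b * c⁻¹ := by
        rw [← hb]
        change _ = c * (c⁻¹ * ρ g * c⁻¹⁻¹) * c⁻¹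
        group
      exact Subtype.ext (hρ ((e.trans (aff_eq_one Nat.card_pos.ne' (e ▸ h3 g))).trans (map_one ρ).symm))
  rcases tame h h2 with a | ⟨D, a, b, -⟩ | ⟨⟨e⟩⟩ | ⟨⟨e⟩⟩ | ⟨⟨e⟩⟩
  · exact .inl a
  · exact .inr (.inl ⟨D, a, b⟩)
  · exact .inr (.inr (.inl (by rw [Nat.card_congr e.toEquiv, nat_card_alternatingGroup]; simp [Nat.factorial])))
  · exact .inr (.inr (.inr (.inl (by rw [Nat.card_congr e.toEquiv, Nat.card_perm]; simp [Nat.factorial]))))
  · exact .inr (.inr (.inr (.inr (by rw [Nat.card_congr e.toEquiv, nat_card_alternatingGroup]; simp [Nat.factorial]))))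

omit [Finite G] in
theorem exists_pgl (h : IsIrrCharacter G χ) (hf : ∀ g, χ g = χ 1 → g = 1) {n : ℕ} (hn : χ 1 = n) :
    ∃ f : G →* PGL(n, ℂ), f.ker = Subgroup.center G := by
  obtain ⟨m, ρ, i, rfl⟩ := h
  obtain rfl : m = n := by simpa using hn
  refine ⟨ProjGenLinGroup.mk.comp (mx ρ).toHomUnits, Subgroup.ext fun g => ?_⟩
  rw [MonoidHom.mem_ker, MonoidHom.comp_apply, ProjGenLinGroup.mk_eq_one]
  refine ⟨fun a => Subgroup.mem_center_iff.mpr fun x => commutatorElement_eq_one_iff_mul_comm.mp (hf _ ?_), fun a => ?_⟩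
  · have := commutatorElement_eq_one_iff_mul_comm.mpr (Subgroup.mem_center_iff.mp a ((mx ρ).toHomUnits x))
    rw [← map_commutatorElement, Units.ext_iff] at this
    rw [← mx_trace, ← mx_trace, map_one]
    exact congrArg _ this
  · obtain ⟨c, e⟩ := mx_schur (ρ := ρ) (N := mx ρ g) fun x => by
      rw [← map_mul, ← map_mul, Subgroup.mem_center_iff.mp a]
    exact Subgroup.mem_center_iff.mpr fun x => Units.ext (by simp [e])

theorem prim_two (h : Irr ⊤ χ) (hf : ∀ g, χ g = χ 1 → g = 1) (h2 : χ 1 = 2) (hp : Prim ⊥ ⊤ χ) :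
    (Subgroup.center G).index = 12 ∨ (Subgroup.center G).index = 24 ∨ (Subgroup.center G).index = 60 := by
  obtain ⟨f, e⟩ := exists_pgl (irr_top.mp h) hf (n := 2) h2
  have k : ¬ IsCyclic (G ⧸ Subgroup.center G) := fun a => by
    have := h.one_of_comm fun x _ y _ => (MonoidHom.isMulCommutative_of_isCyclic_of_ker_le_center
      (QuotientGroup.mk' (Subgroup.center G)) (QuotientGroup.ker_mk' _).le).is_comm.comm x y
    norm_num [h2] at this
  rcases tame_complex (QuotientGroup.lift _ f e.ge) ((QuotientGroup.injective_lift_iff _ _ _).2 e.symm) with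
    a | ⟨D, a, b⟩ | a
  · exact (k a).elim
  · set A := D.comap (QuotientGroup.mk' (Subgroup.center G))
    have c : A.index = 2 := (D.index_comap_of_surjective (QuotientGroup.mk'_surjective _)).trans b
    haveI := Subgroup.normal_of_index_eq_two c
    have d := MonoidHom.isMulCommutative_of_isCyclic_of_ker_le_center ((QuotientGroup.mk' _).subgroupComap D)
      fun x i => Subgroup.mem_center_iff.mpr fun y => Subtype.ext
        (Subgroup.mem_center_iff.mp ((QuotientGroup.eq_one_iff _).mp (congrArg Subtype.val i)) y.1)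
    have u := hp.scalar h (M := A) bot_le le_top norm_top (ker_bot.mono (commutator_eq_bot_of_comm fun x i y j =>
      congrArg Subtype.val (d.is_comm.comm (⟨x, i⟩ : A) ⟨y, j⟩)))
    have v : A ≤ Subgroup.center G := fun x i => Subgroup.mem_center_iff.mpr fun y =>
      commutatorElement_eq_one_iff_mul_comm.mp (hf _ (u _ (Subgroup.commutator_mem_commutator trivial i)))
    refine (k ?_).elim
    have w : Nat.card (G ⧸ Subgroup.center G) ∣ 2 := c ▸ Subgroup.index_dvd_of_le v
    exact isCyclic_of_card_dvd_prime w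
  · exact a

end Cfsg.Agent.Isaacs
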