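import Mathlib
import Cfsg.Agent.Isaacs.Real2
import Cfsg.Agent.Coh.FrobK
import Cfsg.Agent.S0850

/-! Exceptional characters for a trivial intersection subgroup with Frobenius normalizer. -/

set_option autoImplicit false

namespace Cfsg.Agent.Isaacs

open Cfsg Cfsg.Agent.Char Cfsg.Agent.Core Subgroup
open scoped ComplexConjugate commutatorElement Pointwise

variable {G : Type*} [Group G] [Finite G] {H K N : Subgroup G} {θ φ ψ χ η δ : G → ℂ} {c : ℂ}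

theorem inn_of_vanish (h : ∀ x ∈ H, x ≠ 1 → θ x = 0) : (Nat.card H : ℂ) * inn H θ φ = θ 1 * conj (φ 1) := by
  have := Fintype.ofFinite H
  rw [card_mul_inn, Finset.sum_eq_single 1 (fun x _ r => by rw [h x x.2 fun i => r (Subtype.ext i), zero_mul]) (by simp)]
  rfl

theorem Inv.const_of_inn (h : Inv N N δ) (hl : K ≤ N) (e : ∀ η, Irr N η → ¬ Ker K η → inn N δ η = c * η 1) :
    ∀ k ∈ K, k ≠ 1 → δ k = δ 1 - c * Nat.card N := fun k i j => by
  have := (h.sub ((ind_inv (L := ⊥) (θ := fun _ => 1)).smul c)).ker_of hl (fun η a b => by_contra fun d => b (by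
    obtain ⟨n, o⟩ := a.chr.deg
    rw [inn_sub_left, inn_smul_left, inn_ind_left bot_le a.inv, inn_bot, e η a d, o]; simp)) k i
  simpa [ind_one, ind_eq_zero_of_normal (L := ⊥) norm_top (mt mem_bot.mp j)] using this

theorem star_comb {G : Type*} [Group G] [Fintype G] {N : Subgroup G} [Fintype N] {S : Set (N → ℂ)} {τ : (N → ℂ) → G → ℂ}
    (h : IsLinearIsometryOn (zspan S) τ) (e : ∀ α ∈ zspanOn S ({1}ᶜ : Set N), τ α = indFun N α) {χ ξ : N → ℂ} (hχ : χ ∈ S) (hξ : ξ ∈ S)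
    (a : IsCharacter N χ) (b : IsCharacter N ξ) : ξ 1 • τ χ - χ 1 • τ ξ = ind N ⊤ (ξ 1 • ez N χ - χ 1 • ez N ξ) := by
  obtain ⟨m, i⟩ := isChar_degree a
  obtain ⟨n, j⟩ := isChar_degree b
  have u := Coh.zspan_zsmul n (Coh.subset_zspan hχ)
  have v := Coh.zspan_zsmul (-m) (Coh.subset_zspan hξ)
  have := e _ (Coh.mem_zspanOn_one.mpr ⟨Coh.zspan_add u v, by simp [i, j, mul_comm]⟩)
  rw [h.1 _ u _ v, h.2.1 _ (Coh.subset_zspan hχ), h.2.1 _ (Coh.subset_zspan hξ)] at this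
  rw [ind_top, i, j]
  convert this using 2 <;> ext x <;> simp [ez_coe, sub_eq_add_neg]

theorem star_const {G : Type*} [Group G] [Fintype G] {N K : Subgroup G} [Fintype N] {S : Set (N → ℂ)} {τ : (N → ℂ) → G → ℂ}
    (h : IsLinearIsometryOn (zspan S) τ) (e : ∀ α ∈ zspanOn S ({1}ᶜ : Set N), τ α = indFun N α) (hl : K ≤ N)
    (hS : ∀ η, η ∈ S ↔ Irr N (ez N η) ∧ ¬ Ker K (ez N η)) {ξ : N → ℂ} (hξ : ξ ∈ S) {ψ δ : G → ℂ} (hψ : Inv ⊤ ⊤ ψ) (hδ : Inv N N δ)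
    (i : ∀ η ∈ S, inn ⊤ ψ (τ η) = inn N δ (ez N η)) : ∀ k ∈ K, k ≠ 1 →
      ψ k - δ k = ψ 1 - δ 1 - inn N (ψ - δ) (ez N ξ) / ξ 1 * Nat.card N := by
  refine ((hψ.mono le_top le_top).sub hδ).const_of_inn hl fun η a b => ?_
  have c := (hS _).mpr ⟨a.congr eqv_ez.symm, fun o => b (o.congr (eqv_ez.mono hl))⟩
  have d := ((hS ξ).mp hξ).1
  have f := congrArg (inn ⊤ ψ) (star_comb h e c hξ a.chr (chr_ez.mp d.chr))
  obtain ⟨m, u⟩ := a.chr.deg
  obtain ⟨n, v, w⟩ := d.deg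
  rw [ez_one] at w
  simp only [inn_ind_right le_top hψ, inn_sub_right, inn_smul_right, i _ c, i _ hξ, eqv_ez.inn_right, OneMemClass.coe_one, u, w,
    map_natCast] at f
  rw [inn_sub_left, inn_sub_left, u, w]
  field_simp [v.ne']
  linear_combination -f

variable (hn : N ≤ normalizer (K : Set G)) (hl : K ≤ N) (hC : ∀ k ∈ K, k ≠ 1 → centralizer {k} ≤ K)
include hn hl hC

theorem Irr.frob_ind (h : Irr K φ) (hk : ¬ Ker K φ) : Irr N (ind K N φ) ∧ ¬ Ker K (ind K N φ) := by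
  have := normal_sub hn
  have a : Irr N (ind K N φ) := (h.ind_iff hn hl).mpr fun g ⟨i, j⟩ => BrauerPerm.inertia_le_of_fpf (K.subgroupOf N)
    (fun g o n u v => by_contra fun w => o (hC n u (fun r => w (Subtype.ext r)) (mem_centralizer_singleton_iff.mpr
      (congrArg Subtype.val v).symm))) ((irr_sub hl).mpr h) (fun o => hk fun x r => (congrFun o ⟨⟨x, hl r⟩, r⟩).trans (congrFun o 1).symm)
        (show (⟨g, j⟩ : N) ∈ _ by rwa [inertia_sub hl hn])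
  exact ⟨a, fun i => hk (i.constit (a.chr.res hl) le_rfl h (by rw [← inn_ind_right hl ind_inv]; exact a.inn_self_ne))⟩

theorem Irr.frob_eq (h : Irr N χ) (hk : ¬ Ker K χ) : ∃ φ, Irr K φ ∧ Eqv N χ (ind K N φ) := by
  obtain ⟨φ, a, b, c⟩ : ∃ φ, Irr K φ ∧ inn K χ φ ≠ 0 ∧ ¬ Ker K φ := by
    by_contra! a
    exact hk ((h.inv.mono hl hl).ker_of le_rfl a)
  exact ⟨φ, a, h.eqv (a.frob_ind hn hl hC c).1 (by rwa [inn_ind_right hl h.inv])⟩

theorem Irr.frob_zero (h : Irr N χ) (hk : ¬ Ker K χ) : ∀ g ∈ N, g ∉ K → χ g = 0 := fun g i j =>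
  have ⟨_, _, b⟩ := h.frob_eq hn hl hC hk; (b g i).trans (ind_eq_zero_of_normal hn j)

theorem Irr.frob_not_const (h : Irr N χ) (hk : ¬ Ker K χ) (h' : Irr N η) (hk' : ¬ Ker K η) (e : ¬ Eqv N χ η) :
    ¬ ∀ k ∈ K, k ≠ 1 → χ k = c := fun i => by
  obtain ⟨φ, a, b⟩ := h.frob_eq hn hl hC hk
  have u : inn K χ η = 0 := by_contra fun o => by
    obtain ⟨μ, p, q, r⟩ := (h.inv.mono hl hl).exists_common o
    obtain ⟨g, s, t⟩ := h.exists_cj hn hl p a q (by rw [← inn_ind_right hl h.inv, ← b.inn_right]; exact h.inn_self_ne)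
    exact e (h.eqv h' (by rwa [b.inn_left, ind_congr t, ind_cj_of_mem (hn s) s, inn_ind_left hl h'.inv]))
  have v := inn_of_vanish (H := K) (θ := χ - c • fun _ => 1) (φ := η) fun x o r => by simp [i x o r]
  rw [inn_sub_left, u, inn_smul_left, ← inn_conj, not_not.mp (mt (h'.ker_of_inn hn hl) hk'), map_zero, mul_zero, sub_zero, mul_zero,
    eq_comm, mul_eq_zero, map_eq_zero] at v
  refine hk fun x o => (eq_or_ne x 1).elim (congrArg χ) fun r => (i x o r).trans ?_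
  simpa [sub_eq_zero, eq_comm] using v.resolve_right h'.one_ne

end Cfsg.Agent.Isaacs
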