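import Mathlib
import Cfsg.Agent.Isaacs.HR1

/-! Two-groups with a four-group all of whose involutions have the same centralizer. -/

set_option autoImplicit false

namespace Cfsg.Agent.Isaacs.HR

open Subgroup Cfsg.Agent.PGrp
open _root_.Cfsg.Agent.LocalEven (cj mem_cj card_cj cj_eq_self_iff cj_le_of_mem_normalizer conj_mem_cj cj_mul cj_one)
open scoped Pointwise commutatorElement

variable {G : Type*} [Group G]

theorem mc_case [Finite G] {S T D B : Subgroup G} {x y : G} {n : ℕ} (hS : IsPGroup 2 S) (hTS : T ≤ S)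
    (hD : Inv.MC D x y (n + 1)) (hB2 : ∀ b ∈ B, b * b = 1) {b₁ b₂ : G} (h1 : b₁ ∈ B) (h2 : b₂ ∈ B)
    (n1 : b₁ ≠ 1) (n2 : b₂ ≠ 1) (n12 : b₁ * b₂ ≠ 1)
    (hc : ∀ a ∈ D, ∀ b ∈ B, a * b = b * a) (hi : D ⊓ B = ⊥) (hs : D ⊔ B = T)
    (hC : ∀ b ∈ B, b ≠ 1 → ∀ g ∈ S, g * b = b * g → g ∈ T) : T = S := by
  by_contra hne
  obtain ⟨g, hgS, hgn, hgT, hg2⟩ := exists_nz hS (lt_of_le_of_ne hTS hne)
  have hBn : B ≤ normalizer (D : Set G) := fun b hb => mem_normalizer_of_conj_mem fun a ha => by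
    rw [← hc a ha b hb]; simpa using ha
  have hT : ∀ t ∈ T, ∃ d ∈ D, ∃ b ∈ B, d * b = t := fun t ht =>
    (mem_sup_of_le_normalizer hBn).1 (hs ▸ ht)
  have hBB : ∀ a ∈ B, ∀ b ∈ B, a * b = b * a := fun a ha b hb => by
    have e1 := hB2 a ha; have e2 := hB2 b hb; have e3 := hB2 _ (B.mul_mem ha hb)
    calc a * b = a * (a * b * (a * b)) * b * (a * a)⁻¹ * (b * b)⁻¹ * (b * b) * (a * a) * (b * a)⁻¹ * (b * a) := by
          rw [e3, e1, e2]; group
      _ = b * a := by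
          have : a * (a * b * (a * b)) * b = (a * a) * (b * a) * (b * b) := by group
          rw [this, e1, e2]; group
  have hDT : D ≤ T := hs ▸ le_sup_left
  have hBT : B ≤ T := hs ▸ le_sup_right
  have hBZ : ∀ b ∈ B, ∀ t ∈ T, t * b = b * t := fun b hb t ht => by
    obtain ⟨d, hd, c, hc', rfl⟩ := hT t ht
    rw [mul_assoc, hBB c hc' b hb, ← mul_assoc, hc d hd b hb, mul_assoc]
  set z := x ^ 2 ^ (n + 1) with hz
  have z1 : z ≠ 1 := fun h => by have := hD.z_two; rw [← hz, h, orderOf_one] at this; omega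
  have hxy : ¬ Commute x y := fun h => by
    have ho := hD.ord
    rcases hD.eq_of_commute (mem_zpowers x) h with h | h
    · rw [h, orderOf_one] at ho
      have : 1 < 2 ^ (n + 1 + 1) := Nat.one_lt_two_pow (by omega)
      omega
    · have h2 := hD.z_two
      rw [← h, ho, pow_succ, pow_succ] at h2
      have : 0 < 2 ^ n := by positivity
      omega
  have hZ : ∀ w ∈ T, (∀ t ∈ T, t * w = w * t) → ∃ b ∈ B, w = b ∨ w = z * b := by
    intro w hw hw'
    obtain ⟨d, hd, b, hb, rfl⟩ := hT w hw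
    have hd' : ∀ t ∈ D, Commute d t := fun t ht => by
      have := hw' t (hDT ht)
      rw [mul_assoc, ← hc t ht b hb, ← mul_assoc, ← mul_assoc] at this
      exact (mul_right_cancel this).symm
    refine ⟨b, hb, ?_⟩
    rcases hD.mem_of_commute hd (hd' y hD.y_mem) with h | h | h | h
    · left; rw [h, one_mul]
    · right; rw [h]
    · exact absurd (h ▸ hd' x hD.x_mem).symm hxy
    · have h3 := hd' x hD.x_mem
      rw [h] at h3
      have h4 : Commute z⁻¹ x := (hD.commute_z hD.x_mem).symm.inv_left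
      have := h4.mul_left h3
      rw [inv_mul_cancel_left] at this
      exact absurd this.symm hxy
  have hconj : ∀ w ∈ T, (∀ t ∈ T, t * w = w * t) → ∀ t ∈ T, t * (g * w * g⁻¹) = g * w * g⁻¹ * t := by
    intro w _ hw' t ht
    have := hw' _ (conj_mem_of_mem_normalizer' hgn ht)
    calc t * (g * w * g⁻¹) = g * (g⁻¹ * t * g * w) * g⁻¹ := by group
      _ = _ := by rw [this]; group
  have hzT : z ∈ T := hDT hD.z_mem
  have hzZ : ∀ t ∈ T, t * z = z * t := fun t ht => by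
    obtain ⟨d, hd, b, hb, rfl⟩ := hT t ht
    rw [mul_assoc, ← hc z hD.z_mem b hb, ← mul_assoc, (hD.commute_z hd).eq, mul_assoc]
  have hgz : g * z * g⁻¹ = z := by
    have hmem : g * z * g⁻¹ ∈ D := by
      obtain ⟨d, hd, b, hb, e⟩ := hT _ (conj_mem_of_mem_normalizer hgn (hDT (D.pow_mem hD.x_mem (2 ^ n))))
      have : g * z * g⁻¹ = d * d := by
        calc g * z * g⁻¹ = (g * x ^ 2 ^ n * g⁻¹) * (g * x ^ 2 ^ n * g⁻¹) := by
              rw [hz, pow_succ, pow_mul, sq]; group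
          _ = d * (b * d) * b := by rw [← e]; group
          _ = d * d := by rw [← hc d hd b hb, mul_assoc, mul_assoc, hB2 b hb, mul_one]
      rw [this]; exact D.mul_mem hd hd
    obtain ⟨b, hb, h | h⟩ := hZ _ (hDT hmem) (hconj z hzT hzZ)
    · have : b ∈ D ⊓ B := ⟨h ▸ hmem, hb⟩
      rw [hi, mem_bot] at this
      rw [this] at h
      exact absurd (by simpa using h) z1
    · have : b ∈ D ⊓ B := ⟨(D.mul_mem_cancel_left hD.z_mem).1 (h ▸ hmem), hb⟩
      rw [hi, mem_bot] at this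
      rw [h, this, mul_one]
  have key : ∀ b ∈ B, b ≠ 1 → b * (g * b * g⁻¹) = z := by
    intro b hb b1
    have hgb : g * b * g⁻¹ ∈ T := conj_mem_of_mem_normalizer hgn (hBT hb)
    have hfix : g * (b * (g * b * g⁻¹)) * g⁻¹ = b * (g * b * g⁻¹) := by
      have e := hBZ b hb _ hg2
      calc g * (b * (g * b * g⁻¹)) * g⁻¹ = g * b * g⁻¹ * ((g ^ 2 * b) * (g ^ 2)⁻¹) := by
            simp only [sq]; group
        _ = _ := by rw [e, mul_inv_cancel_right, hBZ b hb _ hgb]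
    obtain ⟨c, hc', h | h⟩ := hZ _ (T.mul_mem (hBT hb) hgb) (fun t ht => by
      rw [← mul_assoc, hBZ b hb t ht, mul_assoc, hconj b (hBT hb) (hBZ b hb) t ht]; group)
    · by_cases c1 : c = 1
      · exfalso
        rw [c1] at h
        apply hgT (hC b hb b1 g hgS ?_)
        have e := hB2 b hb
        have : g * b * g⁻¹ = b := mul_left_cancel (h.trans e.symm)
        rw [← mul_inv_eq_iff_eq_mul, this]
      · rw [h] at hfix
        exact absurd (hC c hc' c1 g hgS (by rw [← mul_inv_eq_iff_eq_mul, hfix])) hgT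
    · by_cases c1 : c = 1
      · rw [h, c1, mul_one]
      · rw [h] at hfix
        have : g * c * g⁻¹ = c := by
          have e : g * (z * c) * g⁻¹ = (g * z * g⁻¹) * (g * c * g⁻¹) := by group
          rw [e, hgz] at hfix
          exact mul_left_cancel hfix
        exact absurd (hC c hc' c1 g hgS (by rw [← mul_inv_eq_iff_eq_mul, this])) hgT
  have k1 := key b₁ h1 n1
  have k2 := key b₂ h2 n2
  have k3 := key _ (B.mul_mem h1 h2) n12
  have e := hBZ b₂ h2 _ (conj_mem_of_mem_normalizer hgn (hBT h1))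
  apply z1
  calc z = b₁ * (b₂ * (g * b₁ * g⁻¹)) * (g * b₂ * g⁻¹) := by rw [← k3]; group
    _ = (b₁ * (g * b₁ * g⁻¹)) * (b₂ * (g * b₂ * g⁻¹)) := by rw [← e]; group
    _ = 1 := by rw [k1, k2]; exact hD.zz

theorem comm_of_sq {E : Subgroup G} (h : ∀ a ∈ E, a * a = 1) {a b : G} (ha : a ∈ E) (hb : b ∈ E) :
    a * b = b * a := by
  have e1 := h a ha; have e2 := h b hb; have e3 := h _ (E.mul_mem ha hb)
  calc a * b = (a * a)⁻¹ * a * (a * a) * b * (b * b)⁻¹ := by rw [e1, e2]; group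
    _ = (a * a)⁻¹ * (a * (a * b * (a * b)) * b) * (b * b)⁻¹ := by rw [e3, e1]; group
    _ = b * a := by group

theorem two_mul_le_of_lt [Finite G] {A B : Subgroup G} (h : A < B) : 2 * Nat.card A ≤ Nat.card B := by
  obtain ⟨k, hk⟩ := card_dvd_of_le h.le
  have h1 := card_lt_of_lt h
  have hp : 0 < Nat.card A := Nat.card_pos
  rw [hk] at h1 ⊢
  have : 2 ≤ k := by
    by_contra h2
    have : k ≤ 1 := by omega
    nlinarith
  nlinarith

section E16

variable [Finite G] {S T B : Subgroup G}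

omit [Finite G] in
theorem card_four_of_sq {F : Subgroup G} (h4 : Nat.card F ≤ 4) (h : 16 ≤ Nat.card F * Nat.card F) :
    Nat.card F = 4 := by
  by_contra hne
  have : Nat.card F ≤ 3 := by omega
  nlinarith

theorem e16_fix (hT2 : ∀ a ∈ T, a * a = 1) (hT : Nat.card T = 16) (hBT : B ≤ T) (hB : Nat.card B = 4)
    (hC : ∀ b ∈ B, b ≠ 1 → ∀ g ∈ S, g * b = b * g → g ∈ T) {g : G} (hg : g ∈ S)
    (hn : g ∈ normalizer (T : Set G)) (hgT : g ∉ T) (h2 : g ^ 2 ∈ T) :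
    Nat.card ↥(centralizer {g} ⊓ T) = 4 := by
  set F := centralizer {g} ⊓ T with hF
  have hi : F ⊓ B = ⊥ := by
    rw [eq_bot_iff]
    intro b hb
    by_contra h1
    exact hgT (hC b hb.2 h1 g hg (mem_centralizer_singleton_iff.1 hb.1.1).symm)
  have e := card_sup_mul_card_inf (N := F) (H := B) fun b hb => mem_normalizer_of_conj_mem
    fun f hf => by rw [comm_of_sq hT2 (hBT hb) hf.2]; simpa using hf
  rw [hi, card_bot, hB] at e
  have i1 : Nat.card ↥(F ⊔ B) ≤ 16 := hT ▸ card_le_of_le (sup_le inf_le_right hBT)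
  refine card_four_of_sq (by omega) ?_
  rw [← hT]
  refine card_le_mul_cent fun t ht => ?_
  have ht' : g * t⁻¹ * g⁻¹ ∈ T := conj_mem_of_mem_normalizer hn (T.inv_mem ht)
  have e1 : ⁅t, g⁆ = t * (g * t⁻¹ * g⁻¹) := by simp only [commutatorElement_def]; group
  refine ⟨mem_centralizer_singleton_iff.2 ?_, e1 ▸ T.mul_mem ht ht'⟩
  have ti : t⁻¹ = t := inv_eq_of_mul_eq_one_right (hT2 t ht)
  have e2 := comm_of_sq hT2 h2 ht
  have e3 := comm_of_sq hT2 ht ht'
  rw [e1, ti] at *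
  calc t * (g * t * g⁻¹) * g = (g * t * g⁻¹) * t * g := by rw [e3]
    _ = g * t * g⁻¹ * ((g ^ 2)⁻¹ * (g ^ 2 * t)) * g := by group
    _ = g * t * g⁻¹ * (g ^ 2)⁻¹ * t * g ^ 2 * g := by rw [e2]; group
    _ = g * t * (g * ((g ^ 2)⁻¹ * (g ^ 2)⁻¹) * t * (g ^ 2 * g ^ 2)) * g⁻¹ := by simp only [sq]; group
    _ = _ := by rw [hT2 _ h2, hT2 _ (T.inv_mem h2)]; group

theorem e16_same (hT2 : ∀ a ∈ T, a * a = 1) (hT : Nat.card T = 16) (hBT : B ≤ T) (hB : Nat.card B = 4)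
    (hC : ∀ b ∈ B, b ≠ 1 → ∀ g ∈ S, g * b = b * g → g ∈ T) {g c : G} (hg : g ∈ S)
    (hn : g ∈ normalizer (T : Set G)) (hgT : g ∉ T) (h2 : g ^ 2 ∈ T) (hc : c ∈ S)
    (hcn : c ∈ normalizer (T : Set G)) (hcT : c ∉ T) (hc2 : c ^ 2 ∈ T) (hcg : ⁅c, g⁆ ∈ T) :
    centralizer {g} ⊓ T = centralizer {c} ⊓ T := by
  have c1 := e16_fix hT2 hT hBT hB hC hg hn hgT h2
  have c2 := e16_fix hT2 hT hBT hB hC hc hcn hcT hc2
  set F := centralizer {g} ⊓ T with hF
  set U := centralizer {c} ⊓ T with hU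
  have mF : ∀ t ∈ T, t ∈ F ↔ g * t * g⁻¹ = t := fun t ht => by
    rw [hF, mem_inf, mem_centralizer_singleton_iff, mul_inv_eq_iff_eq_mul]
    exact ⟨fun h => h.1.symm, fun h => ⟨h.symm, ht⟩⟩
  have mU : ∀ t ∈ T, t ∈ U ↔ c * t * c⁻¹ = t := fun t ht => by
    rw [hU, mem_inf, mem_centralizer_singleton_iff, mul_inv_eq_iff_eq_mul]
    exact ⟨fun h => h.1.symm, fun h => ⟨h.symm, ht⟩⟩
  have hTT : ∀ s ∈ T, ∀ t ∈ T, s * t * s⁻¹ = t := fun s hs t ht => by
    rw [comm_of_sq hT2 hs ht]; group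
  have hcc : ∀ t ∈ T, c * (g * t * g⁻¹) * c⁻¹ = g * (c * t * c⁻¹) * g⁻¹ := fun t ht => by
    have := hTT _ hcg _ (conj_mem_of_mem_normalizer hn (conj_mem_of_mem_normalizer hcn ht))
    rw [← this]; simp only [commutatorElement_def]; group
  have hsq : ∀ {k : G}, k ^ 2 ∈ T → ∀ t ∈ T, k * (k * t * k⁻¹) * k⁻¹ = t := fun {k} hk t ht => by
    rw [← hTT _ hk t ht]; nth_rewrite 1 [hTT _ hk t ht]; simp only [sq]; group
  by_contra hne
  by_cases hgc : g * c ∈ T
  · apply hne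
    refine (eq_of_le_of_card_le (fun t ht => ?_) (by omega)).symm
    have h1 := hTT _ hgc t ht.2
    have h3 := (mU t ht.2).1 ht
    rw [mF t ht.2]
    calc g * t * g⁻¹ = g * (c * t * c⁻¹) * g⁻¹ := by rw [h3]
      _ = _ := by rw [← h1]; nth_rewrite 1 [h1]; group
  have hlt : U < U ⊔ F := lt_of_le_of_ne le_sup_left fun h =>
    hne (eq_of_le_of_card_le (h ▸ le_sup_right) (by omega))
  have hlt2 : F ⊓ U < U := lt_of_le_of_ne inf_le_right fun h =>
    hne (eq_of_le_of_card_le (h ▸ inf_le_left : U ≤ F) (by omega)).symm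
  have i1 := two_mul_le_of_lt hlt
  have i2 := two_mul_le_of_lt hlt2
  have hUF : U ⊔ F ≤ T := sup_le inf_le_right inf_le_right
  have e := card_sup_mul_card_inf (N := U ⊔ F) (H := B) fun b hb => mem_normalizer_of_conj_mem
    fun f hf => by rw [hTT b (hBT hb) f (hUF hf)]; exact hf
  have i3 : Nat.card ↥((U ⊔ F) ⊔ B) ≤ 16 := hT ▸ card_le_of_le (sup_le hUF hBT)
  have hne1 : (U ⊔ F) ⊓ B ≠ ⊥ := fun h => by rw [h, card_bot, hB] at e; omega
  obtain ⟨⟨b, hb⟩, b1⟩ := (ne_bot_iff_exists_ne_one).1 hne1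
  have b1 : b ≠ 1 := fun h => b1 (Subtype.ext h)
  obtain ⟨u, hu, f, hf, rfl⟩ := (mem_sup_of_le_normalizer (N := U) (H := F) fun f hf =>
    mem_normalizer_of_conj_mem fun u hu => by rw [hTT f hf.2 u hu.2]; exact hu).1 hb.1
  have hu' := (mU u hu.2).1 hu
  have hf' := (mF f hf.2).1 hf
  have hcf : c * f * c⁻¹ ∈ T := conj_mem_of_mem_normalizer hcn hf.2
  have hgu : g * u * g⁻¹ ∈ T := conj_mem_of_mem_normalizer hn hu.2
  have w1 : c * f * c⁻¹ * f ∈ F ⊓ U := by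
    refine ⟨F.mul_mem ((mF _ hcf).2 (by rw [← hcc f hf.2, hf'])) hf, (mU _ (T.mul_mem hcf hf.2)).2 ?_⟩
    calc c * (c * f * c⁻¹ * f) * c⁻¹ = (c * (c * f * c⁻¹) * c⁻¹) * (c * f * c⁻¹) := by group
      _ = _ := by rw [hsq hc2 f hf.2, comm_of_sq hT2 hf.2 hcf]
  have w2 : g * u * g⁻¹ * u ∈ F ⊓ U := by
    refine ⟨(mF _ (T.mul_mem hgu hu.2)).2 ?_, U.mul_mem ((mU _ hgu).2 (by rw [hcc u hu.2, hu'])) hu⟩
    calc g * (g * u * g⁻¹ * u) * g⁻¹ = (g * (g * u * g⁻¹) * g⁻¹) * (g * u * g⁻¹) := by group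
      _ = _ := by rw [hsq h2 u hu.2, comm_of_sq hT2 hu.2 hgu]
  have n1 : c * f * c⁻¹ * f ≠ 1 := fun h => hcT (hC _ hb.2 b1 c hc (by
    have : c * f * c⁻¹ = f := mul_right_cancel (h.trans (hT2 f hf.2).symm)
    rw [← mul_inv_eq_iff_eq_mul]
    calc c * (u * f) * c⁻¹ = (c * u * c⁻¹) * (c * f * c⁻¹) := by group
      _ = _ := by rw [hu', this]))
  have n2 : g * u * g⁻¹ * u ≠ 1 := fun h => hgT (hC _ hb.2 b1 g hg (by
    have : g * u * g⁻¹ = u := mul_right_cancel (h.trans (hT2 u hu.2).symm)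
    rw [← mul_inv_eq_iff_eq_mul]
    calc g * (u * f) * g⁻¹ = (g * u * g⁻¹) * (g * f * g⁻¹) := by group
      _ = _ := by rw [hf', this]))
  have heq : c * f * c⁻¹ * f = g * u * g⁻¹ * u := by
    have hle : Nat.card ↥(F ⊓ U) ≤ 2 := by omega
    by_contra hne'
    have : 3 ≤ Nat.card ↥(F ⊓ U) := by
      classical
      have := Fintype.ofFinite ↥(F ⊓ U)
      rw [Nat.card_eq_fintype_card, ← Finset.card_univ]
      refine le_trans (le_of_eq ?_) (Finset.card_le_univ ({1, ⟨_, w1⟩, ⟨_, w2⟩} : Finset ↥(F ⊓ U)))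
      rw [Finset.card_eq_three.2 ⟨_, _, _, fun h => n1 (congrArg Subtype.val h).symm,
        fun h => n2 (congrArg Subtype.val h).symm, fun h => hne' (congrArg Subtype.val h), rfl⟩]
    omega
  apply hgc (hC _ hb.2 b1 _ (S.mul_mem hg hc) ?_)
  rw [← mul_inv_eq_iff_eq_mul]
  set w := g * u * g⁻¹ * u with hw
  have e1 : c * f * c⁻¹ = w * f := by rw [← heq, mul_assoc _ f f, hT2 f hf.2, mul_one]
  have e2 : g * u * g⁻¹ = w * u := by rw [hw, mul_assoc _ u u, hT2 u hu.2, mul_one]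
  have e3 : g * w * g⁻¹ = w := (mF w w2.1.2).1 w2.1
  calc g * c * (u * f) * (g * c)⁻¹ = g * ((c * u * c⁻¹) * (c * f * c⁻¹)) * g⁻¹ := by group
    _ = (g * u * g⁻¹) * (g * w * g⁻¹) * (g * f * g⁻¹) := by rw [hu', e1]; group
    _ = (w * u * w⁻¹) * (w * w) * f := by rw [e2, e3, hf']; group
    _ = _ := by rw [hTT w w2.1.2 u hu.2, hT2 w w2.1.2, mul_one]

theorem e16_rk (hS : IsPGroup 2 S) (hTS : T ≤ S) (hT2 : ∀ a ∈ T, a * a = 1) (hT : Nat.card T = 16)
    (hBT : B ≤ T) (hB : Nat.card B = 4)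
    (hC : ∀ b ∈ B, b ≠ 1 → ∀ g ∈ S, g * b = b * g → g ∈ T) : Rk 4 S := by
  have : Fact (Nat.Prime 2) := ⟨Nat.prime_two⟩
  by_cases hne : T = S
  · exact rk_of_card (by rw [← hne, hT]; norm_num)
  set N₀ := S ⊓ normalizer (T : Set G) with hN₀
  have hTN : T ≤ N₀ := le_inf hTS le_normalizer
  have hN₀p : IsPGroup 2 N₀ := hS.to_le inf_le_left
  obtain ⟨g₀, hg₀S, hg₀n, hg₀T, -⟩ := exists_nz hS (lt_of_le_of_ne hTS hne)
  obtain ⟨c, hc, hcT, hc2, hcc⟩ := exists_central_mod (P := N₀) (M := N₀) (N := T) hN₀p le_rfl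
    le_normalizer inf_le_right fun h => hg₀T (h ⟨hg₀S, hg₀n⟩)
  set U := centralizer {c} ⊓ T with hU
  have cU : Nat.card U = 4 := e16_fix hT2 hT hBT hB hC hc.1 hc.2 hcT hc2
  have same : ∀ g ∈ N₀, g ∉ T → g ^ 2 ∈ T → ∀ t ∈ T, t * g = g * t → t ∈ U := by
    intro g hg hgT h2 t ht e
    rw [hU, ← e16_same hT2 hT hBT hB hC hg.1 hg.2 hgT h2 hc.1 hc.2 hcT hc2 (hcc g hg)]
    exact ⟨mem_centralizer_singleton_iff.2 e, ht⟩
  have cent : ∀ x ∈ T, x ∉ U → ∀ g ∈ S, g * x = x * g → g ∈ T := by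
    intro x hx hxU g hg e
    by_contra hgT
    have hlt : T < S ⊓ centralizer {x} := lt_of_le_of_ne
      (fun t ht => ⟨hTS ht, mem_centralizer_singleton_iff.2 (comm_of_sq hT2 ht hx)⟩)
      fun h => hgT (h ▸ ⟨hg, mem_centralizer_singleton_iff.2 e⟩)
    obtain ⟨k, hk, hkn, hkT, hk2⟩ := exists_nz (hS.to_le inf_le_left) hlt
    exact hxU (same k ⟨hk.1, hkn⟩ hkT hk2 x hx (mem_centralizer_singleton_iff.1 hk.2).symm)
  have cN : Nat.card N₀ ≤ 64 := by
    obtain ⟨x, hx, hxU, hxc⟩ := exists_central_mod_of_nilpotent (P := N₀) (M := T) (N := U)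
      hN₀p.isNilpotent hTN inf_le_right fun h => by have := card_le_of_le h; omega
    have h1 := card_le_mul_cent (H := N₀) (W := U) (x := x) fun g hg => commutator_symm_mem (hxc g hg)
    have h2 : Nat.card ↥(centralizer {x} ⊓ N₀) ≤ 16 := hT ▸ card_le_of_le fun g hg =>
      cent x hx hxU g hg.2.1 (mem_centralizer_singleton_iff.1 hg.1)
    rw [cU] at h1; omega
  intro N H hH hN h2
  by_contra hlt
  push Not at hlt
  have hpos : 0 < Nat.card N := Nat.card_pos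
  have avoid : ∀ s ∈ S, ∀ x ∈ H, s⁻¹ * x * s ∈ T → s⁻¹ * x * s ∈ U := by
    intro s hs x hx hxT
    by_contra hxU
    have := card_le_of_cent (C := cj s T) h2 hx fun g hg e => mem_cj.2
      (cent _ hxT hxU _ (S.mul_mem (S.mul_mem (S.inv_mem hs) (hH hg)) hs) (by
        calc s⁻¹ * g * s * (s⁻¹ * x * s) = s⁻¹ * (g * x) * s := by group
          _ = _ := by rw [e]; group))
    rw [card_cj, hT] at this
    omega
  have c16 : Nat.card ↥(N₀ ⊓ H) ≤ 16 := by
    have e := card_sup_mul_card_inf (N := T) (H := N₀ ⊓ H) (inf_le_left.trans inf_le_right)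
    have i1 : Nat.card ↥(T ⊔ N₀ ⊓ H) ≤ 64 := (card_le_of_le (sup_le hTN inf_le_left)).trans cN
    have i2 : Nat.card ↥(T ⊓ (N₀ ⊓ H)) ≤ 4 := cU ▸ card_le_of_le fun x hx => by
      simpa using avoid 1 S.one_mem x hx.2.2 (by simpa using hx.1)
    have := Nat.mul_le_mul i1 i2
    rw [e, hT] at this; omega
  by_cases hNS : N₀ = S
  · rw [hNS, inf_eq_right.2 hH] at c16; omega
  obtain ⟨g, hgS, hgn, hgN, hg2⟩ := exists_nz hS (lt_of_le_of_ne inf_le_left hNS)
  set T' := cj g T with hT'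
  have cT' : Nat.card T' = 16 := by rw [hT', card_cj, hT]
  have hT'N : T' ≤ N₀ := cj_le_of_mem_normalizer hgn hTN
  have sq' : ∀ h : G, ∀ a ∈ cj h T, a * a = 1 := fun h a ha => by
    have := hT2 _ (mem_cj.1 ha)
    calc a * a = h * (h⁻¹ * a * h * (h⁻¹ * a * h)) * h⁻¹ := by group
      _ = 1 := by rw [this]; group
  have hTT' : ¬ T' ≤ T := fun h => hgN ⟨hgS, cj_eq_self_iff.1 (eq_of_le_of_card_le h (hT.trans cT'.symm).le)⟩
  obtain ⟨j₀, hj₀, hj₀T⟩ := SetLike.not_le_iff_exists.1 hTT'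
  have sq2 : ∀ {a : G}, a * a = 1 → a ^ 2 ∈ T := fun h => by rw [sq, h]; exact T.one_mem
  have hi : T ⊓ T' ≤ U := fun t ht =>
    same j₀ (hT'N hj₀) hj₀T (sq2 (sq' g _ hj₀)) t ht.1 (comm_of_sq (sq' g) ht.2 hj₀)
  have e := card_sup_mul_card_inf (N := T) (H := T') (hT'N.trans inf_le_right)
  have i1 : Nat.card ↥(T ⊔ T') ≤ Nat.card N₀ := card_le_of_le (sup_le hTN hT'N)
  have i2 : Nat.card ↥(T ⊓ T') ≤ 4 := cU ▸ card_le_of_le hi
  rw [hT, cT'] at e
  have i3 : Nat.card ↥(T ⊔ T') = 64 := by nlinarith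
  have i4 : Nat.card ↥(T ⊓ T') = 4 := by rw [i3] at e; omega
  have hsup : T ⊔ T' = N₀ := eq_of_le_of_card_le (sup_le hTN hT'N) (by omega)
  have hinf : T ⊓ T' = U := eq_of_le_of_card_le hi (by omega)
  have hUT' : U ≤ T' := hinf ▸ inf_le_right
  have elem : ∀ E : Subgroup G, E ≤ N₀ → (∀ a ∈ E, a * a = 1) → E ≤ T ∨ E ≤ T' := by
    intro E hE hE2
    have inv : ∀ j ∈ E, j ∉ T → j ∈ T' := by
      intro j hj hjT
      obtain ⟨t, ht, a, ha, rfl⟩ := (mem_sup_of_le_normalizer (hT'N.trans inf_le_right)).1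
        (hsup ▸ hE hj : j ∈ T ⊔ T')
      have haT : a ∉ T := fun h => hjT (T.mul_mem ht h)
      refine T'.mul_mem (hUT' (same a (hT'N ha) haT (sq2 (sq' g a ha)) t ht ?_)) ha
      have e1 := hE2 _ hj; have e2 := hT2 t ht; have e3 := sq' g a ha
      rw [← inv_eq_of_mul_eq_one_right e1, mul_inv_rev, inv_eq_of_mul_eq_one_right e2,
        inv_eq_of_mul_eq_one_right e3]
    by_cases h : E ≤ T
    · exact Or.inl h
    · obtain ⟨j, hj, hjT⟩ := SetLike.not_le_iff_exists.1 h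
      refine Or.inr fun x hx => ?_
      by_cases hxT : x ∈ T
      · exact hUT' (same j (hE hj) hjT (sq2 (hE2 j hj)) x hxT (comm_of_sq hE2 hx hj))
      · exact inv x hx hxT
  set R := N₀ ⊔ zpowers g with hR
  have cN' : Nat.card N₀ = 64 := by omega
  have cR : Nat.card R = 128 := by
    rw [hR, card_sup_zpowers Nat.prime_two hgn hg2 hgN, cN']
  have hRS : R ≤ S := sup_le inf_le_left (zpowers_le.2 hgS)
  have hRn : R ≤ normalizer (N₀ : Set G) := sup_le le_normalizer (zpowers_le.2 hgn)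
  have hNR : N₀ ≤ R := le_sup_left
  have hRS' : R = S := by
    by_contra hne'
    obtain ⟨h, hhS, hhn, hhR, -⟩ := exists_nz hS (lt_of_le_of_ne hRS hne')
    have hle : cj h T ≤ R := cj_le_of_mem_normalizer hhn (hTN.trans hNR)
    by_cases hh : cj h T ≤ N₀
    · rcases elem _ hh (sq' h) with h' | h'
      · exact hhR (hNR ⟨hhS, cj_eq_self_iff.1 (eq_of_le_of_card_le h' (by rw [card_cj]))⟩)
      · have h3 : cj h T = cj g T := eq_of_le_of_card_le h' (by rw [card_cj, card_cj])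
        have h4 : cj (g⁻¹ * h) T = T := by rw [cj_mul, h3, ← cj_mul, inv_mul_cancel, cj_one]
        have : g⁻¹ * h ∈ R := hNR ⟨S.mul_mem (S.inv_mem hgS) hhS, cj_eq_self_iff.1 h4⟩
        exact hhR ((R.mul_mem_cancel_left (R.inv_mem (mem_sup_right (mem_zpowers g)))).1 this)
    · obtain ⟨j, hj, hjN⟩ := SetLike.not_le_iff_exists.1 hh
      have hjT : cj j T = T' := by
        rcases elem _ (cj_le_of_mem_normalizer (hRn (hle hj)) hTN) (sq' j) with h' | h'
        · exact absurd ⟨hRS (hle hj), cj_eq_self_iff.1 (eq_of_le_of_card_le h' (by rw [card_cj]))⟩ hjN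
        · exact eq_of_le_of_card_le h' (by rw [card_cj, card_cj])
      have e1 := card_sup_mul_card_inf (N := N₀) (H := cj h T) (hle.trans hRn)
      have j1 : Nat.card ↥(N₀ ⊔ cj h T) ≤ 128 := cR ▸ card_le_of_le (sup_le hNR hle)
      have fix : ∀ a ∈ cj h T, j⁻¹ * a * j = a := fun a ha => by
        rw [mul_assoc, comm_of_sq (sq' h) ha hj]; group
      have j2 : Nat.card ↥(N₀ ⊓ cj h T) ≤ 4 := by
        rw [← cU, ← hinf]
        refine card_le_of_le fun a ha => ?_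
        rcases elem (N₀ ⊓ cj h T) inf_le_left (fun a ha => sq' h a ha.2) with h' | h'
        · exact ⟨h' ha, hjT ▸ mem_cj.2 (by rw [fix a ha.2]; exact h' ha)⟩
        · have := h' ha
          rw [← hjT, mem_cj, fix a ha.2] at this
          exact ⟨this, h' ha⟩
      have := Nat.mul_le_mul j1 j2
      rw [e1, cN', card_cj, hT] at this
      omega
  have e1 := card_sup_mul_card_inf (N := N₀) (H := H) ((hH.trans hRS'.ge).trans hRn)
  have j1 : Nat.card ↥(N₀ ⊔ H) ≤ 128 := cR ▸ card_le_of_le (sup_le hNR (hH.trans hRS'.ge))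
  have j2 := Nat.mul_le_mul j1 c16
  rw [e1, cN'] at j2
  have hN1 : N = ⊥ := card_eq_one.1 (by omega)
  have hH2 : ∀ a ∈ N₀ ⊓ H, a * a = 1 := fun a ha => by
    have := h2 a ha.2; rwa [hN1, mem_bot, sq] at this
  have j3 : Nat.card ↥(N₀ ⊓ H) ≤ 4 := by
    rcases elem _ inf_le_left hH2 with h' | h'
    · exact cU ▸ card_le_of_le fun x hx => by
        simpa using avoid 1 S.one_mem x hx.2 (by simpa using h' hx)
    · rw [← cU, ← card_cj g U]
      exact card_le_of_le fun x hx => mem_cj.2 (avoid g hgS x hx.2 (mem_cj.1 (h' hx)))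
  have := Nat.mul_le_mul j1 j3
  rw [e1, cN'] at this
  omega

end E16

end Cfsg.Agent.Isaacs.HR
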