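import Mathlib
import Cfsg.Agent.Isaacs.HR2
import Cfsg.Agent.PGrp.MaxClass2

/-! Tools for Harada's theorem on self-centralizing elementary abelian subgroups of order eight. -/

set_option autoImplicit false

namespace Cfsg.Agent.Isaacs.HR

open Subgroup Cfsg.Agent.PGrp
open scoped Pointwise commutatorElement

variable {G : Type*} [Group G]

theorem class_full [Finite G] {H W : Subgroup G} {x : G} (h : ∀ g ∈ H, ⁅g, x⁆ ∈ W)
    (hc : Nat.card ↥(centralizer {x} ⊓ H) * Nat.card W ≤ Nat.card H) :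
    ∀ w ∈ W, ∃ g ∈ H, ⁅g, x⁆ = w := by
  let f : H ⧸ (centralizer {x}).subgroupOf H → W := fun q =>
    Quotient.liftOn' q (fun g : H => (⟨⁅(g : G), x⁆, h g g.2⟩ : W)) (by
      intro a b hab
      rw [QuotientGroup.leftRel_apply, mem_subgroupOf, mem_centralizer_singleton_iff] at hab
      apply Subtype.ext
      have : (b : G) * x * (b : G)⁻¹ = a * x * (a : G)⁻¹ := by
        have h2 : ((a : G)⁻¹ * b) * x = x * ((a : G)⁻¹ * b) := by simpa using hab
        calc (b : G) * x * (b : G)⁻¹ = a * (((a : G)⁻¹ * b) * x) * (b : G)⁻¹ := by group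
          _ = _ := by rw [h2]; group
      simp only [commutatorElement_def, this])
  have hf : Function.Injective f := by
    intro a b hab
    obtain ⟨a, rfl⟩ := QuotientGroup.mk_surjective a
    obtain ⟨b, rfl⟩ := QuotientGroup.mk_surjective b
    have h1 : ⁅(a : G), x⁆ = ⁅(b : G), x⁆ := congrArg Subtype.val hab
    rw [QuotientGroup.eq, mem_subgroupOf, mem_centralizer_singleton_iff]
    simp only [commutatorElement_def, mul_left_inj] at h1
    simp only [coe_mul, coe_inv]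
    calc (a : G)⁻¹ * b * x = (a : G)⁻¹ * (b * x * (b : G)⁻¹) * b := by group
      _ = _ := by rw [← h1]; group
  have hle : Nat.card W ≤ Nat.card (H ⧸ (centralizer {x}).subgroupOf H) := by
    rw [← card_inf_mul_relIndex (centralizer {x}) H] at hc
    exact Nat.le_of_mul_le_mul_left hc Nat.card_pos
  intro w hw
  obtain ⟨q, hq⟩ := (hf.bijective_of_nat_card_le hle).2 ⟨w, hw⟩
  obtain ⟨a, rfl⟩ := QuotientGroup.mk_surjective q
  exact ⟨a, a.2, congrArg Subtype.val hq⟩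

theorem eq_of_sup_comm [Finite G] {K H : Subgroup G} (hK : IsPGroup 2 K) (hH : H ≤ K)
    (h : K ≤ H ⊔ ⁅K, K⁆) : H = K := by
  have : Fact (Nat.Prime 2) := ⟨Nat.prime_two⟩
  by_contra hne
  obtain ⟨M, h1, h2, h3, h4⟩ := exists_relIndex_prime_ge hK (lt_of_le_of_ne hH hne)
  have h5 := commutator_le_of_relIndex_prime Nat.prime_two h2 h4 h3
  have : K ≤ M := h.trans (sup_le h1 h5)
  rw [relIndex_eq_one.2 this] at h3
  omega

theorem card_le_of_hom [Finite G] {H K N : Subgroup G} (f : G → G)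
    (hf : ∀ x ∈ H, ∀ y ∈ H, f (x * y) = f x * f y) (hN : ∀ x ∈ H, f x ∈ N)
    (hK : ∀ x ∈ H, f x = 1 → x ∈ K) : Nat.card H ≤ Nat.card K * Nat.card N := by
  let φ : H →* G := MonoidHom.mk' (fun x => f x) fun x y => hf x x.2 y y.2
  rw [← card_mul_index φ.ker, index_ker]
  refine Nat.mul_le_mul ?_ (card_le_of_le ?_)
  · rw [← card_map_of_injective H.subtype_injective]
    refine card_le_of_le ?_
    rintro _ ⟨x, hx, rfl⟩
    exact hK x x.2 hx
  · rintro _ ⟨x, rfl⟩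
    exact hN x x.2

theorem card_le_of_comm [Finite G] {H U N : Subgroup G} (hc : ∀ x ∈ H, ∀ y ∈ H, x * y = y * x)
    (hN : ∀ x ∈ H, x ^ 2 ∈ N) (hU : ∀ x ∈ H, x * x = 1 → x ∈ U) :
    Nat.card H ≤ Nat.card U * Nat.card N :=
  card_le_of_hom (fun x => x ^ 2) (fun x hx y hy => (Commute.mul_pow (hc x hx y hy) 2)) hN
    fun x hx h => hU x hx (by rw [← sq]; exact h)

/-- the squares of an abelian subgroup -/
def sqs (P : Subgroup G) (hc : ∀ x ∈ P, ∀ y ∈ P, x * y = y * x) : Subgroup G where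
  carrier := {y | ∃ x ∈ P, x * x = y}
  one_mem' := ⟨1, P.one_mem, mul_one 1⟩
  mul_mem' := by
    rintro _ _ ⟨x, hx, rfl⟩ ⟨y, hy, rfl⟩
    refine ⟨x * y, P.mul_mem hx hy, ?_⟩
    rw [mul_assoc, ← mul_assoc y, ← hc x hx y hy]; group
  inv_mem' := by
    rintro _ ⟨x, hx, rfl⟩
    exact ⟨x⁻¹, P.inv_mem hx, by group⟩

theorem mem_sqs {P : Subgroup G} {hc : ∀ x ∈ P, ∀ y ∈ P, x * y = y * x} {y : G} :
    y ∈ sqs P hc ↔ ∃ x ∈ P, x * x = y := Iff.rfl

theorem sqs_le {P : Subgroup G} {hc : ∀ x ∈ P, ∀ y ∈ P, x * y = y * x} : sqs P hc ≤ P := by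
  rintro _ ⟨x, hx, rfl⟩; exact P.mul_mem hx hx

theorem sq_mem_sqs {P : Subgroup G} {hc : ∀ x ∈ P, ∀ y ∈ P, x * y = y * x} {x : G} (hx : x ∈ P) :
    x * x ∈ sqs P hc := ⟨x, hx, rfl⟩

instance sqs_normal {P : Subgroup G} [hP : P.Normal] {hc : ∀ x ∈ P, ∀ y ∈ P, x * y = y * x} :
    (sqs P hc).Normal := ⟨by
  rintro _ ⟨x, hx, rfl⟩ g
  exact ⟨_, hP.conj_mem x hx g, by group⟩⟩

theorem eq_one_of_sq_closed [Finite G] (hG : IsPGroup 2 G) (E : G → Prop)
    (h : ∀ x, E x → ∃ y, E y ∧ x = y * y) {x : G} (hx : E x) : x = 1 := by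
  have : Fact (Nat.Prime 2) := ⟨Nat.prime_two⟩
  obtain ⟨k, hk⟩ := hG.exists_card_eq
  have key : ∀ n : ℕ, ∀ x, E x → ∃ y, E y ∧ x = y ^ 2 ^ n := by
    intro n
    induction n with
    | zero => exact fun x hx => ⟨x, hx, by simp⟩
    | succ n ih =>
      intro x hx
      obtain ⟨y, hy, rfl⟩ := ih x hx
      obtain ⟨w, hw, rfl⟩ := h y hy
      exact ⟨w, hw, by rw [← sq, ← pow_mul, pow_succ']⟩
  obtain ⟨y, -, rfl⟩ := key k x hx
  rw [← hk, pow_card_eq_one']

theorem mul_mem_of_card [Finite G] {W P : Subgroup G} (hW : W ≤ P) (hc : Nat.card P ≤ 2 * Nat.card W)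
    {p q : G} (hp : p ∈ P) (hq : q ∈ P) (hp' : p ∉ W) (hq' : q ∉ W) : p * q ∈ W := by
  have h1 := two_mul_le_of_lt (lt_of_le_of_ne hW fun h => hp' (h ▸ hp))
  have h2 := card_eq_card_mul_relIndex hW
  have hpos : 0 < Nat.card W := Nat.card_pos
  have h3 : W.relIndex P = 2 := by
    have : Nat.card W * W.relIndex P = Nat.card W * 2 := by omega
    exact Nat.eq_of_mul_eq_mul_left hpos this
  have := (mul_mem_iff_of_index_two (H := W.subgroupOf P) h3 (a := ⟨p, hp⟩) (b := ⟨q, hq⟩)).2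
    (by simp [mem_subgroupOf, hp', hq'])
  exact this

theorem two_mul_le_of_pow [Finite G] (hG : IsPGroup 2 G) {H K : Subgroup G} {k : ℕ}
    (h : Nat.card H < 2 ^ k * Nat.card K) : 2 * Nat.card H ≤ 2 ^ k * Nat.card K := by
  have : Fact (Nat.Prime 2) := ⟨Nat.prime_two⟩
  obtain ⟨i, hi⟩ := exists_card_eq_pow hG H
  obtain ⟨j, hj⟩ := exists_card_eq_pow hG K
  rw [hi, hj, ← pow_add] at h ⊢
  rw [← pow_succ']
  exact Nat.pow_le_pow_right (by norm_num) ((Nat.pow_lt_pow_iff_right one_lt_two).1 h)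

theorem two_mul_le_of_pow' [Finite G] (hG : IsPGroup 2 G) {H K : Subgroup G} {k : ℕ}
    (h : 2 ^ k * Nat.card K < Nat.card H) : 2 * (2 ^ k * Nat.card K) ≤ Nat.card H := by
  have : Fact (Nat.Prime 2) := ⟨Nat.prime_two⟩
  obtain ⟨i, hi⟩ := exists_card_eq_pow hG H
  obtain ⟨j, hj⟩ := exists_card_eq_pow hG K
  rw [hi, hj, ← pow_add] at h ⊢
  rw [← pow_succ']
  exact Nat.pow_le_pow_right (by norm_num) ((Nat.pow_lt_pow_iff_right one_lt_two).1 h)

theorem card_le_inf [Finite G] {T : Subgroup G} [T.Normal] {k : ℕ} (h : Nat.card G ≤ k * Nat.card T)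
    (K : Subgroup G) : Nat.card K ≤ k * Nat.card ↥(T ⊓ K) := by
  have e := card_sup_mul_card_inf (N := T) (H := K) (le_top.trans (normalizer_eq_top T).ge)
  have i : Nat.card ↥(T ⊔ K) ≤ k * Nat.card T := (card_le_card_group _).trans h
  have hpos : 0 < Nat.card T := Nat.card_pos
  refine Nat.le_of_mul_le_mul_left ?_ hpos
  rw [← e]
  calc _ ≤ k * Nat.card T * Nat.card ↥(T ⊓ K) := Nat.mul_le_mul_right _ i
    _ = _ := by ring

theorem comm_mul (x y t : G) : ⁅x * y, t⁆ = x * ⁅y, t⁆ * x⁻¹ * ⁅x, t⁆ := by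
  simp only [commutatorElement_def]; group

theorem comm_eq_iff {x y t : G} (h : ⁅x, t⁆ = ⁅y, t⁆) : y⁻¹ * x * t = t * (y⁻¹ * x) := by
  simp only [commutatorElement_def, mul_left_inj] at h
  calc y⁻¹ * x * t = y⁻¹ * (x * t * x⁻¹) * x := by group
    _ = _ := by rw [h]; group

theorem comm_inv {x t : G} (ht : t * t = 1) : t * ⁅x, t⁆ * t⁻¹ = ⁅x, t⁆⁻¹ := by
  simp only [commutatorElement_def]
  calc t * (x * t * x⁻¹ * t⁻¹) * t⁻¹ = t * x * t * x⁻¹ * (t * t)⁻¹ := by group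
    _ = t * x * (t * (t * t)⁻¹) * x⁻¹ := by rw [ht]; group
    _ = _ := by group

theorem comm_key {x t : G} (h : t * (x * x) * t⁻¹ = (x * x)⁻¹) :
    x * ⁅x, t⁆ * x⁻¹ * ⁅x, t⁆ = x * x * (x * x) := by
  simp only [commutatorElement_def]
  calc x * (x * t * x⁻¹ * t⁻¹) * x⁻¹ * (x * t * x⁻¹ * t⁻¹) = x * x * (t * (x * x) * t⁻¹)⁻¹ := by group
    _ = _ := by rw [h, inv_inv]

theorem claim_one [Finite G] (hG : IsPGroup 2 G) {P K : Subgroup G} [hP : P.Normal] (cP : Nat.card P ≤ 4)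
    {t : G} (hd : ∀ x ∈ K, ⁅x, t⁆ ∈ P) (surj : ∀ p ∈ P, ∃ x ∈ K, ⁅x, t⁆ = p)
    (fix : ∀ x ∈ K, x * ⁅x, t⁆ * x⁻¹ = ⁅x, t⁆) : ∀ y ∈ K, ∀ p ∈ P, y * p * y⁻¹ = p := by
  have : Fact (Nat.Prime 2) := ⟨Nat.prime_two⟩
  by_cases h0 : P = ⊥
  · intro y _ p hp; rw [h0, mem_bot] at hp; simp [hp]
  obtain ⟨w, hw, hwc, hw2⟩ := exists_mem_center_orderOf_eq hG P h0
  have hW : zpowers w ≤ P := zpowers_le.2 hw
  have cW : Nat.card P ≤ 2 * Nat.card (zpowers w) := by rw [Nat.card_zpowers, hw2]; exact cP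
  have cen : ∀ v ∈ zpowers w, ∀ g : G, g * v * g⁻¹ = v := fun v hv g => by
    rw [mem_center_iff.1 (zpowers_le.2 hwc hv) g]; group
  have all : ∀ g : G, ∀ q ∈ P, q ∉ zpowers w → g * q * g⁻¹ = q → ∀ p ∈ P, g * p * g⁻¹ = p := by
    intro g q hq hq' e p hp
    by_cases hp' : p ∈ zpowers w
    · exact cen p hp' g
    · have h1 := cen _ (mul_mem_of_card hW cW hp hq hp' hq') g
      calc g * p * g⁻¹ = g * (p * q) * g⁻¹ * (g * q * g⁻¹)⁻¹ := by group
        _ = p := by rw [h1, e]; group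
  intro y hy p hp
  by_contra hne
  have hp' : p ∉ zpowers w := fun h => hne (cen p h y)
  obtain ⟨x, hx, rfl⟩ := surj p hp
  have hxa := all x _ hp hp' (fix x hx)
  have h1 : ⁅y, t⁆ ∈ zpowers w := by
    by_contra h; exact hne (all y _ (hd y hy) h (fix y hy) _ hp)
  have h2 : ⁅y * x, t⁆ ∈ zpowers w := by
    by_contra h
    have := all _ _ (hd _ (K.mul_mem hy hx)) h (fix _ (K.mul_mem hy hx)) _ hp
    apply hne
    calc y * ⁅x, t⁆ * y⁻¹ = y * (x * ⁅x, t⁆ * x⁻¹) * y⁻¹ := by rw [hxa _ hp]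
      _ = y * x * ⁅x, t⁆ * (y * x)⁻¹ := by rw [mul_inv_rev]; simp only [mul_assoc]
      _ = _ := this
  rw [comm_mul, mul_mem_cancel_right h1] at h2
  apply hp'
  have := cen _ h2 y⁻¹
  rw [← this] at h2
  simpa [mul_assoc] using h2

theorem four_struct [Finite G] (hG : IsPGroup 2 G) {U : Subgroup G} [hU : U.Normal] (cU : Nat.card U = 4)
    (hU2 : ∀ x ∈ U, x * x = 1) : ∃ z u : G, (∀ g, g * z = z * g) ∧ z ≠ 1 ∧ u ≠ 1 ∧ u ≠ z ∧
      (∀ x, x ∈ U ↔ x = 1 ∨ x = z ∨ x = u ∨ x = u * z) ∧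
      ∀ g, g * u * g⁻¹ = u ∨ g * u * g⁻¹ = u * z := by
  have : Fact (Nat.Prime 2) := ⟨Nat.prime_two⟩
  have h0 : U ≠ ⊥ := fun h => by rw [h, card_bot] at cU; omega
  obtain ⟨z, hz, hzc, hz2⟩ := exists_mem_center_orderOf_eq hG U h0
  have hW : zpowers z ≤ U := zpowers_le.2 hz
  have cW : Nat.card (zpowers z) = 2 := by rw [Nat.card_zpowers, hz2]
  obtain ⟨u, hu, huz⟩ := SetLike.not_le_iff_exists.1
    (fun h => by have := card_le_of_le h; omega : ¬ U ≤ zpowers z)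
  have mz : ∀ x ∈ zpowers z, x = 1 ∨ x = z := fun x hx => by
    obtain ⟨k, rfl⟩ := mem_powers_iff_mem_zpowers.2 hx
    show z ^ k = 1 ∨ z ^ k = z
    rw [← pow_mod_orderOf, hz2]
    rcases Nat.mod_two_eq_zero_or_one k with h | h <;> simp [h]
  have hm : ∀ x ∈ U, x ∉ zpowers z → x = u ∨ x = u * z := fun x hx hx' => by
    rcases mz _ (mul_mem_of_card hW (by omega) hu hx huz hx') with h | h
    · left; exact mul_left_cancel (h.trans (hU2 u hu).symm)
    · right; rw [← h, ← mul_assoc, hU2 u hu, one_mul]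
  refine ⟨z, u, mem_center_iff.1 hzc, fun h => by rw [h, orderOf_one] at hz2; omega,
    fun h => huz (h ▸ one_mem _), fun h => huz (h ▸ mem_zpowers _), fun x => ⟨fun hx => ?_, ?_⟩, fun g => ?_⟩
  · by_cases h : x ∈ zpowers z
    · rcases mz x h with h | h <;> simp [h]
    · rcases hm x hx h with h | h <;> simp [h]
  · rintro (rfl | rfl | rfl | rfl)
    exacts [U.one_mem, hz, hu, U.mul_mem hu hz]
  · refine hm _ (hU.conj_mem u hu g) fun h => huz ?_
    have h1 := mem_center_iff.1 (zpowers_le.2 hzc h) g⁻¹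
    have : g * u * g⁻¹ = u := by
      calc g * u * g⁻¹ = g⁻¹ * (g * u * g⁻¹) * g := by rw [h1, inv_mul_cancel_right]
        _ = u := by group
    exact this ▸ h

theorem rk_two_of_index [Finite G] {K : Subgroup G} (hK : IsPGroup 2 K)
    (h : Nat.card K ≤ 4 * Nat.card (⁅K, K⁆ : Subgroup G)) : Rk 2 K := by
  have : Fact (Nat.Prime 2) := ⟨Nat.prime_two⟩
  by_cases hc : IsMulCommutative K
  · have : (⁅K, K⁆ : Subgroup G) = ⊥ :=
      commutator_eq_bot_iff_le_centralizer.mpr (le_centralizer_iff_isMulCommutative.mpr hc)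
    rw [this, card_bot] at h
    exact rk_of_card h
  have hm : (commutator K).map K.subtype = ⁅K, K⁆ := by
    rw [commutator_def, map_commutator, ← MonoidHom.range_eq_map, range_subtype]
  have hcard : Nat.card (commutator K) = Nat.card (⁅K, K⁆ : Subgroup G) := by
    rw [← hm, card_map_of_injective K.subtype_injective]
  have e := card_mul_index (commutator K)
  obtain ⟨j, hj⟩ := hK.index (commutator K)
  have hpos : 0 < Nat.card (commutator K) := Nat.card_pos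
  have hj2 : j ≤ 2 := by
    rw [← hcard, ← e, hj, mul_comm 4] at h
    have := Nat.le_of_mul_le_mul_left h hpos
    by_contra h3
    have : 2 ^ 3 ≤ 2 ^ j := Nat.pow_le_pow_right (by norm_num) (by omega)
    omega
  by_cases h4 : j = 2
  · obtain ⟨a, b, m, -, hmc⟩ := exists_mc_of_index_commutator hK (by rw [hj, h4]; norm_num) hc
    have := hmc.map K.subtype_injective
    rw [← MonoidHom.range_eq_map, range_subtype] at this
    exact rk_mc this
  · exfalso
    have hle : (⁅K, K⁆ : Subgroup G) ≤ K := commutator_le_self K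
    have h2 : Nat.card K ≤ 2 * Nat.card (⁅K, K⁆ : Subgroup G) := by
      rw [← hcard, ← e, hj]
      have : 2 ^ j ≤ 2 ^ 1 := Nat.pow_le_pow_right (by norm_num) (by omega)
      nlinarith
    by_cases h5 : K ≤ ⁅K, K⁆
    · have := eq_of_sup_comm hK bot_le (by simpa using h5)
      exact hc (this ▸ inferInstance)
    · obtain ⟨x, hx, hx'⟩ := SetLike.not_le_iff_exists.1 h5
      have := eq_of_sup_comm hK (zpowers_le.2 hx) fun y hy => by
        by_cases hy' : y ∈ (⁅K, K⁆ : Subgroup G)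
        · exact mem_sup_right hy'
        · have := mul_mem_of_card hle h2 hx hy hx' hy'
          exact (mul_mem_cancel_left (mem_sup_left (mem_zpowers x))).1 (mem_sup_right this)
      exact hc (this ▸ inferInstance)

end Cfsg.Agent.Isaacs.HR
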