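import Mathlib
import Cfsg.Agent.Isaacs.HR3

/-! Harada's theorem: the self-centralizing group of order eight contains a normal four-group. -/

set_option autoImplicit false

namespace Cfsg.Agent.Isaacs.HR

open Subgroup Cfsg.Agent.PGrp
open _root_.Cfsg.Agent.LocalEven (cj mem_cj card_cj)
open scoped Pointwise commutatorElement

variable {S : Type*} [Group S] [Finite S]

theorem card_le_two_cent (hS : IsPGroup 2 S) {U : Subgroup S} [U.Normal] (cU : Nat.card U = 4)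
    (hU2 : ∀ x ∈ U, x * x = 1) : Nat.card S ≤ 2 * Nat.card (centralizer (U : Set S)) := by
  obtain ⟨z, u, hz, z1, u1, uz, mU, hu⟩ := four_struct hS cU hU2
  have hz2 : orderOf z = 2 := by
    have : Fact (Nat.Prime 2) := ⟨Nat.prime_two⟩
    exact orderOf_eq_prime (by rw [sq, hU2 z ((mU z).2 (by simp))]) z1
  have h1 := card_le_mul_cent (H := ⊤) (W := zpowers z) (x := u) fun g _ => by
    rcases hu g with h | h
    · rw [commutatorElement_def, h, mul_inv_cancel]; exact one_mem _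
    · rw [commutatorElement_def, h, hz u, mul_inv_cancel_right]; exact mem_zpowers z
  rw [card_top, Nat.card_zpowers, hz2, mul_comm] at h1
  refine h1.trans (Nat.mul_le_mul_left _ (card_le_of_le fun g hg => mem_centralizer_iff.2 fun v hv => ?_))
  have e := mem_centralizer_singleton_iff.1 hg.1
  rcases (mU v).1 hv with rfl | rfl | rfl | rfl
  · simp
  · exact (hz g).symm
  · exact e.symm
  · rw [mul_assoc, ← hz g, ← mul_assoc, ← e, mul_assoc]

/-- the final computation of the first case -/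
theorem caseI_end (hS : IsPGroup 2 S) {U P M : Subgroup S} [hUn : U.Normal] [hPn : P.Normal]
    (hU2 : ∀ x ∈ U, x * x = 1) (hc : ∀ x ∈ P, ∀ y ∈ P, x * y = y * x) {t h : S}
    (hinv : ∀ p ∈ P, t * p * t⁻¹ = p⁻¹) (hΩ : ∀ p ∈ P, p * p = 1 → p ∈ U) (hUP : U ≤ P)
    (hMU : ∀ m ∈ M, ∀ v ∈ U, m * v = v * m) (surj : ∀ p ∈ P, ∃ m ∈ M, ⁅m, t⁆ = p)
    (hM2 : ∀ m ∈ M, m * m ∈ sqs P hc) (hMh : ∀ m ∈ M, m * h * (m * h) ∈ sqs P hc)
    (hht : h * t = t * h) : ∀ v ∈ U, h * v = v * h := by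
  have dh : ⁅h, t⁆ = 1 := commutatorElement_eq_one_iff_mul_comm.2 hht
  have hh : h * h ∈ P := by simpa using sqs_le (hMh 1 M.one_mem)
  have dm : ∀ m, ⁅m * h, t⁆ = ⁅m, t⁆ := fun m => by rw [comm_mul, dh]; group
  set φ : S → S := fun p => h * p * h⁻¹ * p⁻¹ with hφ
  have φP : ∀ p ∈ P, φ p ∈ P := fun p hp => P.mul_mem (hPn.conj_mem p hp h) (P.inv_mem hp)
  have φm : ∀ p ∈ P, ∀ q ∈ P, φ (p * q) = φ p * φ q := fun p hp q hq => by
    have := hc _ (φP q hq) _ (P.inv_mem hp)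
    simp only [hφ] at this ⊢
    calc h * (p * q) * h⁻¹ * (p * q)⁻¹ = h * p * h⁻¹ * (h * q * h⁻¹ * q⁻¹ * p⁻¹) := by group
      _ = _ := by rw [this]; group
  have φφ : ∀ p ∈ P, φ (φ p) = (φ p * φ p)⁻¹ := fun p hp => by
    have := hc _ hh p hp
    simp only [hφ]
    calc h * (h * p * h⁻¹ * p⁻¹) * h⁻¹ * (h * p * h⁻¹ * p⁻¹)⁻¹
        = (h * h * p) * (h * h)⁻¹ * (h * p⁻¹ * h⁻¹) * (h * p * h⁻¹ * p⁻¹)⁻¹ := by group
      _ = _ := by rw [this]; group
  have φ4 : ∀ p ∈ P, ∃ y ∈ P, φ p = y * y * (y * y) := by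
    intro p hp
    obtain ⟨m, hm, rfl⟩ := surj p hp
    obtain ⟨q₁, h1, e1⟩ := hMh m hm
    obtain ⟨q₂, h2, e2⟩ := hM2 m hm
    have k1 := comm_key (hinv _ (sqs_le (hMh m hm)))
    have k2 := comm_key (hinv _ (sqs_le (hM2 m hm)))
    rw [dm, ← e1] at k1
    rw [← e2] at k2
    refine ⟨m⁻¹ * (q₁ * q₂⁻¹) * m⁻¹⁻¹, hPn.conj_mem _ (P.mul_mem h1 (P.inv_mem h2)) _, ?_⟩
    have c1 : Commute q₁ q₂⁻¹ := hc _ h1 _ (P.inv_mem h2)
    have e4 : (q₁ * q₂⁻¹) ^ 4 = q₁ * q₁ * (q₁ * q₁) * (q₂ * q₂ * (q₂ * q₂))⁻¹ := by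
      rw [c1.mul_pow]; simp only [pow_succ, pow_zero]; group
    simp only [hφ]
    calc h * ⁅m, t⁆ * h⁻¹ * ⁅m, t⁆⁻¹
        = m⁻¹ * ((m * h * ⁅m, t⁆ * (m * h)⁻¹ * ⁅m, t⁆) * (m * ⁅m, t⁆ * m⁻¹ * ⁅m, t⁆)⁻¹) * m := by group
      _ = m⁻¹ * (q₁ * q₂⁻¹) ^ 4 * m := by rw [k1, k2, e4]
      _ = _ := by simp only [pow_succ, pow_zero]; group
  have φ2 : ∀ p ∈ P, φ p * φ p = 1 := by
    intro p hp
    refine eq_one_of_sq_closed hS (fun x => ∃ p ∈ P, x = φ p * φ p) ?_ ⟨p, hp, rfl⟩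
    rintro _ ⟨p, hp, rfl⟩
    obtain ⟨y, hy, e⟩ := φ4 p hp
    have hy' := P.inv_mem hy
    refine ⟨_, ⟨y⁻¹, hy', rfl⟩, ?_⟩
    have h1 : φ y⁻¹ = (φ y)⁻¹ := by
      have := φm y hy _ hy'
      rw [mul_inv_cancel] at this
      exact (inv_eq_of_mul_eq_one_right (this.symm.trans (by simp [hφ]))).symm
    have h2 := φφ p hp
    rw [e, φm _ (P.mul_mem hy hy) _ (P.mul_mem hy hy), φm y hy y hy, ← e] at h2
    rw [h1, ← inv_inj, ← h2]; simp only [mul_inv_rev, inv_inv]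
  intro u hu
  by_contra hne
  obtain ⟨b, hb, e⟩ := surj u (hUP hu)
  have k1 := comm_key (hinv _ (sqs_le (hMh b hb)))
  have k2 := comm_key (hinv _ (sqs_le (hM2 b hb)))
  rw [dm, e] at k1
  rw [e, hMU b hb u hu, mul_inv_cancel_right, hU2 u hu] at k2
  have hu' := hUn.conj_mem u hu h
  have k3 : b * h * u * (b * h)⁻¹ = h * u * h⁻¹ := by
    calc b * h * u * (b * h)⁻¹ = b * (h * u * h⁻¹) * b⁻¹ := by group
      _ = _ := by rw [hMU b hb _ hu', mul_inv_cancel_right]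
  set w := h * b * h⁻¹ * b⁻¹ with hw
  have hwQ : w ∈ sqs P hc := by
    have : w = b⁻¹ * ((b * h * (b * h)) * (h * h)⁻¹ * (b * b)⁻¹) * b⁻¹⁻¹ := by rw [hw]; group
    rw [this]
    refine sqs_normal.conj_mem _ (mul_mem (mul_mem (hMh b hb) (inv_mem ?_)) (inv_mem (hM2 b hb))) _
    simpa using hMh 1 M.one_mem
  have hwh : h * w * h⁻¹ = w := by
    obtain ⟨q, hq, e⟩ := hwQ
    have := φm q hq q hq
    rw [φ2 q hq, e] at this
    exact mul_inv_eq_one.1 this
  have hhU : h * h ∈ U := hΩ _ hh (by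
    have := hinv _ hh
    rw [← mul_assoc, ← hht, mul_assoc h, ← hht, ← mul_assoc, mul_inv_cancel_right] at this
    nth_rewrite 1 [this]; group)
  have hw2 : w * w = 1 := by
    have e1 := hMU b hb _ hhU
    calc w * w = (h * w * h⁻¹) * w := by rw [hwh]
      _ = (h * h * b) * (h * h)⁻¹ * b⁻¹ := by rw [hw]; group
      _ = 1 := by rw [← e1]; group
  have hwU := hΩ w (sqs_le hwQ) hw2
  have hb2 : b * b ∈ P := sqs_le (hM2 b hb)
  have r2 : b * h * (b * h) = b * b * (w * (h * h)) := by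
    calc b * h * (b * h) = b * (w * b) * (h * h) := by rw [hw]; group
      _ = _ := by rw [← hMU b hb w hwU]; group
  have hx : w * (h * h) ∈ U := U.mul_mem hwU hhU
  rw [k3, r2, mul_assoc (b * b), ← mul_assoc (w * (h * h)), hc _ (hUP hx) _ hb2, mul_assoc (b * b),
    hU2 _ hx, mul_one, ← k2] at k1
  apply hne
  rw [← mul_inv_eq_iff_eq_mul]
  exact mul_right_cancel (k1.trans (hU2 u hu).symm)

theorem caseI (hS : IsPGroup 2 S) {U : Subgroup S} [hUn : U.Normal] (cU : Nat.card U = 4)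
    (hU2 : ∀ x ∈ U, x * x = 1) {t : S} (ht : t * t = 1) (htU : t ∉ U) (htc : ∀ x ∈ U, t * x = x * t)
    (hC : ∀ x, (∀ v ∈ U, x * v = v * x) → x * t = t * x → x ∈ U ∨ x * t ∈ U) :
    Rk 4 (⊤ : Subgroup S) := by
  have : Fact (Nat.Prime 2) := ⟨Nat.prime_two⟩
  set T := centralizer (U : Set S) with hT
  have mT : ∀ x, x ∈ T ↔ ∀ v ∈ U, x * v = v * x := fun x =>
    ⟨fun h v hv => (mem_centralizer_iff.1 h v hv).symm, fun h => mem_centralizer_iff.2 fun v hv => (h v hv).symm⟩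
  have cT : Nat.card S ≤ 2 * Nat.card T := card_le_two_cent hS cU hU2
  have hTn : T.Normal := inferInstance
  have htT : t ∈ T := (mT t).2 htc
  have hUT : U ≤ T := fun v hv => (mT v).2 fun w hw => comm_of_sq hU2 hv hw
  have ti : t⁻¹ = t := inv_eq_of_mul_eq_one_right ht
  set A := U ⊔ zpowers t with hA
  have cA : Nat.card A = 8 := by
    rw [hA, card_sup_zpowers Nat.prime_two (mem_normalizer_of_normal U t) (by rw [sq, ht]; exact U.one_mem) htU, cU]
  have cent : ∀ v ∈ U, centralizer {t * v} ⊓ T ≤ A := fun v hv x hx => by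
    have h1 := mem_centralizer_singleton_iff.1 hx.1
    have h2 := (mT x).1 hx.2
    rw [← mul_assoc, mul_assoc t, ← h2 v hv, ← mul_assoc, mul_left_inj] at h1
    rcases hC x h2 h1 with h | h
    · exact mem_sup_left h
    · exact (mul_mem_cancel_right (mem_sup_right (mem_zpowers t))).1 (mem_sup_left h)
  set P : Subgroup S := ⁅T, T⁆ with hP
  have hPn : P.Normal := inferInstance
  have hPT : P ≤ T := commutator_le_self T
  by_cases h4 : Nat.card T ≤ 4 * Nat.card P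
  · refine (rk_add_card (a := 2) (b := 1) (le_top.trans (normalizer_eq_top T).ge) le_top
      (rk_two_of_index (hS.to_subgroup T) h4) (by rw [card_top]; omega)).le (by norm_num)
  have dP : ∀ x ∈ T, ∀ g ∈ T, ⁅g, x⁆ ∈ P := fun x hx g hg => commutator_mem_commutator hg hx
  have c8 : ∀ v ∈ U, Nat.card ↥(centralizer {t * v} ⊓ T) ≤ 8 := fun v hv => cA ▸ card_le_of_le (cent v hv)
  have cTP : Nat.card T = 8 * Nat.card P := by
    have h1 := card_le_mul_cent (dP _ (T.mul_mem htT T.one_mem))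
    have h2 := two_mul_le_of_pow' hS (k := 2) (H := T) (K := P) (by omega)
    have h3 := Nat.mul_le_mul_right (Nat.card P) (c8 1 U.one_mem)
    omega
  have full : ∀ v ∈ U, ∀ p ∈ P, ∃ g ∈ T, ⁅g, t * v⁆ = p := fun v hv =>
    class_full (dP _ (T.mul_mem htT (hUT hv))) (cTP ▸ Nat.mul_le_mul_right _ (c8 v hv))
  have hinv : ∀ p ∈ P, t * p * t⁻¹ = p⁻¹ := fun p hp => by
    obtain ⟨g, -, rfl⟩ := full 1 U.one_mem p hp
    rw [mul_one]; exact comm_inv ht
  have hc : ∀ x ∈ P, ∀ y ∈ P, x * y = y * x := fun x hx y hy => by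
    have := hinv _ (P.mul_mem hx hy)
    rw [show t * (x * y) * t⁻¹ = (t * x * t⁻¹) * (t * y * t⁻¹) by group, hinv x hx, hinv y hy] at this
    rw [← inv_inj, ← this]; group
  have notP : ∀ v ∈ U, t * v ∉ P := fun v hv h => by
    obtain ⟨g, -, e⟩ := full v hv _ (P.inv_mem h)
    rw [commutatorElement_def, mul_eq_right, conj_eq_one_iff] at e
    exact htU ((mul_mem_cancel_right hv).1 (e ▸ U.one_mem))
  have hΩ : ∀ p ∈ P, p * p = 1 → p ∈ U := fun p hp e => by
    have h1 := hinv p hp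
    rw [inv_eq_of_mul_eq_one_right e, mul_inv_eq_iff_eq_mul] at h1
    rcases hC p ((mT p).1 (hPT hp)) h1.symm with h | h
    · exact h
    · refine absurd ?_ (notP _ h)
      rwa [← h1, ← mul_assoc, ht, one_mul]
  intro N H _ hN h2
  by_contra hlt
  push Not at hlt
  have hpos : 0 < Nat.card N := Nat.card_pos
  have hposP : 0 < Nat.card P := Nat.card_pos
  have hHn : ∀ K : Subgroup S, K ≤ normalizer (P : Set S) := fun K => le_top.trans (normalizer_eq_top P).ge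
  set R := P ⊔ H with hR
  have hRt : R ≠ ⊤ := fun h => by
    have h1 : H = ⊤ := eq_of_sup_comm (hS.to_subgroup ⊤) le_top
      (h.ge.trans (sup_le ((commutator_mono le_top le_top).trans le_sup_right) le_sup_left))
    have h3 : P ≤ N := commutator_le.2 fun x _ y _ => comm_mem h2 (h1 ▸ mem_top x) (h1 ▸ mem_top y)
    have h5 := card_le_of_le h3
    rw [h1, card_top] at hlt
    omega
  have cR := two_mul_le_of_lt (lt_top_iff_ne_top.2 hRt)
  rw [card_top] at cR
  have e1 := card_sup_mul_card_inf (hHn H)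
  rw [← hR] at e1
  have hcL : ∀ x ∈ P ⊓ H, ∀ y ∈ P ⊓ H, x * y = y * x := fun x hx y hy => hc x hx.1 y hy.1
  have i1 := card_le_of_comm (U := U ⊓ P) (N := sqs _ hcL) hcL (fun x hx => by rw [sq]; exact sq_mem_sqs hx)
    fun x hx e => ⟨hΩ x hx.1 e, hx.1⟩
  have hN' : sqs _ hcL ≤ N := by
    rintro _ ⟨x, hx, rfl⟩; rw [← sq]; exact h2 x hx.2
  have i2 := card_le_of_le hN'
  have i3 : Nat.card ↥(U ⊓ P) ≤ 4 := cU ▸ card_le_of_le inf_le_left
  have i4 : Nat.card H ≤ 8 * Nat.card ↥(P ⊓ H) := by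
    refine Nat.le_of_mul_le_mul_left ?_ hposP
    rw [← e1]; nlinarith
  have hUP : U ≤ P := by
    by_contra h
    have := two_mul_le_of_lt (lt_of_le_of_ne inf_le_left fun e => h (e ▸ inf_le_right) : U ⊓ P < U)
    nlinarith
  have hNQ : N ≤ sqs P hc := by
    have : sqs _ hcL = N := by
      by_contra h
      have := two_mul_le_of_lt (lt_of_le_of_ne hN' h)
      nlinarith
    rw [← this]
    rintro _ ⟨x, hx, rfl⟩; exact sq_mem_sqs hx.1
  have cR' : Nat.card R = 8 * Nat.card P := by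
    by_contra h
    have h5 := two_mul_le_of_pow hS (k := 3) (H := R) (K := P) (by omega)
    have : Nat.card H ≤ 4 * Nat.card ↥(P ⊓ H) := by
      refine Nat.le_of_mul_le_mul_left ?_ hposP
      rw [← e1]; nlinarith
    nlinarith
  have hHT : ¬ H ≤ T := fun h => by
    have h1 : R = T := eq_of_le_of_card_le (sup_le hPT h) (by omega)
    have h3 : H = T := eq_of_sup_comm (hS.to_subgroup T) h (by rw [← hP, sup_comm, ← hR, h1])
    have h5 : P ≤ N := commutator_le.2 fun x hx y hy => comm_mem h2 (h3 ▸ hx) (h3 ▸ hy)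
    have := card_le_of_le h5
    rw [h3] at hlt; omega
  obtain ⟨h, hh, hhT⟩ := SetLike.not_le_iff_exists.1 hHT
  have hRn : R.Normal := normal_of_index_le_prime hS (by
    have := card_mul_index R
    have hp : 0 < Nat.card R := Nat.card_pos
    by_contra h3
    have : Nat.card R * 3 ≤ Nat.card R * R.index := Nat.mul_le_mul_left _ (by omega)
    omega)
  set M := T ⊓ R with hM
  have hMn : M.Normal := inferInstance
  have cM : Nat.card M = 4 * Nat.card P := by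
    have j1 := card_le_inf cT R
    have j2 := two_mul_le_of_lt (lt_of_le_of_ne inf_le_right fun e =>
      hhT (e.ge (mem_sup_right hh)).1 : T ⊓ R < R)
    rw [← hM] at j1 j2
    omega
  have hPM : P ≤ M := le_inf hPT le_sup_left
  have mR : ∀ r ∈ R, ∃ p ∈ P, ∃ x ∈ H, p * x = r := fun r hr => (mem_sup_of_le_normalizer (hHn H)).1 hr
  have htM : t ∉ M := fun h' => by
    obtain ⟨p, hp, x, hx, e⟩ := mR t h'.2
    obtain ⟨g, -, e2⟩ := full 1 U.one_mem _ (P.inv_mem hp)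
    have e3 : x = g * t * g⁻¹ := by
      rw [mul_one, commutatorElement_def] at e2
      rw [← mul_left_cancel_iff (a := p), e, eq_mul_of_mul_inv_eq e2]; group
    have j1 := card_le_of_cent (C := cj g (centralizer {t})) h2 hx fun k _ e => mem_cj.2 (by
      rw [mem_centralizer_singleton_iff]
      rw [e3] at e
      calc g⁻¹ * k * g * t = g⁻¹ * (k * (g * t * g⁻¹)) * g := by group
        _ = _ := by rw [e]; group)
    have j2 := card_le_inf cT (centralizer {t})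
    have j3 := c8 1 U.one_mem
    rw [mul_one, inf_comm] at j3
    rw [card_cj] at j1
    nlinarith
  have cM' : ∀ x ∈ M, x * t = t * x → x ∈ U := fun x hx e => by
    rcases hC x ((mT x).1 hx.1) e with h | h
    · exact h
    · exact absurd ((mul_mem_cancel_left hx).1 (hPM (hUP h))) htM
  have surj : ∀ p ∈ P, ∃ m ∈ M, ⁅m, t⁆ = p := class_full (fun g hg => dP t htT g hg.1) (by
    rw [cM, ← cU]
    exact Nat.mul_le_mul_right _ (card_le_of_le fun x hx =>
      cM' x hx.2 (mem_centralizer_singleton_iff.1 hx.1)))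
  set Q := sqs P hc with hQ
  have hQn : Q.Normal := sqs_normal
  let π := QuotientGroup.mk' Q
  have π1 : ∀ x, π x = 1 ↔ x ∈ Q := fun x => QuotientGroup.eq_one_iff x
  have πP : ∀ p ∈ P, π p * π p = 1 := fun p hp => by rw [← map_mul, π1]; exact sq_mem_sqs hp
  have πH : ∀ x ∈ H, π x * π x = 1 := fun x hx => by rw [← map_mul, π1, ← sq]; exact hNQ (h2 x hx)
  have πHH : ∀ x ∈ H, ∀ y ∈ H, π x * π y = π y * π x := fun x hx y hy => by
    rw [← commutatorElement_eq_one_iff_mul_comm, ← map_commutatorElement, π1]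
    exact hNQ (comm_mem h2 hx hy)
  have dp : ∀ p ∈ P, ⁅p, t⁆ = p * p := fun p hp => by
    rw [commutatorElement_def, mul_assoc, mul_assoc, ← mul_assoc t, hinv _ (P.inv_mem hp), inv_inv]
  have surj' : ∀ p ∈ P, ∃ x ∈ H ⊓ T, ⁅π x, π t⁆ = π p := fun p hp => by
    obtain ⟨m, hm, rfl⟩ := surj p hp
    obtain ⟨q, hq, x, hx, rfl⟩ := mR m hm.2
    have hxT := (mul_mem_cancel_left (hPT hq)).1 hm.1
    refine ⟨x, ⟨hx, hxT⟩, ?_⟩
    rw [comm_mul, dp q hq, hc q hq _ (dP t htT x hxT), mul_inv_cancel_right, map_mul, map_mul, πP q hq,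
      mul_one, map_commutatorElement]
  have cl1 : ∀ y ∈ H ⊓ T, ∀ p ∈ P, π y * π p * (π y)⁻¹ = π p := by
    intro y hy p hp
    refine claim_one (hS.to_quotient Q) (P := P.map π) (K := (H ⊓ T).map π) (t := π t)
      (hP := hPn.map π (QuotientGroup.mk'_surjective Q)) ?_ ?_ ?_ ?_ _ (mem_map_of_mem π hy) _
      (mem_map_of_mem π hp)
    · rw [← Core.relIndex_eq_card_map_mk']
      have j1 := card_eq_card_mul_relIndex (sqs_le : Q ≤ P)
      have j2 := card_le_of_comm (U := U) (N := Q) hc (fun x hx => by rw [sq]; exact sq_mem_sqs hx) hΩ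
      rw [cU, j1, mul_comm 4] at j2
      exact Nat.le_of_mul_le_mul_left j2 Nat.card_pos
    · rintro _ ⟨x, hx, rfl⟩
      rw [← map_commutatorElement]; exact mem_map_of_mem π (dP t htT x hx.2)
    · rintro _ ⟨p, hp, rfl⟩
      obtain ⟨x, hx, e⟩ := surj' p hp
      exact ⟨_, mem_map_of_mem π hx, e⟩
    · rintro _ ⟨x, hx, rfl⟩
      obtain ⟨q, hq, e⟩ := hNQ (h2 x hx.1)
      rw [sq] at e
      have k := congrArg π (comm_key (hinv _ (e ▸ P.mul_mem hq hq)))
      simp only [map_mul, map_inv, map_commutatorElement, πH x hx.1, mul_one] at k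
      have k2 := πP _ (dP t htT x hx.2)
      rw [map_commutatorElement] at k2
      exact mul_right_cancel (k.trans k2.symm)
  have πMx : ∀ m ∈ M, ∀ x ∈ H ⊓ T, π m * π x = π x * π m := fun m hm x hx => by
    obtain ⟨q, hq, y, hy, rfl⟩ := mR m hm.2
    rw [map_mul, mul_assoc, πHH y hy x hx.1, ← mul_assoc, ← mul_assoc, ← cl1 x hx q hq]
    rw [cl1 x hx q hq]; nth_rewrite 1 [← cl1 x hx q hq]; group
  have cTM : Nat.card T ≤ 2 * Nat.card M := by omega
  have conjt : ∀ g : S, g * t * g⁻¹ ∉ M := fun g h' => htM (by simpa [mul_assoc] using hMn.conj_mem _ h' g⁻¹)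
  have cl2 : ∀ y ∈ H, ∀ p ∈ P, π y * π p * (π y)⁻¹ = π p := by
    intro y hy p hp
    obtain ⟨x, hx, e⟩ := surj' p hp
    have hm := mul_mem_of_card inf_le_left cTM htT (hTn.conj_mem t htT y) htM (conjt y)
    have e2 : π y * π t * (π y)⁻¹ = π t * π (t * (y * t * y⁻¹)) := by
      rw [← map_mul π t, ← mul_assoc t, ht, one_mul]; simp only [map_mul, map_inv]
    have e3 := πMx _ hm x hx
    set m := π (t * (y * t * y⁻¹))
    rw [← e]
    simp only [commutatorElement_def]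
    calc π y * (π x * π t * (π x)⁻¹ * (π t)⁻¹) * (π y)⁻¹
        = (π y * π x) * (π y)⁻¹ * (π y * π t * (π y)⁻¹) * (π y * π x * (π y)⁻¹)⁻¹ *
          (π y * π t * (π y)⁻¹)⁻¹ := by group
      _ = π x * π t * (π x)⁻¹ * (π x * m) * (π x)⁻¹ * m⁻¹ * (π t)⁻¹ := by
          rw [e2, πHH y hy x hx.1]; group
      _ = _ := by rw [← e3]; group
  have sqR : ∀ r ∈ R, r * r ∈ Q := fun r hr => by
    obtain ⟨q, hq, y, hy, rfl⟩ := mR r hr
    rw [← π1]; simp only [map_mul]
    calc π q * π y * (π q * π y) = π q * (π y * π q * (π y)⁻¹) * (π y * π y) := by group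
      _ = 1 := by rw [cl2 y hy q hq, πP q hq, πH y hy, mul_one]
  have hd : ⁅h, t⁆ ∈ M := by
    rw [commutatorElement_def, ti]
    exact mul_mem_of_card inf_le_left cTM (hTn.conj_mem t htT h) htT (conjt h) htM
  have hdP : ⁅h, t⁆ ∈ P := by
    obtain ⟨q, hq, e⟩ := sqR _ hd.2
    have e2 : ⁅⁅h, t⁆, t⁆ = ⁅q, t⁆ := by
      rw [dp q hq, e, commutatorElement_def ⁅h, t⁆, mul_assoc, mul_assoc, ← mul_assoc t, ← inv_inv (t * _ * _),
        show (t * ⁅h, t⁆⁻¹ * t⁻¹)⁻¹ = t * ⁅h, t⁆ * t⁻¹ by group, comm_inv ht, inv_inv]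
    exact (mul_mem_cancel_left (P.inv_mem hq)).1
      (hUP (cM' _ (M.mul_mem (M.inv_mem (hPM hq)) hd) (comm_eq_iff e2)))
  obtain ⟨m₀, hm₀, e⟩ := surj _ hdP
  have hfin := caseI_end (M := M) hS hU2 hc hinv hΩ hUP (fun m hm => (mT m).1 hm.1) surj (fun m hm => sqR m hm.2)
    (h := m₀⁻¹ * h) (fun m hm => sqR _ (R.mul_mem hm.2 (R.mul_mem (R.inv_mem hm₀.2) (mem_sup_right hh))))
    (comm_eq_iff e.symm)
  exact hhT ((mul_mem_cancel_left (T.inv_mem hm₀.1)).1 ((mT _).2 hfin))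

end Cfsg.Agent.Isaacs.HR
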