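import Mathlib
import Cfsg.Agent.Isaacs.HR4

/-! Harada's theorem: a normal four-group outside the self-centralizing group, and a normal
elementary abelian group of order eight. -/

set_option autoImplicit false

namespace Cfsg.Agent.Isaacs.HR

open Subgroup Cfsg.Agent.PGrp
open scoped Pointwise commutatorElement

variable {S : Type*} [Group S]

structure Cfg (U : Subgroup S) (z u a t : S) : Prop where
  zc : ∀ g, g * z = z * g
  z1 : z ≠ 1
  u1 : u ≠ 1
  uz : u ≠ z
  cU : Nat.card U = 4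
  hU2 : ∀ x ∈ U, x * x = 1
  mU : ∀ x, x ∈ U ↔ x = 1 ∨ x = z ∨ x = u ∨ x = u * z
  cju : ∀ g, g * u * g⁻¹ = u ∨ g * u * g⁻¹ = u * z
  tt : t * t = 1
  tu : t * u * t⁻¹ = u * z
  aa : a * a = 1
  au : a * u = u * a
  ta : t * a = a * t
  aU : a ∉ U
  cent : ∀ x, x * u = u * x → x * a = a * x → x * t = t * x → x = 1 ∨ x = z ∨ x = a ∨ x = a * z

namespace Cfg

variable {U : Subgroup S} {z u a t : S} (h : Cfg U z u a t)
include h

theorem zU : z ∈ U := (h.mU z).2 (by simp)
theorem uU : u ∈ U := (h.mU u).2 (by simp)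
theorem zz : z * z = 1 := h.hU2 z h.zU
theorem uu : u * u = 1 := h.hU2 u h.uU
theorem ti : t⁻¹ = t := inv_eq_of_mul_eq_one_right h.tt
theorem cz (g : S) : g * z * g⁻¹ = z := by rw [h.zc, mul_inv_cancel_right]

theorem comU {x : S} (hx : x * u = u * x) : ∀ v ∈ U, x * v = v * x := fun v hv => by
  rcases (h.mU v).1 hv with rfl | rfl | rfl | rfl
  · simp
  · exact h.zc x
  · exact hx
  · rw [← mul_assoc, hx, mul_assoc, h.zc x, mul_assoc]

theorem tnu : t * u ≠ u * t := fun e => h.z1 (by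
  have := h.tu
  rw [e, mul_inv_cancel_right] at this
  exact (mul_eq_left.1 this.symm))

theorem of_not {g : S} (hg : g * u ≠ u * g) : g * u * g⁻¹ = u * z :=
  (h.cju g).resolve_left fun e => hg (mul_inv_eq_iff_eq_mul.1 e)

theorem mul_t {g : S} (hg : g * u ≠ u * g) : g * t * u = u * (g * t) := by
  rw [← mul_inv_eq_iff_eq_mul]
  calc g * t * u * (g * t)⁻¹ = g * (t * u * t⁻¹) * g⁻¹ := by group
    _ = (g * u * g⁻¹) * (g * z * g⁻¹) := by rw [h.tu]; group
    _ = u := by rw [h.of_not hg, h.cz, mul_assoc, h.zz, mul_one]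

theorem fixU {v : S} (hv : v ∈ U) (e : t * v * t⁻¹ = v) : v = 1 ∨ v = z := by
  rcases (h.mU v).1 hv with rfl | rfl | rfl | rfl
  · simp
  · simp
  · exact absurd (mul_inv_eq_iff_eq_mul.1 e) h.tnu
  · refine absurd ?_ h.tnu
    rw [mul_inv_eq_iff_eq_mul, ← mul_assoc, mul_assoc u z, ← h.zc t, ← mul_assoc] at e
    exact mul_right_cancel e

theorem free {x : S} (hx : ⁅x, t⁆ ∈ U) : ∃ v ∈ U, v * x * t = t * (v * x) := by
  have e := comm_inv (x := x) h.tt
  rw [inv_eq_of_mul_eq_one_right (h.hU2 _ hx)] at e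
  rcases h.fixU hx e with e | e
  · exact ⟨1, U.one_mem, by simpa using commutatorElement_eq_one_iff_mul_comm.1 e⟩
  · refine ⟨u, h.uU, commutatorElement_eq_one_iff_mul_comm.1 ?_⟩
    rw [comm_mul, e, h.cz, commutatorElement_def, inv_eq_of_mul_eq_one_right h.uu, mul_assoc u, mul_assoc u,
      h.tu, ← mul_assoc u, h.uu, one_mul, h.zz]

theorem T_normal : (centralizer ({u} : Set S)).Normal := ⟨fun x hx g => by
  rw [mem_centralizer_singleton_iff] at hx ⊢
  have hv : g⁻¹ * u * g⁻¹⁻¹ ∈ U := by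
    rcases h.cju g⁻¹ with e | e <;> rw [e]
    exacts [h.uU, U.mul_mem h.uU h.zU]
  have := h.comU hx _ hv
  calc g * x * g⁻¹ * u = g * (x * (g⁻¹ * u * g⁻¹⁻¹)) * g⁻¹ := by group
    _ = _ := by rw [this]; group⟩

theorem card_T [Finite S] : Nat.card S ≤ 2 * Nat.card (centralizer ({u} : Set S)) := by
  have hz2 : orderOf z = 2 := by
    have : Fact (Nat.Prime 2) := ⟨Nat.prime_two⟩
    exact orderOf_eq_prime (by rw [sq, h.zz]) h.z1
  have h1 := card_le_mul_cent (H := ⊤) (W := zpowers z) (x := u) fun g _ => by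
    rcases h.cju g with e | e
    · rw [commutatorElement_def, e, mul_inv_cancel]; exact one_mem _
    · rw [commutatorElement_def, e, h.zc u, mul_inv_cancel_right]; exact mem_zpowers z
  rwa [card_top, Nat.card_zpowers, hz2, mul_comm, inf_top_eq] at h1

theorem mW [Finite S] [U.Normal] (x : S) : x ∈ U ⊔ zpowers a ↔ x ∈ U ∨ a * x ∈ U := by
  refine ⟨fun hx => ?_, fun hx => hx.elim mem_sup_left fun hx =>
    (mul_mem_cancel_left (mem_sup_right (mem_zpowers a))).1 (mem_sup_left hx)⟩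
  by_cases hx' : x ∈ U
  · exact Or.inl hx'
  · refine Or.inr (mul_mem_of_card le_sup_left ?_ (mem_sup_right (mem_zpowers a)) hx h.aU hx')
    have := card_sup_zpowers_le (N := U) (x := a) (n := 2) (by norm_num) (mem_normalizer_of_normal U a)
      (by rw [sq, h.aa]; exact U.one_mem)
    omega

theorem cW [Finite S] [U.Normal] : Nat.card ↥(U ⊔ zpowers a) = 8 := by
  rw [card_sup_zpowers Nat.prime_two (mem_normalizer_of_normal U a) (by rw [sq, h.aa]; exact U.one_mem)
    h.aU, h.cU]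

theorem comW [Finite S] [U.Normal] {x : S} (hu : x * u = u * x) (ha : x * a = a * x) :
    ∀ w ∈ U ⊔ zpowers a, x * w = w * x := fun w hw => by
  rcases (h.mW w).1 hw with e | e
  · exact h.comU hu w e
  · have := h.comU hu _ e
    rw [← mul_assoc, ha, mul_assoc, mul_assoc] at this
    exact mul_left_cancel this

theorem W2 [Finite S] [U.Normal] : ∀ w ∈ U ⊔ zpowers a, w * w = 1 := fun w hw => by
  rcases (h.mW w).1 hw with e | e
  · exact h.hU2 w e
  · have := h.hU2 _ e
    rw [mul_assoc, ← mul_assoc w, ← h.comW h.au rfl w hw, mul_assoc, ← mul_assoc, h.aa, one_mul] at this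
    exact this

theorem centW [U.Normal] {x : S} (hu : x * u = u * x) (ha : x * a = a * x) (ht : x * t = t * x) :
    x ∈ U ⊔ zpowers a := by
  rcases h.cent x hu ha ht with rfl | rfl | rfl | rfl
  exacts [one_mem _, mem_sup_left h.zU, mem_sup_right (mem_zpowers _),
    mul_mem (mem_sup_right (mem_zpowers _)) (mem_sup_left h.zU)]

theorem swap [Finite S] (hS : IsPGroup 2 S) [hUn : U.Normal] {W : Subgroup S} [hWn : W.Normal] (hUW : U ≤ W)
    (cW : Nat.card W = 8) (hW2 : ∀ x ∈ W, x * x = 1) (haW : a ∉ W) :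
    ∃ s ∈ W, Cfg U z u s t := by
  have : Fact (Nat.Prime 2) := ⟨Nat.prime_two⟩
  have cU := h.cU
  obtain ⟨w, hw, hwU, -, hwc⟩ := exists_central_mod_normal hS W U fun e => by
    have := card_le_of_le e; omega
  obtain ⟨v, hv, e⟩ := h.free (hwc t)
  set s := v * w with hs
  have hsW : s ∈ W := W.mul_mem (hUW hv) hw
  have hsU : s ∉ U := fun e => hwU ((mul_mem_cancel_left hv).1 e)
  have su : s * u = u * s := comm_of_sq hW2 hsW (hUW h.uU)
  have ss := hW2 s hsW
  have hsa : s * a ≠ a * s := fun e' => by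
    rcases h.cent s su e' e with e | e | e | e
    · exact hsU (e ▸ U.one_mem)
    · exact hsU (e ▸ h.zU)
    · exact haW (e ▸ hsW)
    · exact haW ((mul_mem_cancel_right (hUW h.zU)).1 (e ▸ hsW))
  have hsa2 : a * s * a⁻¹ = z * s := by
    have h1 : ⁅a, s⁆ ∈ U := by
      refine commutator_symm_mem ?_
      rw [hs, comm_mul]
      refine U.mul_mem (hUn.conj_mem _ (hwc a) _) ?_
      rw [commutatorElement_eq_one_iff_mul_comm.2 (h.comU h.au v hv).symm]; exact U.one_mem
    rcases h.fixU h1 (by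
      rw [conjugate_commutatorElement, h.ta, mul_inv_cancel_right, ← e, mul_inv_cancel_right]) with e' | e'
    · exact absurd (commutatorElement_eq_one_iff_mul_comm.1 e').symm hsa
    · rw [← e', commutatorElement_def]; group
  clear_value s
  refine ⟨s, hsW, { h with aa := ss, au := su, ta := e.symm, aU := hsU, cent := ?_ }⟩
  set K := centralizer {u} ⊓ centralizer {s} ⊓ centralizer {t} with hK
  have mK : ∀ x, x ∈ K ↔ x * u = u * x ∧ x * s = s * x ∧ x * t = t * x := fun x => by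
    simp only [hK, mem_inf, mem_centralizer_singleton_iff, and_assoc]
  let V : Subgroup S :=
    { carrier := {x | x = 1 ∨ x = z ∨ x = s ∨ x = s * z}
      one_mem' := Or.inl rfl
      mul_mem' := by
        have e1 := h.zz
        have e2 := h.zc s
        have e3 : z * (s * z) = s := by rw [e2, ← mul_assoc, e1, one_mul]
        have e4 : s * (s * z) = z := by rw [← mul_assoc, ss, one_mul]
        have e5 : s * z * z = s := by rw [mul_assoc, e1, mul_one]
        have e6 : s * z * s = z := by rw [mul_assoc, ← e2, e4]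
        have e7 : s * z * (s * z) = 1 := by rw [← mul_assoc, e6, e1]
        rintro _ _ (rfl | rfl | rfl | rfl) (rfl | rfl | rfl | rfl) <;>
          simp [e1, ← e2, e3, e4, e5, e6, e7, ss]
      inv_mem' := by
        rintro _ (rfl | rfl | rfl | rfl)
        · simp
        · simp [inv_eq_of_mul_eq_one_right h.zz]
        · simp [inv_eq_of_mul_eq_one_right ss]
        · simp [inv_eq_of_mul_eq_one_right (hW2 _ (W.mul_mem hsW (hUW h.zU)))] }
  have mV : ∀ x, x ∈ V ↔ x = 1 ∨ x = z ∨ x = s ∨ x = s * z := fun x => Iff.rfl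
  have haK : a ∈ normalizer (K : Set S) := mem_normalizer_of_conj_mem fun x hx => by
    obtain ⟨e1, e2, e3⟩ := (mK x).1 hx
    have ai : a⁻¹ = a := inv_eq_of_mul_eq_one_right h.aa
    refine (mK _).2 ⟨?_, ?_, ?_⟩
    · exact (((Commute.mul_left h.au e1).mul_left (Commute.inv_left h.au)))
    · have c1 : Commute x (a * s * a⁻¹) := by
        rw [hsa2]; exact Commute.mul_right (h.zc x) e2
      calc a * x * a⁻¹ * s = a * (x * (a⁻¹ * s * a)) * a⁻¹ := by group
        _ = a * (x * (a * s * a⁻¹)) * a⁻¹ := by rw [ai]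
        _ = a * ((a⁻¹ * s * a) * x) * a⁻¹ := by rw [c1.eq, ai]
        _ = _ := by group
    · exact (((Commute.mul_left h.ta.symm e3).mul_left (Commute.inv_left h.ta.symm)))
  intro x e1 e2 e3
  by_contra hx
  obtain ⟨k, hk, hkV, hkc⟩ := exists_central_mod_of_nilpotent (P := K ⊔ zpowers a) (M := K) (N := V)
    (hS.to_subgroup _).isNilpotent le_sup_left (sup_le le_normalizer (zpowers_le.2 haK))
    fun e => hx (e ((mK x).2 ⟨e1, e2, e3⟩))
  obtain ⟨k1, k2, k3⟩ := (mK k).1 hk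
  have d1 := hkc a (mem_sup_right (mem_zpowers a))
  have d2 := comm_inv (x := k) h.aa
  have fin : ∀ k', k' * u = u * k' → k' * s = s * k' → k' * t = t * k' → k' * a = a * k' → k' ∈ V := by
    intro k' f1 f2 f3 f4
    rcases h.cent k' f1 f4 f3 with e | e | e | e
    · exact (mV _).2 (Or.inl e)
    · exact (mV _).2 (Or.inr (Or.inl e))
    · exact absurd (e ▸ f2).symm hsa
    · rw [e, mul_assoc, ← h.zc s, ← mul_assoc, ← mul_assoc] at f2
      exact absurd (mul_right_cancel f2).symm hsa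
  rcases (mV _).1 d1 with e' | e' | e' | e'
  · exact hkV (fin k k1 k2 k3 (commutatorElement_eq_one_iff_mul_comm.1 e'))
  · refine hkV ((mul_mem_cancel_left ((mV s).2 (by simp))).1 (fin (s * k) (Commute.mul_left su k1)
      (Commute.mul_left (Commute.refl s) k2) (Commute.mul_left e k3)
      (commutatorElement_eq_one_iff_mul_comm.1 ?_)))
    rw [comm_mul, e', h.cz, commutatorElement_def, mul_assoc s, mul_assoc s,
      inv_eq_of_mul_eq_one_right ss, hsa2, ← h.zc s, ← mul_assoc s, ss, one_mul, h.zz]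
  · rw [e', inv_eq_of_mul_eq_one_right ss, mul_inv_eq_iff_eq_mul] at d2
    exact hsa d2.symm
  · rw [e', inv_eq_of_mul_eq_one_right (hW2 _ (W.mul_mem hsW (hUW h.zU))), mul_inv_eq_iff_eq_mul,
      mul_assoc s, ← h.zc a, ← mul_assoc, ← mul_assoc] at d2
    exact hsa (mul_right_cancel d2).symm

theorem caseA [Finite S] (hS : IsPGroup 2 S) [hUn : U.Normal] (hWn : ∀ g : S, ⁅g, a⁆ ∈ U)
    {c : S} (hcu : c * u = u * c) (hca : c * a = a * c) (hcW : c ∉ U ⊔ zpowers a)
    {w : S} (hw1 : ⁅w, a⁆ ≠ 1) : Rk 4 (⊤ : Subgroup S) := by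
  have : Fact (Nat.Prime 2) := ⟨Nat.prime_two⟩
  have cU := h.cU
  set W := U ⊔ zpowers a with hW
  have cW : Nat.card W = 8 := h.cW
  have W2 : ∀ x ∈ W, x * x = 1 := h.W2
  have haW : a ∈ W := mem_sup_right (mem_zpowers a)
  have hUW : U ≤ W := le_sup_left
  have hWN : W.Normal := normal_sup_zpowers fun g => commutator_symm_mem (hWn g)
  set T := centralizer ({u} : Set S) with hT
  have mT : ∀ x, x ∈ T ↔ x * u = u * x := fun x => mem_centralizer_singleton_iff
  have hTn : T.Normal := h.T_normal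
  have cT : Nat.card S ≤ 2 * Nat.card T := h.card_T
  set C := centralizer (W : Set S) with hC
  have hCn : C.Normal := inferInstance
  have mC : ∀ x, x ∈ C ↔ x * u = u * x ∧ x * a = a * x := fun x =>
    ⟨fun hx => ⟨(mem_centralizer_iff.1 hx u (hUW h.uU)).symm, (mem_centralizer_iff.1 hx a haW).symm⟩,
      fun hx => mem_centralizer_iff.2 fun v hv => (h.comW hx.1 hx.2 v hv).symm⟩
  have comC : ∀ x ∈ C, ∀ v ∈ W, x * v = v * x := fun x hx v hv => (mem_centralizer_iff.1 hx v hv).symm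
  have hWC : W ≤ C := fun v hv => mem_centralizer_iff.2 fun x hx => comm_of_sq W2 hx hv
  have hCT : C ≤ T := fun x hx => (mT x).2 ((mC x).1 hx).1
  have WU : ∀ g, ∀ v ∈ W, ⁅g, v⁆ ∈ U := fun g v hv => by
    rcases (h.mW v).1 hv with e | e
    · exact U.mul_mem (hUn.conj_mem v e g) (U.inv_mem e)
    · refine commutator_symm_mem ?_
      have : v = a * (a * v) := by rw [← mul_assoc, h.aa, one_mul]
      rw [this, comm_mul]
      exact U.mul_mem (hUn.conj_mem _ (commutator_symm_mem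
        (U.mul_mem (hUn.conj_mem _ e g) (U.inv_mem e))) a) (commutator_symm_mem (hWn g))
  have fixW : ∀ s ∈ T, ∀ v ∈ W, v ∉ U → s * v = v * s → s ∈ C := fun s hs v hv hvU e => by
    have e1 := ((h.mW v).1 hv).resolve_left hvU
    refine (mC s).2 ⟨(mT s).1 hs, ?_⟩
    have := h.comU ((mT s).1 hs) _ e1
    rw [mul_assoc, ← e, ← mul_assoc, ← mul_assoc] at this
    exact mul_right_cancel this
  have freeC : ∀ x ∈ C, ⁅x, t⁆ ∈ U → x ∈ W := fun x hx e => by
    obtain ⟨v, hv, e⟩ := h.free e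
    have := (mC _).1 (C.mul_mem (hWC (hUW hv)) hx)
    exact (mul_mem_cancel_left (hUW hv)).1 (h.centW this.1 this.2 e)
  obtain ⟨y, hy, hyW, hy2, hyc⟩ := exists_central_mod_normal hS C W fun e => hcW (e ((mC c).2 ⟨hcu, hca⟩))
  have heU : ⁅y, t⁆ ∉ U := fun e => hyW (freeC y hy e)
  obtain ⟨s₁, hs₁, hs₁C⟩ : ∃ s ∈ T, s ∉ C := by
    by_cases e : w * u = u * w
    · exact ⟨w, (mT w).2 e, fun e' => hw1 (commutatorElement_eq_one_iff_mul_comm.2 ((mC w).1 e').2)⟩
    · refine ⟨w * t, (mT _).2 (h.mul_t e), fun e' => hw1 ?_⟩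
      have := commutatorElement_eq_one_iff_mul_comm.2 ((mC _).1 e').2
      rwa [comm_mul, commutatorElement_eq_one_iff_mul_comm.2 h.ta, mul_one, mul_inv_cancel, one_mul] at this
  have hy2U : y * y ∈ U := by
    by_contra e
    refine hs₁C (fixW s₁ hs₁ _ (sq y ▸ hy2) e ?_)
    have d := commutator_symm_mem (hyc s₁)
    have d2 := comC y hy _ d
    rw [← mul_inv_eq_iff_eq_mul]
    calc s₁ * (y * y) * s₁⁻¹ = ⁅s₁, y⁆ * (y * ⁅s₁, y⁆) * y := by simp only [commutatorElement_def]; group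
      _ = _ := by rw [d2, ← mul_assoc, W2 _ d, one_mul]
  have WW : ∀ v ∈ W, ∀ v' ∈ W, v ∉ U → v' ∉ U → v * v' ∈ U := fun v hv v' hv' =>
    mul_mem_of_card hUW (by omega) hv hv'
  set W₁ := W ⊔ zpowers y with hW₁
  have hW₁n : W₁.Normal := normal_sup_zpowers hyc
  have cW₁ : Nat.card W₁ = 16 := by
    rw [hW₁, card_sup_zpowers Nat.prime_two (mem_normalizer_of_normal W y) hy2 hyW, cW]
  have hyW₁ : y ∈ W₁ := mem_sup_right (mem_zpowers y)
  have hCW : C ≤ W₁ := by
    by_contra e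
    obtain ⟨x, hx, hxW, -, hxc⟩ := exists_central_mod_normal hS C W₁ e
    by_cases d1 : ⁅x, t⁆ ∈ W
    · by_cases d2 : ⁅x, t⁆ ∈ U
      · exact hxW (mem_sup_left (freeC x hx d2))
      · refine hxW ((mul_mem_cancel_left hyW₁).1 (mem_sup_left (freeC _ (C.mul_mem hy hx) ?_)))
        rw [comm_mul, comC y hy _ d1, mul_inv_cancel_right]
        exact WW _ d1 _ (hyc t) d2 heU
    · have d3 := mul_mem_of_card (P := W₁) (le_sup_left : W ≤ W₁) (by omega) (hxc t) (W₁.inv_mem hyW₁) d1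
        fun e => hyW (inv_mem_iff.1 e)
      have d4 := comm_inv (x := x) h.tt
      set v := ⁅x, t⁆ * y⁻¹ with hv
      have d5 : ⁅x, t⁆ = v * y := by rw [hv]; group
      rw [d5] at d4
      apply heU
      have : ⁅y, t⁆ = y * (t * (v * y) * t⁻¹)⁻¹ * ⁅t, v⁆ * v := by simp only [commutatorElement_def]; group
      rw [this, d4, inv_inv, ← mul_assoc y, comC y hy v d3, mul_assoc v, mul_assoc v, mul_assoc,
        ← comC _ (hWC d3) _ (hUW (U.mul_mem hy2U (WU t v d3))), ← mul_assoc, W2 v d3, one_mul]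
      exact U.mul_mem hy2U (WU t v d3)
  have hCW' : C = W₁ := le_antisymm hCW (sup_le hWC (zpowers_le.2 hy))
  have cC : Nat.card C = 16 := by rw [hCW', cW₁]
  have dec : ∀ x ∈ C, x ∉ W → x * y⁻¹ ∈ W := fun x hx hx' =>
    mul_mem_of_card hWC (by omega) hx (C.inv_mem hy) hx' fun e => hyW (inv_mem_iff.1 e)
  have CC : ∀ x ∈ C, ∀ x' ∈ C, x * x' = x' * x := by
    have cy : ∀ x ∈ C, Commute x y := fun x hx => by
      by_cases e : x ∈ W
      · exact (comC y hy x e).symm
      · have : Commute (x * y⁻¹) y := (comC y hy _ (dec x hx e)).symm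
        simpa using this.mul_left (Commute.refl y)
    intro x hx x' hx'
    by_cases e : x' ∈ W
    · exact comC x hx x' e
    · have : Commute x (x' * y⁻¹) := comC x hx _ (dec x' hx' e)
      simpa using (this.mul_right (cy x hx)).eq
  have cTK : ∀ K : Subgroup S, Nat.card ↥(T ⊓ K) ≤ Nat.card ↥(C ⊓ K) * 4 := fun K => by
    rw [← cU]
    exact (card_le_mul_cent fun g _ => hWn g).trans (Nat.mul_le_mul_right _ (card_le_of_le fun x hx =>
      ⟨(mC x).2 ⟨(mT x).1 hx.2.1, mem_centralizer_singleton_iff.1 hx.1⟩, hx.2.2⟩))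
  have yT : ∀ s ∈ T, ⁅s, y⁆ ∈ U := fun s hs => by
    by_cases e : s ∈ C
    · rw [commutatorElement_eq_one_iff_mul_comm.2 (CC s e y hy)]; exact U.one_mem
    by_contra e'
    have d := commutator_symm_mem (hyc s)
    refine e (fixW s hs _ d e' ?_)
    have hs2 : s * s ∈ C := (mC _).2 ⟨(mT _).1 (T.mul_mem hs hs), by
      rw [← commutatorElement_eq_one_iff_mul_comm, comm_mul, h.comU ((mT s).1 hs) _ (hWn s),
        mul_inv_cancel_right, h.hU2 _ (hWn s)]⟩
    have := commutatorElement_eq_one_iff_mul_comm.2 (CC _ hs2 y hy)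
    rw [comm_mul] at this
    rw [← mul_inv_eq_iff_eq_mul]
    exact mul_right_cancel (this.trans (W2 _ d).symm)
  have outT : ∀ g, g ∉ T → ∀ x ∈ C, x ∉ W → ⁅g, x⁆ ∈ W ∧ ⁅g, x⁆ ∉ U := by
    intro g hg x hx hxW
    have hs : g * t ∈ T := (mT _).2 (h.mul_t fun e => hg ((mT g).2 e))
    have e1 : ⁅g, y⁆ = g * t * ⁅t, y⁆ * (g * t)⁻¹ * ⁅g * t, y⁆ := by
      rw [← comm_mul, mul_assoc, h.tt, mul_one]
    have e2 : ⁅x, g⁆ = x * y⁻¹ * ⁅y, g⁆ * (x * y⁻¹)⁻¹ * ⁅x * y⁻¹, g⁆ := by
      rw [← comm_mul]; congr 1; group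
    have d := dec x hx hxW
    have d2 := commutator_symm_mem (WU g _ d)
    refine ⟨commutator_symm_mem (e2 ▸ W.mul_mem (hWN.conj_mem _ (hyc g) _) (hUW d2)), fun e => heU ?_⟩
    have e3 := commutator_symm_mem e
    rw [e2, mul_mem_cancel_right d2, hUn.mem_comm_iff, ← mul_assoc, inv_mul_cancel, one_mul] at e3
    have e4 := commutator_symm_mem e3
    rw [e1, mul_mem_cancel_right (yT _ hs), hUn.mem_comm_iff, ← mul_assoc, inv_mul_cancel, one_mul] at e4
    exact commutator_symm_mem e4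
  intro N H _ hN h2
  by_contra hlt
  push Not at hlt
  have hpos : 0 < Nat.card N := Nat.card_pos
  have j1 := card_le_inf cT H
  have j2 := cTK H
  set K := C ⊓ H with hK
  have cK : Nat.card K ≤ 16 := cC ▸ card_le_of_le inf_le_left
  by_cases h1 : K ⊓ W ≤ U
  swap
  · obtain ⟨x, hx, hxU⟩ := SetLike.not_le_iff_exists.1 h1
    have j3 := (card_le_mul_cent (H := T ⊓ H) (W := U ⊓ N) (x := x) fun g hg =>
      ⟨WU g x hx.2, comm_mem h2 hg.2 hx.1.2⟩).trans (Nat.mul_le_mul_right _ (card_le_of_le (K := K)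
        fun g hg => ⟨fixW g hg.2.1 x hx.2 hxU (mem_centralizer_singleton_iff.1 hg.1), hg.2.2⟩))
    have j4 : Nat.card ↥(U ⊓ N) ≤ Nat.card N := card_le_of_le inf_le_right
    by_cases hHT : H ≤ T
    · rw [inf_eq_right.2 hHT] at j3; nlinarith
    obtain ⟨g, hg, hgT⟩ := SetLike.not_le_iff_exists.1 hHT
    by_cases hKC : K = C
    · have hyH : y ∈ H := (hKC.ge hy).2
      have := two_mul_le_of_lt (lt_of_le_of_ne inf_le_right fun e =>
        (outT g hgT y hy hyW).2 (e.ge (comm_mem h2 hg hyH)).1 : U ⊓ N < N)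
      nlinarith
    · have := two_mul_le_of_lt (lt_of_le_of_ne inf_le_left hKC : K < C)
      nlinarith
  by_cases h3 : K ≤ W
  · have hKU : K ≤ U := (le_inf le_rfl h3).trans h1
    have j3 := card_le_of_le hKU
    have hN1 : N = ⊥ := card_eq_one.1 (by omega)
    have hKU' : K = U := by
      by_contra e
      have := two_mul_le_of_lt (lt_of_le_of_ne hKU e)
      omega
    by_cases hHT : H ≤ T
    · rw [inf_eq_right.2 hHT] at j2; omega
    obtain ⟨g, hg, hgT⟩ := SetLike.not_le_iff_exists.1 hHT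
    have := comm_mem h2 hg (hKU'.ge h.uU).2
    rw [hN1, mem_bot, commutatorElement_eq_one_iff_mul_comm] at this
    exact hgT ((mT g).2 this)
  obtain ⟨x, hx, hxW⟩ := SetLike.not_le_iff_exists.1 h3
  have hHT : H ≤ T := fun g hg => by
    by_contra hgT
    obtain ⟨o1, o2⟩ := outT g hgT x hx.1 hxW
    exact o2 (h1 ⟨⟨hWC o1, hN (comm_mem h2 hg hx.2)⟩, o1⟩)
  rw [inf_eq_right.2 hHT] at j2
  have cK8 : Nat.card K ≤ 8 := by
    have := two_mul_le_of_lt (lt_of_le_of_ne inf_le_left fun e =>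
      h.aU (h1 ⟨e.ge (hWC haW), haW⟩) : K < C)
    omega
  have hN1 : N = ⊥ := card_eq_one.1 (by omega)
  have j3 := two_mul_le_of_pow' hS (k := 4) hlt
  obtain ⟨s, hs, e⟩ := class_full (H := H) (W := U) (x := a) (fun g _ => hWn g) (by
    have : Nat.card ↥(centralizer {a} ⊓ H) ≤ Nat.card K := card_le_of_le fun g hg =>
      ⟨(mC g).2 ⟨(mT g).1 (hHT hg.2), mem_centralizer_singleton_iff.1 hg.1⟩, hg.2⟩
    rw [cU]; omega) z h.zU
  have e1 : s * x = x * s := by
    have := comm_mem h2 hs hx.2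
    rwa [hN1, mem_bot, commutatorElement_eq_one_iff_mul_comm] at this
  have e2 : ⁅t⁻¹ * s * t⁻¹⁻¹, a⁆ = ⁅s, a⁆ := by
    have : a = t⁻¹ * a * t⁻¹⁻¹ := by rw [inv_inv, mul_assoc, ← h.ta]; group
    nth_rewrite 1 [this]
    rw [← conjugate_commutatorElement, e, h.cz]
  have e3 : s⁻¹ * (t⁻¹ * s * t⁻¹⁻¹) ∈ C := (mC _).2
    ⟨(mT _).1 (T.mul_mem (T.inv_mem (hHT hs)) (hTn.conj_mem s (hHT hs) _)), comm_eq_iff e2⟩
  have e4 : Commute (t⁻¹ * s * t⁻¹⁻¹) x := by
    have := Commute.mul_left e1 (CC _ e3 x hx.1)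
    rwa [mul_inv_cancel_left] at this
  obtain ⟨o1, o2⟩ := outT t (fun e => h.tnu ((mT t).1 e)) x hx.1 hxW
  have e5 : s * ⁅t, x⁆ = ⁅t, x⁆ * s := by
    have c1 : Commute s (t * x * t⁻¹) := by
      have := e4.map (MulAut.conj t).toMonoidHom
      simpa [mul_assoc] using this
    exact (c1.mul_right (Commute.inv_right e1)).eq
  have := ((mC s).1 (fixW s (hHT hs) _ o1 o2 e5)).2
  exact h.z1 (e ▸ commutatorElement_eq_one_iff_mul_comm.2 this)

end Cfg

end Cfsg.Agent.Isaacs.HR
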