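import Mathlib
import Cfsg.Agent.Isaacs.HR5

/-! Harada's theorem: no normal elementary abelian group of order eight. -/

set_option autoImplicit false

namespace Cfsg.Agent.Isaacs.HR

open Subgroup Cfsg.Agent.PGrp
open scoped Pointwise commutatorElement

variable {S : Type*} [Group S]

theorem eq_of_sup_sq [Finite S] {K H : Subgroup S} (hK : IsPGroup 2 K) (hH : H ≤ K)
    (h : ∀ M : Subgroup S, H ≤ M → (∀ x ∈ K, x * x ∈ M) → K ≤ M) : H = K := by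
  have : Fact (Nat.Prime 2) := ⟨Nat.prime_two⟩
  by_contra hne
  obtain ⟨M, h1, h2, h3, h4⟩ := exists_relIndex_prime_ge hK (lt_of_le_of_ne hH hne)
  have : K ≤ M := h M h1 fun x hx => by rw [← sq]; exact pow_mem_of_relIndex_eq h4 h3 hx
  rw [relIndex_eq_one.2 this] at h3
  omega

theorem sq_cent [Finite S] (hG : IsPGroup 2 S) {P : Subgroup S} [hP : P.Normal] (cP : Nat.card P ≤ 4)
    (g : S) {p : S} (hp : p ∈ P) : g * g * p = p * (g * g) := by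
  have : Fact (Nat.Prime 2) := ⟨Nat.prime_two⟩
  by_cases h0 : P = ⊥
  · rw [h0, mem_bot] at hp; simp [hp]
  obtain ⟨w, hw, hwc, hw2⟩ := exists_mem_center_orderOf_eq hG P h0
  have hW : zpowers w ≤ P := zpowers_le.2 hw
  have cW : Nat.card P ≤ 2 * Nat.card (zpowers w) := by rw [Nat.card_zpowers, hw2]; exact cP
  have cen : ∀ v ∈ zpowers w, ∀ g : S, g * v = v * g := fun v hv g =>
    mem_center_iff.1 (zpowers_le.2 hwc hv) g
  by_cases hp' : p ∈ zpowers w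
  · exact cen p hp' _
  have h1 : g * p * g⁻¹ * p⁻¹ ∈ zpowers w := mul_mem_of_card hW cW (hP.conj_mem p hp g) (P.inv_mem hp)
    (fun h => hp' (by
      have := cen _ h g⁻¹
      rw [show g⁻¹ * (g * p * g⁻¹) = p * g⁻¹ by group, mul_left_inj] at this
      exact this ▸ h)) fun h => hp' (inv_mem_iff.1 h)
  set v := g * p * g⁻¹ * p⁻¹ with hv
  have h2 : v * v = 1 := by
    obtain ⟨k, hk⟩ := h1
    rw [← show w ^ k = v from hk, ← zpow_add, ← two_mul, zpow_mul, zpow_ofNat, ← hw2, pow_orderOf_eq_one,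
      one_zpow]
  have h3 : g * p = v * p * g := by rw [hv]; group
  rw [mul_assoc, h3, ← mul_assoc, ← mul_assoc, cen v h1 g, mul_assoc v, h3, ← mul_assoc, ← mul_assoc, h2]
  group

def sqc (N : Subgroup S) : Subgroup S := closure {x | ∃ n ∈ N, n * n = x}

theorem sqc_le {N M : Subgroup S} (h : ∀ x ∈ N, x * x ∈ M) : sqc N ≤ M :=
  (closure_le M).2 (by rintro _ ⟨n, hn, rfl⟩; exact h n hn)

theorem sq_mem_sqc {N : Subgroup S} {x : S} (hx : x ∈ N) : x * x ∈ sqc N := subset_closure ⟨x, hx, rfl⟩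

instance sqc_normal {N : Subgroup S} [hN : N.Normal] : (sqc N).Normal := ⟨fun x hx g => by
  have : sqc N ≤ (sqc N).comap (MulAut.conj g).toMonoidHom := sqc_le fun n hn => by
    have := sq_mem_sqc (hN.conj_mem n hn g)
    simpa [mul_assoc] using this
  exact this hx⟩

/-- elements of an abelian subgroup inverted by `n` -/
def invs (P : Subgroup S) (hc : ∀ x ∈ P, ∀ y ∈ P, x * y = y * x) (n : S) : Subgroup S where
  carrier := {p | p ∈ P ∧ n * p * n⁻¹ = p⁻¹}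
  one_mem' := ⟨P.one_mem, by simp⟩
  mul_mem' := by
    rintro x y ⟨hx, e1⟩ ⟨hy, e2⟩
    refine ⟨P.mul_mem hx hy, ?_⟩
    rw [show n * (x * y) * n⁻¹ = (n * x * n⁻¹) * (n * y * n⁻¹) by group, e1, e2, hc x hx y hy, mul_inv_rev]
  inv_mem' := by
    rintro x ⟨hx, e⟩
    exact ⟨P.inv_mem hx, by rw [← e, ← inv_inj, e, show (n * x⁻¹ * n⁻¹)⁻¹ = n * x * n⁻¹ by group, e]; group⟩

theorem invs_normal {P : Subgroup S} [hP : P.Normal] {hc : ∀ x ∈ P, ∀ y ∈ P, x * y = y * x} {n : S}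
    (h : ∀ s : S, ∀ p ∈ P, ⁅s, n⁆ * p = p * ⁅s, n⁆) : (invs P hc n).Normal := ⟨by
  rintro p ⟨hp, e⟩ s
  refine ⟨hP.conj_mem p hp s, ?_⟩
  calc n * (s * p * s⁻¹) * n⁻¹ = s * (⁅s⁻¹, n⁆ * (n * p * n⁻¹)) * ⁅s⁻¹, n⁆⁻¹ * s⁻¹ := by
        simp only [commutatorElement_def]; group
    _ = _ := by rw [e, h _ _ (P.inv_mem hp)]; group⟩

theorem comm_self_inv {n p : S} (h : n * n * p = p * (n * n)) : n * ⁅n, p⁆ * n⁻¹ = ⁅n, p⁆⁻¹ := by
  simp only [commutatorElement_def]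
  calc n * (n * p * n⁻¹ * p⁻¹) * n⁻¹ = (n * n * p) * (n * n)⁻¹ * (n * p⁻¹ * n⁻¹) := by group
    _ = _ := by rw [h]; group

theorem rk_two_comm [Finite S] {N₀ : Subgroup S} [hN : N₀.Normal]
    (noE8 : ∀ W : Subgroup S, W.Normal → (∀ x ∈ W, x * x = 1) → Nat.card W ≤ 4)
    (hc : ∀ x ∈ N₀, ∀ y ∈ N₀, x * y = y * x) : Rk 2 N₀ := by
  have hn : (invs N₀ hc 1).Normal := invs_normal (by simp)
  have h4 := noE8 _ hn fun x hx => by
    have := hx.2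
    rw [one_mul, inv_one, mul_one] at this
    nth_rewrite 1 [this]; group
  intro N H hH _ h2
  refine (card_le_of_comm (U := invs N₀ hc 1) (fun x hx y hy => hc x (hH hx) y (hH hy)) h2
    fun x hx e => ⟨hH hx, by simpa using (inv_eq_of_mul_eq_one_right e).symm⟩).trans ?_
  exact Nat.mul_le_mul_right _ h4

theorem rk_two_end [Finite S] (hS : IsPGroup 2 S) {U N₀ P P₁ F : Subgroup S} [P.Normal]
    (hc : ∀ x ∈ P, ∀ y ∈ P, x * y = y * x) (cU : Nat.card U = 4) (hΩ : ∀ p ∈ P, p * p = 1 → p ∈ U)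
    (hPP : P ≤ P₁) (hPN : P₁ ≤ N₀) (cP₁ : Nat.card P₁ = 2 * Nat.card P) (cN : Nat.card N₀ = 4 * Nat.card P)
    (hQF : sqs P hc ≤ F) (hFP : F ≤ P) (hsq : ∀ n ∈ N₀, n * n ∈ P)
    (h0 : ∀ n ∈ P₁, n ∉ P → n * n ∈ F ∧ n * n ∉ sqs P hc) (h1 : ∀ n ∈ N₀, n ∉ P₁ → n * n ∉ F) :
    Rk 2 N₀ := by
  intro N H hH hN h2
  have hcK : ∀ x ∈ P ⊓ H, ∀ y ∈ P ⊓ H, x * y = y * x := fun x hx y hy => hc x hx.1 y hy.1
  have i1 := card_le_of_comm (U := U) (N := sqs _ hcK) hcK (fun x hx => by rw [sq]; exact sq_mem_sqs hx)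
    fun x hx e => hΩ x hx.1 e
  have i2 := card_le_of_comm (U := U) (N := sqs _ hc) hc (fun x hx => by rw [sq]; exact sq_mem_sqs hx) hΩ
  have hN' : sqs _ hcK ≤ N := by
    rintro _ ⟨x, hx, rfl⟩; rw [← sq]; exact h2 x hx.2
  have hQ' : sqs _ hcK ≤ sqs P hc := by
    rintro _ ⟨x, hx, rfl⟩; exact sq_mem_sqs hx.1
  have i3 := card_le_of_le hN'
  rw [cU] at i1 i2
  have nQ : ∀ n ∈ N₀, n ∉ P → n * n ∉ sqs P hc := fun n hn hn' => by
    by_cases e : n ∈ P₁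
    · exact (h0 n e hn').2
    · exact fun e' => h1 n hn e (hQF e')
  by_cases hHP : H ≤ P
  · have := card_le_of_le (le_inf hHP le_rfl : H ≤ P ⊓ H); omega
  obtain ⟨x, hx, hxP⟩ := SetLike.not_le_iff_exists.1 hHP
  by_cases h3 : Nat.card H ≤ 2 * Nat.card ↥(P ⊓ H)
  · have := two_mul_le_of_lt (lt_of_le_of_ne hN' fun e =>
      nQ x (hH hx) hxP (hQ' (e.ge (sq x ▸ h2 x hx))))
    omega
  have e := card_sup_mul_card_inf (N := P) (H := H) (le_top.trans (normalizer_eq_top P).ge)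
  have hpos : 0 < Nat.card ↥(P ⊓ H) := Nat.card_pos
  have hposP : 0 < Nat.card P := Nat.card_pos
  have j1 : 2 ^ 1 * Nat.card P < Nat.card ↥(P ⊔ H) := by nlinarith
  have j2 := two_mul_le_of_pow' hS j1
  have hsup : P ⊔ H = N₀ := eq_of_le_of_card_le (sup_le (hPP.trans hPN) hH) (by omega)
  have dec : ∀ n ∈ N₀, ∃ p ∈ P, ∃ y ∈ H, p * y = n := fun n hn =>
    (mem_sup_of_le_normalizer (le_top.trans (normalizer_eq_top P).ge)).1 (hsup.ge hn)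
  obtain ⟨n₀, hn₀, hn₀'⟩ := SetLike.not_le_iff_exists.1
    (fun e => by have := card_le_of_le e; omega : ¬ P₁ ≤ P)
  obtain ⟨n₁, hn₁, hn₁'⟩ := SetLike.not_le_iff_exists.1
    (fun e => by have := card_le_of_le e; omega : ¬ N₀ ≤ P₁)
  obtain ⟨p₀, hp₀, y₀, hy₀, rfl⟩ := dec n₀ (hPN hn₀)
  obtain ⟨p₁, hp₁, y₁, hy₁, rfl⟩ := dec n₁ hn₁
  rw [mul_mem_cancel_left (hPP hp₀)] at hn₀
  rw [mul_mem_cancel_left hp₀] at hn₀'
  rw [mul_mem_cancel_left (hPP hp₁)] at hn₁'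
  obtain ⟨k1, k2⟩ := h0 y₀ hn₀ hn₀'
  have k3 := h1 y₁ (hH hy₁) hn₁'
  have l1 := two_mul_le_of_lt (lt_of_le_of_ne hQF fun e => k2 (e.ge k1))
  have l2 := two_mul_le_of_lt (lt_of_le_of_ne hFP fun e => k3 (e.ge (hsq _ (hH hy₁))))
  have hPN' : P ⊓ N = P := eq_of_sup_sq (hS.to_subgroup P) inf_le_left fun M hM hM2 => by
    have q1 : sqs P hc ≤ M := by rintro _ ⟨x, hx, rfl⟩; exact hM2 x hx
    have q2 : F ≤ M := fun f hf => by
      by_cases e : f ∈ sqs P hc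
      · exact q1 e
      · exact (mul_mem_cancel_left (hM ⟨hFP k1, sq y₀ ▸ h2 _ hy₀⟩)).1
          (q1 (mul_mem_of_card hQF (by omega) k1 hf k2 e))
    intro f hf
    by_cases e : f ∈ F
    · exact q2 e
    · exact (mul_mem_cancel_left (hM ⟨hsq _ (hH hy₁), sq y₁ ▸ h2 _ hy₁⟩)).1
        (q2 (mul_mem_of_card hFP (by omega) (hsq _ (hH hy₁)) hf k3 e))
  have := card_le_of_le (hPN'.ge.trans inf_le_right)
  have := card_le_of_le hH
  omega

theorem rk_two_core [Finite S] (hS : IsPGroup 2 S) {U N₀ : Subgroup S} [hUn : U.Normal] [hNn : N₀.Normal]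
    {z u a t g ρ : S} (h : Cfg U z u a t) (hUN : U ≤ N₀) (hNu : ∀ n ∈ N₀, n * u = u * n)
    (gN : g ∈ N₀) (gc : ∀ n ∈ N₀, n * g = g * n) (gg : g * g = z)
    (hC0 : ∀ n ∈ N₀, n * a = a * n → n ∈ U) (ρa : ρ * a = a * ρ) (ρρ : a * (ρ * ρ) ∈ U)
    (gS : ∀ s : S, ⁅s, g⁆ ∈ U)
    (dich : ∀ E : Subgroup S, E.Normal → E ≤ N₀ → E ≤ U ∨ (g ∈ E ∧ U ≤ E))
    (noE8 : ∀ W : Subgroup S, W.Normal → (∀ x ∈ W, x * x = 1) → Nat.card W ≤ 4) : Rk 2 N₀ := by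
  have : Fact (Nat.Prime 2) := ⟨Nat.prime_two⟩
  by_cases hcomm : ∀ x ∈ N₀, ∀ y ∈ N₀, x * y = y * x
  · exact rk_two_comm noE8 hcomm
  have cU := h.cU
  have NU : ∀ n ∈ N₀, ∀ v ∈ U, n * v = v * n := fun n hn => h.comU (hNu n hn)
  have gU : g ∉ U := fun e => h.z1 (gg ▸ h.hU2 g e)
  set V := U ⊔ zpowers g with hV
  have cV : Nat.card V = 8 := by
    rw [hV, card_sup_zpowers Nat.prime_two (mem_normalizer_of_normal U g) (by rw [sq, gg]; exact h.zU) gU, cU]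
  have hVN : V ≤ N₀ := sup_le hUN (zpowers_le.2 gN)
  have NV : ∀ n ∈ N₀, ∀ v ∈ V, n * v = v * n := fun n hn v hv => by
    have : V ≤ centralizer {n} := sup_le (fun v hv => mem_centralizer_singleton_iff.2 (NU n hn v hv).symm)
      (zpowers_le.2 (mem_centralizer_singleton_iff.2 (gc n hn).symm))
    exact (mem_centralizer_singleton_iff.1 (this hv)).symm
  have hΦ : sqc N₀ ≤ N₀ := sqc_le fun x hx => N₀.mul_mem hx hx
  have c4 : 2 ^ 2 * Nat.card (sqc N₀) ≤ Nat.card N₀ := by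
    by_contra e
    have e := two_mul_le_of_pow hS (not_le.1 e)
    apply hcomm
    by_cases e2 : N₀ ≤ sqc N₀
    · have := eq_of_sup_sq (hS.to_subgroup N₀) bot_le fun M _ hM => e2.trans (sqc_le hM)
      intro x hx y _
      rw [← this, mem_bot] at hx; simp [hx]
    · obtain ⟨x, hx, hx'⟩ := SetLike.not_le_iff_exists.1 e2
      have := eq_of_sup_sq (hS.to_subgroup N₀) (zpowers_le.2 hx) fun M hM hM2 y hy => by
        by_cases e3 : y ∈ sqc N₀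
        · exact sqc_le hM2 e3
        · exact (mul_mem_cancel_left (hM (mem_zpowers x))).1
            (sqc_le hM2 (mul_mem_of_card hΦ (by omega) hx hy hx' e3))
      intro p hp q hq
      exact Inv.commute_of_mem_zpowers₂ (this.ge hp) (this.ge hq)
  obtain ⟨P, hPn, hΦP, hPN, cP⟩ : ∃ P : Subgroup S, P.Normal ∧ sqc N₀ ≤ P ∧ P ≤ N₀ ∧
      Nat.card N₀ = 4 * Nat.card P := by
    obtain ⟨i, hi⟩ := exists_card_eq_pow hS (sqc N₀)
    obtain ⟨j, hj⟩ := exists_card_eq_pow hS N₀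
    rw [hi, hj, ← pow_add] at c4
    obtain ⟨k, rfl⟩ := Nat.exists_eq_add_of_le ((Nat.pow_le_pow_iff_right one_lt_two).1 c4)
    obtain ⟨K, k1, k2, k3, k4⟩ := exists_normal_between_card_eq hS (sqc N₀) N₀ hΦ k (by
      rw [hi, hj, ← pow_add]; exact Nat.pow_le_pow_right (by norm_num) (by omega))
    exact ⟨K, k1, k2, k3, by rw [k4, hi, hj]; ring⟩
  have hsq : ∀ n ∈ N₀, n * n ∈ P := fun n hn => hΦP (sq_mem_sqc hn)
  have ai : a⁻¹ = a := inv_eq_of_mul_eq_one_right h.aa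
  have dP : ∀ n ∈ N₀, ⁅n, a⁆ ∈ P := fun n hn => by
    let π := QuotientGroup.mk' P
    have e := sq_cent (hS.to_quotient P) (P := N₀.map π) (hP := hNn.map π (QuotientGroup.mk'_surjective P))
      (by
        rw [← Core.relIndex_eq_card_map_mk']
        have j1 := card_eq_card_mul_relIndex hPN
        rw [cP, mul_comm 4] at j1
        exact (Nat.eq_of_mul_eq_mul_left Nat.card_pos j1).ge) (π ρ) (mem_map_of_mem π hn)
    have e2 := congrArg π (NU n hn _ ρρ)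
    rw [← QuotientGroup.eq_one_iff, ← QuotientGroup.mk'_apply, map_commutatorElement,
      commutatorElement_eq_one_iff_mul_comm]
    simp only [map_mul] at e2
    rw [mul_assoc, e, ← mul_assoc, ← mul_assoc (π a)] at e2
    exact mul_right_cancel e2
  have surj : ∀ p ∈ P, ∃ n ∈ N₀, ⁅n, a⁆ = p := class_full dP (by
    rw [cP, ← cU]
    exact Nat.mul_le_mul_right _ (card_le_of_le fun x hx =>
      hC0 x hx.2 (mem_centralizer_singleton_iff.1 hx.1)))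
  have hinv : ∀ p ∈ P, a * p * a⁻¹ = p⁻¹ := fun p hp => by
    obtain ⟨n, -, rfl⟩ := surj p hp
    exact comm_inv h.aa
  have hc : ∀ x ∈ P, ∀ y ∈ P, x * y = y * x := fun x hx y hy => by
    have := hinv _ (P.mul_mem hx hy)
    rw [show a * (x * y) * a⁻¹ = (a * x * a⁻¹) * (a * y * a⁻¹) by group, hinv x hx, hinv y hy] at this
    rw [← inv_inj, ← this]; group
  have hΩ : ∀ p ∈ P, p * p = 1 → p ∈ U := fun p hp e => by
    have h1 := hinv p hp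
    rw [inv_eq_of_mul_eq_one_right e, mul_inv_eq_iff_eq_mul] at h1
    exact hC0 p (hPN hp) h1.symm
  obtain ⟨gP, hUP⟩ : g ∈ P ∧ U ≤ P := (dich P hPn hPN).resolve_left fun e => hcomm (by
    have := card_le_of_le e
    intro x hx y hy
    by_cases e1 : y ∈ V
    · exact NV x hx y e1
    by_cases e2 : x ∈ V
    · exact (NV y hy x e2).symm
    have := NV x hx _ (mul_mem_of_card hVN (by omega) hx hy e2 e1)
    rw [mul_assoc] at this
    exact mul_left_cancel this)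
  have hVP : V ≤ P := sup_le hUP (zpowers_le.2 gP)
  set Q := sqs P hc with hQ
  have hQn : Q.Normal := sqs_normal
  have hQP : Q ≤ P := sqs_le
  have zQ : z ∈ Q := gg ▸ sq_mem_sqs gP
  have cQ : Nat.card P ≤ 4 * Nat.card Q := cU ▸
    card_le_of_comm (U := U) (N := Q) hc (fun x hx => by rw [sq]; exact sq_mem_sqs hx) hΩ
  let π := QuotientGroup.mk' Q
  have π1 : ∀ x, π x = 1 ↔ x ∈ Q := fun x => QuotientGroup.eq_one_iff x
  have πP : ∀ p ∈ P, π p * π p = 1 := fun p hp => by rw [← map_mul, π1]; exact sq_mem_sqs hp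
  have dp : ∀ p ∈ P, ⁅p, a⁆ = p * p := fun p hp => by
    rw [commutatorElement_def, mul_assoc, mul_assoc, ← mul_assoc a, hinv _ (P.inv_mem hp), inv_inv]
  have key : ∀ n ∈ N₀, n * ⁅n, a⁆ * n⁻¹ * ⁅n, a⁆ = n * n * (n * n) := fun n hn =>
    comm_key (hinv _ (hsq n hn))
  have cl1 : ∀ y ∈ N₀, ∀ p ∈ P, π y * π p = π p * π y := by
    intro y hy p hp
    rw [← mul_inv_eq_iff_eq_mul]
    refine claim_one (hS.to_quotient Q) (P := P.map π) (K := N₀.map π) (t := π a)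
      (hP := hPn.map π (QuotientGroup.mk'_surjective Q)) ?_ ?_ ?_ ?_ _ (mem_map_of_mem π hy) _
      (mem_map_of_mem π hp)
    · rw [← Core.relIndex_eq_card_map_mk']
      have j1 := card_eq_card_mul_relIndex hQP
      have j2 := cQ
      rw [j1, mul_comm 4] at j2
      exact Nat.le_of_mul_le_mul_left j2 Nat.card_pos
    · rintro _ ⟨x, hx, rfl⟩
      rw [← map_commutatorElement]; exact mem_map_of_mem π (dP x hx)
    · rintro _ ⟨p, hp, rfl⟩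
      obtain ⟨x, hx, e⟩ := surj p hp
      exact ⟨_, mem_map_of_mem π hx, by rw [← map_commutatorElement, e]⟩
    · rintro _ ⟨x, hx, rfl⟩
      have k := congrArg π (key x hx)
      have k3 := πP _ (hsq x hx)
      simp only [map_mul, map_inv, map_commutatorElement] at k k3
      have k2 := πP _ (dP x hx)
      rw [map_commutatorElement] at k2
      exact mul_right_cancel (k.trans (k3.trans k2.symm))
  set F := P ⊓ (centralizer {π ρ}).comap π with hF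
  have mF : ∀ p, p ∈ F ↔ p ∈ P ∧ π ρ * π p * (π ρ)⁻¹ = π p := fun p => by
    rw [hF, mem_inf, mem_comap, mem_centralizer_singleton_iff, mul_inv_eq_iff_eq_mul, eq_comm]
  have hQF : Q ≤ F := fun q hq => (mF q).2 ⟨hQP hq, by rw [(π1 q).2 hq]; simp⟩
  have hFP : F ≤ P := inf_le_left
  have mF' : ∀ p ∈ P, ⁅ρ, p⁆ ∈ Q → p ∈ F := fun p hp e => (mF p).2 ⟨hp, by
    rw [← π1, map_commutatorElement, commutatorElement_def, mul_inv_eq_one] at e; exact e⟩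
  have ρ2 : ∀ p ∈ P, ρ * (ρ * p * ρ⁻¹) * ρ⁻¹ = p⁻¹ := fun p hp => by
    have e1 := NU p (hPN hp) _ ρρ
    calc ρ * (ρ * p * ρ⁻¹) * ρ⁻¹ = a⁻¹ * (a * (ρ * ρ) * p) * (a * (ρ * ρ))⁻¹ * a⁻¹⁻¹ := by group
      _ = a⁻¹ * p * a⁻¹⁻¹ := by rw [← e1]; group
      _ = _ := by rw [ai, hinv p hp]
  obtain ⟨p₁, hp₁, hp₁F⟩ : ∃ p ∈ P, p ∉ F := by
    by_contra e
    push Not at e
    have φQ : ∀ p ∈ P, ⁅ρ, p⁆ ∈ Q := fun p hp => by
      rw [← π1, map_commutatorElement, commutatorElement_def, ((mF p).1 (e p hp)).2, mul_inv_cancel]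
    refine h.z1 (eq_one_of_sq_closed hS (· ∈ Q) ?_ zQ)
    rintro _ ⟨p, hp, rfl⟩
    obtain ⟨y, hy, e1⟩ := φQ p hp
    have e2 := φQ y hy
    refine ⟨(⁅ρ, y⁆ * (y * y))⁻¹, Q.inv_mem (Q.mul_mem e2 (sq_mem_sqs hy)), ?_⟩
    have e3 := ρ2 p hp
    have e4 : ρ * p * ρ⁻¹ = y * y * p := by rw [e1, commutatorElement_def]; group
    have e5 : ρ * y * ρ⁻¹ = ⁅ρ, y⁆ * y := by rw [commutatorElement_def]; group
    have e6 : ρ * (y * y * p) * ρ⁻¹ = (ρ * y * ρ⁻¹) * (ρ * y * ρ⁻¹) * (ρ * p * ρ⁻¹) := by group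
    rw [e4, e6, e5, e4] at e3
    have c1 : Commute ⁅ρ, y⁆ y := hc _ (hQP e2) y hy
    have e7 : ⁅ρ, y⁆ * (y * y) * (⁅ρ, y⁆ * (y * y)) = p⁻¹ * p⁻¹ := by
      calc _ = ⁅ρ, y⁆ * y * (y * ⁅ρ, y⁆) * (y * y) := by simp only [mul_assoc]
        _ = ⁅ρ, y⁆ * y * (⁅ρ, y⁆ * y) * (y * y * p) * p⁻¹ := by
            rw [← c1.eq]; simp only [mul_assoc, mul_inv_cancel, mul_one]
        _ = _ := by rw [e3]
    rw [← mul_inv_rev, e7, mul_inv_rev, inv_inv]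
  obtain ⟨n₁, hn₁, rfl⟩ := surj p₁ hp₁
  obtain ⟨n₀, hn₀, hn₀P, -, hn₀c⟩ := exists_central_mod_normal hS N₀ P fun e => by
    have := card_le_of_le e
    have : 0 < Nat.card P := Nat.card_pos
    omega
  have inj : ∀ n ∈ N₀, ⁅n, a⁆ ∈ Q → n ∈ P := by
    rintro n hn ⟨p, hp, e⟩
    rw [← dp p hp] at e
    exact (mul_mem_cancel_left (P.inv_mem hp)).1
      (hUP (hC0 _ (N₀.mul_mem (N₀.inv_mem (hPN hp)) hn) (comm_eq_iff e.symm)))
  have hρ1 : ⁅ρ, n₁⁆ ∉ P := fun e => hp₁F ((mF _).2 ⟨hp₁, by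
    have e1 : ρ * ⁅n₁, a⁆ * ρ⁻¹ = ⁅⁅ρ, n₁⁆ * n₁, a⁆ := by
      rw [conjugate_commutatorElement, ρa, mul_inv_cancel_right]; congr 1
      rw [commutatorElement_def]; group
    rw [comm_mul, hc _ e _ hp₁, mul_inv_cancel_right, dp _ e] at e1
    rw [← map_inv, ← map_mul, ← map_mul, e1, map_mul, map_mul, πP _ e, mul_one]⟩)
  set P₁ := P ⊔ zpowers n₀ with hP₁
  have hP₁n : P₁.Normal := normal_sup_zpowers hn₀c
  have hPP : P ≤ P₁ := le_sup_left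
  have hP₁N : P₁ ≤ N₀ := sup_le hPN (zpowers_le.2 hn₀)
  have hn₀1 : n₀ ∈ P₁ := mem_sup_right (mem_zpowers n₀)
  have cP₁ : Nat.card P₁ = 2 * Nat.card P := by
    rw [hP₁, card_sup_zpowers Nat.prime_two (mem_normalizer_of_normal P n₀) (sq n₀ ▸ hsq n₀ hn₀) hn₀P,
      mul_comm]
  have dec0 : ∀ x ∈ P₁, x ∉ P → ∃ p ∈ P, x = p * n₀ := fun x hx hx' =>
    ⟨_, mul_mem_of_card hPP (by omega) hx (P₁.inv_mem hn₀1) hx' fun e => hn₀P (inv_mem_iff.1 e), by group⟩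
  have hn₁1 : n₁ ∉ P₁ := fun e => hρ1 (by
    by_cases e' : n₁ ∈ P
    · exact P.mul_mem (hPn.conj_mem _ e' ρ) (P.inv_mem e')
    · obtain ⟨p, hp, rfl⟩ := dec0 n₁ e e'
      refine commutator_symm_mem ?_
      rw [comm_mul]
      exact P.mul_mem (hPn.conj_mem _ (hn₀c ρ) _)
        (commutator_symm_mem (P.mul_mem (hPn.conj_mem _ hp ρ) (P.inv_mem hp))))
  have dec1 : ∀ x ∈ N₀, x ∉ P₁ → x * n₁⁻¹ ∈ P₁ := fun x hx hx' =>
    mul_mem_of_card hP₁N (by omega) hx (N₀.inv_mem hn₁) hx' fun e => hn₁1 (inv_mem_iff.1 e)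
  have s1 : ∀ s : S, ⁅s, n₁⁆ ∈ P₁ := fun s => dec1 _ (hNn.conj_mem _ hn₁ s) fun e =>
    hn₁1 (by simpa [mul_assoc] using hP₁n.conj_mem _ e s⁻¹)
  obtain ⟨q, hq, eq⟩ := dec0 _ (s1 ρ) hρ1
  have notg : ∀ n ∈ N₀, n * g * n⁻¹ ≠ g⁻¹ := fun n hn e => h.z1 (by
    rw [gc n hn, mul_inv_cancel_right] at e
    rw [← gg]; nth_rewrite 1 [e]; group)
  have I0 : invs P hc n₀ ≤ U := (dich _ (invs_normal fun s p hp =>
    hc _ (commutator_symm_mem (hn₀c s)) p hp) fun x hx => hPN hx.1).resolve_right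
      fun e => notg n₀ hn₀ e.1.2
  have cP' : ∀ n : S, ∀ p ∈ P, ⁅n, p⁆ ∈ P := fun n p hp => P.mul_mem (hPn.conj_mem _ hp n) (P.inv_mem hp)
  have φ0 : ∀ p ∈ P, ⁅n₀, p⁆ ∈ U := fun p hp =>
    I0 ⟨cP' _ p hp, comm_self_inv (hc _ (hsq n₀ hn₀) p hp)⟩
  have cm1 : ∀ p ∈ P, ∀ p' ∈ P, ⁅p, p'⁆ = 1 := fun p hp p' hp' =>
    commutatorElement_eq_one_iff_mul_comm.2 (hc p hp p' hp')
  have φP₁ : ∀ x ∈ P₁, ∀ p ∈ P, ⁅x, p⁆ ∈ U := fun x hx p hp => by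
    by_cases e : x ∈ P
    · rw [cm1 x e p hp]; exact U.one_mem
    · obtain ⟨p', hp', rfl⟩ := dec0 x hx e
      rw [comm_mul, cm1 p' hp' p hp, mul_one]
      exact hUn.conj_mem _ (φ0 p hp) _
  have cQ' : ∀ x : S, (∀ p ∈ P, ⁅x, p⁆ ∈ U) → ∀ y ∈ Q, x * y = y * x := by
    rintro x hx _ ⟨p, hp, rfl⟩
    have e1 := NU p (hPN hp) _ (hx p hp)
    rw [← mul_inv_eq_iff_eq_mul]
    calc x * (p * p) * x⁻¹ = ⁅x, p⁆ * (p * ⁅x, p⁆) * p := by simp only [commutatorElement_def]; group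
      _ = _ := by rw [e1, ← mul_assoc, h.hU2 _ (hx p hp), one_mul]
  have hcQ : ∀ x ∈ Q, ∀ y ∈ Q, x * y = y * x := fun x hx y hy => hc x (hQP hx) y (hQP hy)
  have I1 : invs Q hcQ n₁ ≤ U := (dich _ (invs_normal fun s p hp => cQ' _ (φP₁ _ (s1 s)) p hp)
    fun x hx => hPN (hQP hx.1)).resolve_right fun e => notg n₁ hn₁ e.1.2
  have φ1 : ∀ p ∈ P, ⁅n₁, p⁆ ∈ U := fun p hp => I1 ⟨by
    rw [← π1, map_commutatorElement, commutatorElement_eq_one_iff_mul_comm]; exact cl1 n₁ hn₁ p hp,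
    comm_self_inv (hc _ (hsq n₁ hn₁) p hp)⟩
  have hψ : ∀ n ∈ N₀, n * (⁅n, a⁆ * (n * n)⁻¹) * n⁻¹ = (⁅n, a⁆ * (n * n)⁻¹)⁻¹ := fun n hn => by
    have e1 := key n hn
    have e2 := hc _ (dP n hn) _ (hsq n hn)
    generalize ⁅n, a⁆ = d at e1 e2 ⊢
    calc n * (d * (n * n)⁻¹) * n⁻¹ = (n * d * n⁻¹ * d) * ((n * n) * d)⁻¹ := by group
      _ = n * n * (n * n) * (d * (n * n))⁻¹ := by rw [e1, e2]
      _ = _ := by group
  have ψP : ∀ n ∈ N₀, ⁅n, a⁆ * (n * n)⁻¹ ∈ P := fun n hn => P.mul_mem (dP n hn) (P.inv_mem (hsq n hn))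
  have ψ0 : ⁅n₀, a⁆ * (n₀ * n₀)⁻¹ ∈ U := I0 ⟨ψP n₀ hn₀, hψ n₀ hn₀⟩
  set ψ := ⁅n₁, a⁆ * (n₁ * n₁)⁻¹ with hψ1
  have ψ1 : ψ * ψ ∈ U := by
    have := φ1 _ (ψP n₁ hn₁)
    rw [commutatorElement_def, hψ n₁ hn₁, ← mul_inv_rev] at this
    exact inv_mem_iff.1 this
  have ψV : ψ ∈ V → ψ ∈ U := fun e => hΩ _ (ψP n₁ hn₁) (by
    have := hψ n₁ hn₁
    rw [← hψ1, NV n₁ hn₁ _ e, mul_inv_cancel_right] at this
    nth_rewrite 1 [this]; group)
  set c := ⁅n₀, n₁⁆ with hcc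
  have cP0 : c ∈ P := hn₀c n₁
  have sqP : ∀ p ∈ P, ∀ n ∈ N₀, π (p * n * (p * n)) = π (n * n) := fun p hp n hn => by
    simp only [map_mul]
    rw [mul_assoc, ← mul_assoc (π n), cl1 n hn p hp, mul_assoc, ← mul_assoc, πP p hp, one_mul]
  have sq01 : π (n₀ * n₁ * (n₀ * n₁)) = π c * π (n₀ * n₀) * π (n₁ * n₁) := by
    have e1 : n₀ * n₁ * (n₀ * n₁) = n₀ * c⁻¹ * n₀ * (n₁ * n₁) := by
      rw [hcc, commutatorElement_def]; group
    rw [e1]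
    simp only [map_mul, map_inv]
    rw [inv_eq_of_mul_eq_one_right (πP c cP0), cl1 n₀ hn₀ c cP0]; simp only [mul_assoc]
  have idn : π ρ * π (n₁ * n₁) * (π ρ)⁻¹ = π c * π (n₀ * n₀) * π (n₁ * n₁) := by
    rw [← sq01, ← sqP q hq _ (N₀.mul_mem hn₀ hn₁), ← map_inv, ← map_mul, ← map_mul, ← mul_assoc q, ← eq]
    congr 1; rw [commutatorElement_def]; group
  have n0F : n₀ * n₀ ∈ F := (mF _).2 ⟨hsq n₀ hn₀, by
    rw [← map_inv, ← map_mul, ← map_mul]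
    refine Eq.trans ?_ (sqP _ (commutator_symm_mem (hn₀c ρ)) n₀ hn₀)
    congr 1; rw [commutatorElement_def]; group⟩
  have hUF : U ≤ F := fun v hv => mF' v (hUP hv) (by
    have e1 : ⁅ρ, u⁆ ∈ Q := by
      rcases h.cju ρ with e | e
      · rw [commutatorElement_def, e, mul_inv_cancel]; exact Q.one_mem
      · rw [commutatorElement_def, e, h.zc u, mul_inv_cancel_right]; exact zQ
    have e2 : ⁅ρ, z⁆ = 1 := commutatorElement_eq_one_iff_mul_comm.2 (h.zc ρ)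
    rcases (h.mU v).1 hv with rfl | rfl | rfl | rfl
    · simp
    · rw [e2]; exact Q.one_mem
    · exact e1
    · rwa [commutatorElement_def, ← mul_assoc, mul_assoc _ z, ← h.zc ρ⁻¹, mul_inv_rev, ← mul_assoc,
        ← mul_assoc, mul_inv_cancel_right])
  have l2 := two_mul_le_of_lt (lt_of_le_of_ne hFP fun e => hp₁F (e.ge hp₁))
  have d1F : ψ ∈ F → n₁ * n₁ ∉ F := fun e e' => hp₁F ((mul_mem_cancel_right (F.inv_mem e')).1 e)
  have cc0 : n₀ * n₀ ∈ V → c ∈ U := fun e => I0 ⟨cP0, by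
    have := commutatorElement_eq_one_iff_mul_comm.2 (NV n₁ hn₁ _ e).symm
    rw [comm_mul] at this
    exact eq_inv_of_mul_eq_one_left this⟩
  have G1 : n₀ * n₀ ∉ Q := fun e => by
    have e1 : ¬ U ≤ Q := fun e' => hn₀P (inj n₀ hn₀ ((mul_mem_cancel_right (Q.inv_mem e)).1 (e' ψ0)))
    have e2 : Q ≤ U := (dich Q hQn (hQP.trans hPN)).resolve_right fun e' => e1 e'.2
    have e3 := two_mul_le_of_lt (lt_of_le_of_ne e2 fun e' => e1 e'.ge)
    have e4 : V = P := eq_of_le_of_card_le hVP (by omega)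
    have e5 : c ∈ U := cc0 (e4.ge (hsq n₀ hn₀))
    have cmP : ∀ p ∈ P, ∀ n ∈ N₀, ⁅p, n⁆ = 1 := fun p hp n hn =>
      commutatorElement_eq_one_iff_mul_comm.2 (NV n hn p (e4.ge hp)).symm
    have cmL : ∀ p ∈ P, ∀ x ∈ N₀, ∀ y ∈ N₀, ⁅p * x, y⁆ = ⁅x, y⁆ := fun p hp x hx y hy => by
      rw [comm_mul, cmP p hp y hy, mul_one, ← NV _ (commutator_le_self N₀
        (commutator_mem_commutator hx hy)) p (e4.ge hp), mul_inv_cancel_right]
    have e6 : t * c * t⁻¹ = c := by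
      have f1 : t * n₀ * t⁻¹ = ⁅t, n₀⁆ * n₀ := by rw [commutatorElement_def]; group
      have f2 : t * n₁ * t⁻¹ = ⁅t, n₁⁆ * n₁ := by rw [commutatorElement_def]; group
      rw [hcc, conjugate_commutatorElement, f1, cmL _ (commutator_symm_mem (hn₀c t)) _ hn₀ _
        (hNn.conj_mem _ hn₁ t), f2, ← inv_inj, commutatorElement_inv, commutatorElement_inv]
      by_cases f3 : ⁅t, n₁⁆ ∈ P
      · exact cmL _ f3 _ hn₁ _ hn₀
      · obtain ⟨p, hp, f4⟩ := dec0 _ (s1 t) f3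
        rw [f4, mul_assoc, cmL p hp _ (N₀.mul_mem hn₀ hn₁) _ hn₀, comm_mul, commutatorElement_self, mul_one,
          NU n₀ hn₀ _ (commutator_symm_mem e5), mul_inv_cancel_right]
    have e7 : c ∈ Q := by
      rcases h.fixU e5 e6 with f | f <;> rw [f]
      exacts [Q.one_mem, zQ]
    refine d1F (hUF (ψV (e4.ge (ψP n₁ hn₁)))) ((mF _).2 ⟨hsq n₁ hn₁, ?_⟩)
    rw [idn, (π1 c).2 e7, (π1 _).2 e, one_mul, one_mul]
  have wF : ∀ p ∈ P, ⁅ρ, p⁆ ∈ F := fun p hp => (mF _).2 ⟨cP' ρ p hp, by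
    have f1 : ρ * ⁅ρ, p⁆ * ρ⁻¹ = (ρ * (ρ * p * ρ⁻¹) * ρ⁻¹) * (ρ * p * ρ⁻¹)⁻¹ := by
      rw [commutatorElement_def]; group
    have f2 := hPn.conj_mem p hp ρ
    rw [← map_inv, ← map_mul, ← map_mul, f1, ρ2 p hp, hc _ (P.inv_mem hp) _ (P.inv_mem f2),
      commutatorElement_def, map_mul, map_mul _ (ρ * p * ρ⁻¹), map_inv π (ρ * p * ρ⁻¹),
      inv_eq_of_mul_eq_one_right (πP _ f2)]⟩
  have G2 : c ∈ Q := by
    by_contra e
    have cF : c ∈ F := by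
      have f1 : π (⁅ρ, n₁ * n₁⁆⁻¹ * (c * (n₀ * n₀))) = 1 := by
        rw [map_mul, map_inv, map_commutatorElement, commutatorElement_def (π ρ), idn, map_mul π c]; group
      exact (mul_mem_cancel_right n0F).1 ((mul_mem_cancel_left (F.inv_mem (wF _ (hsq n₁ hn₁)))).1
        (hQF ((π1 _).1 f1)))
    have f1 := mul_mem_of_card hQF (by omega) cF n0F e G1
    have f2 : n₁ * n₁ ∈ F := (mF _).2 ⟨hsq n₁ hn₁, by rw [idn, ← map_mul π c, (π1 _).2 f1, one_mul]⟩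
    have f3 : ψ ∉ F := fun e' => d1F e' f2
    have ψP' : ψ ∈ P := ψP n₁ hn₁
    have wP := cP' ρ ψ ψP'
    have wQ : ⁅ρ, ψ⁆ ∉ Q := fun e' => f3 (mF' ψ ψP' e')
    have sqm : ∀ x ∈ P, ∀ y ∈ P, x * y * (x * y) = x * x * (y * y) := fun x hx y hy => by
      rw [mul_assoc, ← mul_assoc y, ← hc x hx y hy]; simp only [mul_assoc]
    have w2 : ⁅ρ, ψ⁆ * ⁅ρ, ψ⁆ ∈ U := by
      rw [commutatorElement_def, sqm _ (hPn.conj_mem _ ψP' ρ) _ (P.inv_mem ψP'), ← mul_inv_rev,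
        show ρ * ψ * ρ⁻¹ * (ρ * ψ * ρ⁻¹) = ρ * (ψ * ψ) * ρ⁻¹ by group]
      exact U.mul_mem (hUn.conj_mem _ ψ1 ρ) (U.inv_mem ψ1)
    have step : ∀ x ∈ P, x * x ∈ U → ∀ p ∈ P, (∃ y ∈ Q, (y * y)⁻¹ * (x * p * (x * p)) ∈ U) →
        ∃ y ∈ Q, (y * y)⁻¹ * (p * p) ∈ U := by
      rintro x hx hx2 p hp ⟨y, hy, e1⟩
      refine ⟨y, hy, ?_⟩
      rwa [sqm x hx p hp, hc _ (P.mul_mem hx hx) _ (P.mul_mem hp hp), ← mul_assoc,
        mul_mem_cancel_right hx2] at e1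
    have sF : ∀ p ∈ F, ∃ y ∈ Q, (y * y)⁻¹ * (p * p) ∈ U := fun p hp => by
      by_cases e1 : p ∈ Q
      · exact ⟨p, e1, by rw [inv_mul_cancel]; exact U.one_mem⟩
      · exact step _ wP w2 p (hFP hp) ⟨_, mul_mem_of_card hQF (by omega) (wF ψ ψP') hp wQ e1, by
          rw [inv_mul_cancel]; exact U.one_mem⟩
    have l3 := two_mul_le_of_lt (lt_of_le_of_ne hQF fun e' => G1 (e'.ge n0F))
    have sP : ∀ p ∈ P, ∃ y ∈ Q, (y * y)⁻¹ * (p * p) ∈ U := fun p hp => by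
      by_cases e1 : p ∈ F
      · exact sF p e1
      · exact step _ ψP' ψ1 p hp (sF _ (mul_mem_of_card hFP (by omega) ψP' hp f3 e1))
    have hQU : Q ≤ U := fun x hx => by
      rw [← QuotientGroup.eq_one_iff]
      refine eq_one_of_sq_closed (hS.to_quotient U) (fun x => ∃ y ∈ Q, x = (y : S ⧸ U)) ?_ ⟨x, hx, rfl⟩
      rintro _ ⟨_, ⟨p, hp, rfl⟩, rfl⟩
      obtain ⟨y, hy, e1⟩ := sP p hp
      exact ⟨y, ⟨y, hy, rfl⟩, (QuotientGroup.eq.2 e1).symm⟩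
    have f4 := two_mul_le_of_lt (lt_of_le_of_ne hVP fun e' => f3 (hUF (ψV (e'.ge ψP'))))
    have f5 : Q = U := eq_of_le_of_card_le hQU (by omega)
    have f6 : g ∈ F := mF' g gP (f5.ge (gS ρ))
    have f7 := mul_mem_of_card hQF (by omega) f6 n0F (fun e' => gU (hQU e')) G1
    exact e (f5.ge (cc0 ((mul_mem_cancel_left (mem_sup_right (mem_zpowers g))).1
      (mem_sup_left (hQU f7)))))
  have πF : ∀ x ∈ P, ∀ y, π x = π y → y ∈ F → x ∈ F := fun x hx y e hy =>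
    (mF x).2 ⟨hx, by rw [e]; exact ((mF y).1 hy).2⟩
  have h0 : ∀ n ∈ P₁, n ∉ P → n * n ∈ F ∧ n * n ∉ Q := fun n hn hn' => by
    obtain ⟨p, hp, rfl⟩ := dec0 n hn hn'
    have e := sqP p hp n₀ hn₀
    exact ⟨πF _ (hsq _ (hP₁N hn)) _ e n0F, fun e' => G1 ((π1 _).1 (e ▸ (π1 _).2 e'))⟩
  have n1F : n₁ * n₁ ∉ F := fun e => G1 (by
    have := ((mF _).1 e).2
    rw [idn, (π1 c).2 G2, one_mul, mul_eq_right] at this
    exact (π1 _).1 this)
  refine rk_two_end hS hc cU hΩ hPP hP₁N cP₁ cP hQF hFP hsq h0 fun n hn hn' e => n1F ?_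
  have e1 := dec1 n hn hn'
  by_cases e2 : n * n₁⁻¹ ∈ P
  · have e3 := sqP _ e2 n₁ hn₁
    rw [inv_mul_cancel_right] at e3
    exact πF _ (hsq _ hn₁) _ e3.symm e
  · obtain ⟨p, hp, e3⟩ := dec0 _ e1 e2
    have e4 := sqP p hp _ (N₀.mul_mem hn₀ hn₁)
    rw [← mul_assoc p, ← e3, inv_mul_cancel_right, sq01, (π1 c).2 G2, one_mul, ← map_mul] at e4
    exact (mul_mem_cancel_left n0F).1 (πF _ (P.mul_mem (hsq _ hn₀) (hsq _ hn₁)) _ e4.symm e)

end Cfsg.Agent.Isaacs.HR
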