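import Mathlib
import Cfsg.Agent.Isaacs.HR6
import Cfsg.Agent.PGrp.Sect2

/-! Harada's theorem on self-centralizing elementary abelian subgroups of order eight. -/

set_option autoImplicit false

namespace Cfsg.Agent.Isaacs.HR

open Subgroup Cfsg.Agent.PGrp
open scoped Pointwise commutatorElement

variable {S : Type*} [Group S]

namespace Cfg

variable {U : Subgroup S} {z u a t : S} (h : Cfg U z u a t)
include h

theorem caseB [Finite S] (hS : IsPGroup 2 S) [hUn : U.Normal]
    (noE8 : ∀ W : Subgroup S, W.Normal → (∀ x ∈ W, x * x = 1) → Nat.card W ≤ 4)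
    {y : S} (hyu : y * u = u * y) (hya : y * a = a * y) (hyW : y ∉ U ⊔ zpowers a) :
    Rk 4 (⊤ : Subgroup S) := by
  have : Fact (Nat.Prime 2) := ⟨Nat.prime_two⟩
  have cU := h.cU
  set T := centralizer ({u} : Set S) with hT
  have mT : ∀ x, x ∈ T ↔ x * u = u * x := fun x => mem_centralizer_singleton_iff
  have hTn : T.Normal := h.T_normal
  have cT : Nat.card S ≤ 2 * Nat.card T := h.card_T
  have hUT : U ≤ T := fun v hv => (mT v).2 (comm_of_sq h.hU2 hv h.uU)
  have noE : ∀ x, x * u = u * x → x ∉ U → x * x = 1 → ¬ ∀ s : S, ⁅x, s⁆ ∈ U := fun x xu xU xx e => by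
    have c8 : Nat.card ↥(U ⊔ zpowers x) = 8 := by
      rw [card_sup_zpowers Nat.prime_two (mem_normalizer_of_normal U x) (by rw [sq, xx]; exact U.one_mem)
        xU, cU]
    have := noE8 _ (normal_sup_zpowers e) fun w hw => by
      by_cases e1 : w ∈ U
      · exact h.hU2 w e1
      · have e2 := mul_mem_of_card le_sup_left (by omega) (mem_sup_right (mem_zpowers x)) hw xU e1
        have e3 := h.hU2 _ e2
        have e4 := h.comU xu _ e2
        rw [mul_assoc, mul_left_cancel_iff] at e4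
        rwa [mul_assoc, ← mul_assoc w, ← e4, mul_assoc, ← mul_assoc, xx, one_mul] at e3
    omega
  have uniq : ∀ x, x * u = u * x → x ∉ U → x ^ 2 ∈ U → (∀ s : S, ⁅x, s⁆ ∈ U) →
      ∃ v ∈ U, v * x * t = t * (v * x) ∧ v * x * (v * x) = z ∧ ⁅v * x, a⁆ = z ∧
        ∀ s : S, ⁅v * x, s⁆ ∈ U := by
    intro x xu xU x2 xc
    obtain ⟨v, hv, e⟩ := h.free (xc t)
    have gc : ∀ s : S, ⁅v * x, s⁆ ∈ U := fun s => by
      rw [comm_mul]
      exact U.mul_mem (hUn.conj_mem _ (xc s) v)
        (commutator_symm_mem (U.mul_mem (hUn.conj_mem v hv s) (U.inv_mem hv)))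
    have gu : v * x * u = u * (v * x) := (mT _).1 (T.mul_mem (hUT hv) ((mT x).2 xu))
    have gU : v * x ∉ U := fun e => xU ((mul_mem_cancel_left hv).1 e)
    have g2 : v * x * (v * x) ∈ U := by
      rw [mul_assoc, ← mul_assoc x, h.comU xu v hv, mul_assoc, ← mul_assoc, h.hU2 v hv, one_mul, ← sq]
      exact x2
    have g1 : v * x * (v * x) ≠ 1 := fun e => noE _ gu gU e gc
    refine ⟨v, hv, ?_⟩
    generalize v * x = g at *
    have gz : g * g = z := (h.fixU g2 (by
      rw [mul_inv_eq_iff_eq_mul, ← mul_assoc, ← e, mul_assoc, ← e, mul_assoc])).resolve_left g1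
    refine ⟨e, gz, (h.fixU (gc a) (by
      rw [conjugate_commutatorElement, h.ta, mul_inv_cancel_right, ← e, mul_inv_cancel_right])).resolve_left
        fun e' => g1 (h.W2 g (h.centW gu (commutatorElement_eq_one_iff_mul_comm.1 e') e)), gc⟩
  obtain ⟨x₀, hx₀, hx₀U, hx₀2, hx₀c⟩ := exists_central_mod_normal hS T U fun e => h.aU (e ((mT a).2 h.au))
  obtain ⟨v₀, hv₀, gt, gg, ga, gc⟩ := uniq x₀ ((mT _).1 hx₀) hx₀U hx₀2 hx₀c
  have gT : v₀ * x₀ ∈ T := T.mul_mem (hUT hv₀) hx₀
  generalize v₀ * x₀ = g at gt gg ga gc gT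
  have gS : ∀ s : S, ⁅s, g⁆ ∈ U := fun s => commutator_symm_mem (gc s)
  have ag : ⁅a, g⁆ = z := by rw [← commutatorElement_inv, ga, inv_eq_of_mul_eq_one_right h.zz]
  have hVn : (U ⊔ zpowers g).Normal := normal_sup_zpowers gc
  set N₀ := centralizer ((U ⊔ zpowers g : Subgroup S) : Set S) with hN₀
  have hNn : N₀.Normal := inferInstance
  have mN : ∀ x, x ∈ N₀ ↔ x * u = u * x ∧ x * g = g * x := fun x => by
    rw [hN₀, centralizer_sup_zpowers, mem_inf, mem_centralizer_singleton_iff]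
    exact and_congr_left' ⟨fun e => (mem_centralizer_iff.1 e u h.uU).symm,
      fun e => mem_centralizer_iff.2 fun v hv => (h.comU e v hv).symm⟩
  have mN' : ∀ x ∈ T, ⁅x, g⁆ = 1 → x ∈ N₀ := fun x hx e =>
    (mN x).2 ⟨(mT x).1 hx, commutatorElement_eq_one_iff_mul_comm.1 e⟩
  have hUN : U ≤ N₀ := fun v hv => (mN v).2 ⟨(mT v).1 (hUT hv), (h.comU ((mT g).1 gT) v hv).symm⟩
  have aN : a ∉ N₀ := fun e => h.z1 (ag ▸ commutatorElement_eq_one_iff_mul_comm.2 ((mN a).1 e).2)
  have cmT : ∀ x ∈ T, ∀ w, ⁅x * w, g⁆ = ⁅w, g⁆ * ⁅x, g⁆ := fun x hx w => by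
    rw [comm_mul, h.comU ((mT x).1 hx) _ (gS w), mul_inv_cancel_right]
  have hC0 : ∀ n ∈ N₀, n * a = a * n → n ∈ U := by
    intro n hn e
    by_contra hnU
    set C₀ := N₀ ⊓ centralizer {a} with hC₀
    have htC : t ∈ normalizer (C₀ : Set S) := mem_normalizer_of_conj_mem fun x hx =>
      ⟨hNn.conj_mem x hx.1 t, mem_centralizer_singleton_iff.2
        ((Commute.mul_left h.ta (mem_centralizer_singleton_iff.1 hx.2)).mul_left (Commute.inv_left h.ta))⟩
    obtain ⟨k, hk, hkU, hkc⟩ := exists_central_mod_of_nilpotent (P := C₀ ⊔ zpowers t) (M := C₀) (N := U)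
      (hS.to_subgroup _).isNilpotent le_sup_left (sup_le le_normalizer (zpowers_le.2 htC))
      fun e' => hnU (e' ⟨hn, mem_centralizer_singleton_iff.2 e⟩)
    obtain ⟨v, hv, e1⟩ := h.free (hkc t (mem_sup_right (mem_zpowers t)))
    have e2 : v * k ∈ N₀ := N₀.mul_mem (hUN hv) hk.1
    have e3 := h.centW ((mN _).1 e2).1 (Commute.mul_left (h.comU h.au v hv).symm
      (mem_centralizer_singleton_iff.1 hk.2)) e1
    rcases (h.mW _).1 e3 with e4 | e4
    · exact hkU ((mul_mem_cancel_left hv).1 e4)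
    · exact aN ((mul_mem_cancel_right e2).1 (hUN e4))
  have yT : y ∈ T := (mT y).2 hyu
  have aT : a ∈ T := (mT a).2 h.au
  have yg : ⁅y, g⁆ = u ∨ ⁅y, g⁆ = u * z := by
    rcases (h.mU _).1 (gS y) with e | e | e
    · exact absurd (mem_sup_left (hC0 y (mN' y yT e) hya)) hyW
    · refine absurd ((h.mW y).2 (Or.inr (hC0 _ (mN' _ (T.mul_mem aT yT) ?_)
        (Commute.mul_left (Commute.refl a) hya)))) hyW
      rw [cmT a aT, e, ag, h.zz]
    · exact e
  have ρa : y * t * a = a * (y * t) := Commute.mul_left hya h.ta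
  have ρρ : a * (y * t * (y * t)) ∈ U := by
    have e1 : y * t * (y * t) = y * (t * y * t⁻¹) := by rw [h.ti]; group
    have e2 : ⁅t * y * t⁻¹, g⁆ = t * ⁅y, g⁆ * t⁻¹ := by
      rw [conjugate_commutatorElement, ← gt, mul_inv_cancel_right]
    have e3 := hTn.conj_mem y yT t
    refine hC0 _ (mN' _ (T.mul_mem aT (e1 ▸ T.mul_mem yT e3)) ?_)
      (Commute.mul_left (Commute.refl a) (Commute.mul_left ρa ρa))
    rw [cmT a aT, e1, cmT y yT, e2, ag]
    rcases yg with e | e <;> rw [e]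
    · rw [h.tu, mul_assoc u, ← h.zc u, ← mul_assoc, h.uu, one_mul, h.zz]
    · rw [show t * (u * z) * t⁻¹ = (t * u * t⁻¹) * (t * z * t⁻¹) by group, h.tu, h.cz, mul_assoc u z z, h.zz,
        mul_one, ← mul_assoc, h.uu, one_mul, h.zz]
  have dich : ∀ E : Subgroup S, E.Normal → E ≤ N₀ → E ≤ U ∨ (g ∈ E ∧ U ≤ E) := by
    intro E hEn hEN
    by_cases e : E ≤ U
    · exact Or.inl e
    right
    obtain ⟨x, hx, hxU, hx2, hxc⟩ := exists_central_mod_normal hS E U e
    obtain ⟨xu, xg⟩ := (mN x).1 (hEN hx)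
    obtain ⟨v, hv, g't, g'g, g'a, g'c⟩ := uniq x xu hxU hx2 hxc
    have g'T : v * x ∈ T := T.mul_mem (hUT hv) ((mT x).2 xu)
    have e1 : g * (v * x) ∈ U := by
      have e2 := h.centW ((mT _).1 (T.mul_mem gT g'T)) (commutatorElement_eq_one_iff_mul_comm.1 (by
        rw [comm_mul, g'a, ga, h.cz, h.zz])) (Commute.mul_left gt g't)
      refine ((h.mW _).1 e2).resolve_right fun e3 => noE a h.au h.aU h.aa fun s => ?_
      have e4 : ⁅a * (g * (v * x)), s⁆ ∈ U :=
        commutator_symm_mem (U.mul_mem (hUn.conj_mem _ e3 s) (U.inv_mem e3))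
      rw [comm_mul, comm_mul] at e4
      exact (mul_mem_cancel_left (hUn.conj_mem _ (U.mul_mem (hUn.conj_mem _ (g'c s) g) (gc s)) a)).1 e4
    have zE : z ∈ E := by
      rw [mul_assoc, ← mul_assoc x, h.comU xu v hv, mul_assoc, ← mul_assoc, h.hU2 v hv, one_mul] at g'g
      exact g'g ▸ E.mul_mem hx hx
    have e5 : ⁅y, g⁆ ∈ E := by
      have f1 : ⁅g * (v * x), y⁆ = 1 :=
        commutatorElement_eq_one_iff_mul_comm.2 (h.comU hyu _ e1).symm
      have f2 : ⁅v, y⁆ = 1 := commutatorElement_eq_one_iff_mul_comm.2 (h.comU hyu _ hv).symm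
      rw [comm_mul, comm_mul, f2, mul_one] at f1
      rw [← commutatorElement_inv, ← eq_inv_of_mul_eq_one_left f1]
      exact hEn.conj_mem _ (hEn.conj_mem _ (commutator_symm_mem
        (E.mul_mem (hEn.conj_mem x hx y) (E.inv_mem hx))) v) g
    have uE : u ∈ E := by
      rcases yg with f | f <;> rw [f] at e5
      exacts [e5, (mul_mem_cancel_right zE).1 e5]
    have hUE : U ≤ E := fun w hw => by
      rcases (h.mU w).1 hw with rfl | rfl | rfl | rfl
      exacts [E.one_mem, zE, uE, E.mul_mem uE zE]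
    exact ⟨(mul_mem_cancel_right (E.mul_mem (hUE hv) hx)).1 (hUE e1), hUE⟩
  have core := rk_two_core hS h hUN (fun n hn => ((mN n).1 hn).1) ((mN g).2 ⟨(mT g).1 gT, rfl⟩)
    (fun n hn => ((mN n).1 hn).2) gg hC0 ρa ρρ gS dich noE8
  have c8 : Nat.card S ≤ 8 * Nat.card N₀ := by
    have j1 := card_le_mul_cent (H := T) (W := U) (x := g) fun s _ => gS s
    have j2 : Nat.card ↥(centralizer {g} ⊓ T) ≤ Nat.card N₀ := card_le_of_le fun x hx =>
      (mN x).2 ⟨(mT x).1 hx.2, mem_centralizer_singleton_iff.1 hx.1⟩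
    rw [cU] at j1; omega
  refine rk_add (a := 2) (b := 2) (le_top.trans (normalizer_eq_top N₀).ge) le_top core
    fun N H h1 _ _ h4 => ?_
  have j1 := card_le_of_le h1
  by_cases e : H = ⊤
  · have j2 := two_mul_le_of_lt (lt_of_le_of_ne h1 fun e' => aN ((mul_mem_cancel_right
      (e'.ge (sq (y * t) ▸ h4 _ (e ▸ mem_top _)))).1 (hUN ρρ)))
    rw [e, card_top]; omega
  · have j2 := two_mul_le_of_lt (lt_top_iff_ne_top.2 e)
    rw [card_top] at j2; omega

theorem caseI' [Finite S] (hS : IsPGroup 2 S) [hUn : U.Normal]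
    (hc : ∀ y, y * u = u * y → y * a = a * y → y ∈ U ⊔ zpowers a) : Rk 4 (⊤ : Subgroup S) :=
  caseI hS h.cU h.hU2 h.aa h.aU (h.comU h.au) fun x hx e => by
    rcases (h.mW x).1 (hc x (hx u h.uU) e) with e' | e'
    · exact Or.inl e'
    · exact Or.inr (e ▸ e')

end Cfg

theorem harada [Finite S] (hS : IsPGroup 2 S) {A : Subgroup S} (hA2 : ∀ x ∈ A, x * x = 1)
    (cA : Nat.card A = 8) (hC : ∀ x, (∀ v ∈ A, x * v = v * x) → x ∈ A) : Rk 4 (⊤ : Subgroup S) := by
  have : Fact (Nat.Prime 2) := ⟨Nat.prime_two⟩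
  have caseU : ∀ U : Subgroup S, U.Normal → Nat.card U = 4 → U ≤ A → Rk 4 (⊤ : Subgroup S) := by
    intro U hUn cU hUA
    obtain ⟨t, ht, htU⟩ := SetLike.not_le_iff_exists.1
      (fun e => by have := card_le_of_le e; omega : ¬ A ≤ U)
    refine caseI hS cU (fun x hx => hA2 x (hUA hx)) (hA2 t ht) htU
      (fun x hx => comm_of_sq hA2 ht (hUA hx)) fun x hx e => ?_
    have hxA : x ∈ A := hC x fun v hv => by
      by_cases e1 : v ∈ U
      · exact hx v e1
      · have := hx _ (mul_mem_of_card hUA (by omega) ht hv htU e1)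
        rw [← mul_assoc, e, mul_assoc, mul_assoc] at this
        exact mul_left_cancel this
    by_cases e1 : x ∈ U
    · exact Or.inl e1
    · exact Or.inr (mul_mem_of_card hUA (by omega) hxA ht e1 htU)
  have cfg : ∀ U : Subgroup S, U.Normal → Nat.card U = 4 → (∀ x ∈ U, x * x = 1) → ¬ U ≤ A →
      ∃ z u a t, Cfg U z u a t := by
    intro U hUn cU hU2 hUA
    obtain ⟨z, u, hz, z1, u1, uz, mU, hu⟩ := four_struct hS cU hU2
    have zA : z ∈ A := hC z fun v _ => (hz v).symm
    have uA : u ∉ A := fun e => hUA fun v hv => by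
      rcases (mU v).1 hv with rfl | rfl | rfl | rfl
      exacts [A.one_mem, zA, e, A.mul_mem e zA]
    obtain ⟨t, ht, htu⟩ : ∃ t ∈ A, u * t ≠ t * u := by
      by_contra e; push Not at e; exact uA (hC u e)
    have tu : t * u * t⁻¹ = u * z :=
      (hu t).resolve_left fun e => htu (mul_inv_eq_iff_eq_mul.1 e).symm
    set A₀ := centralizer (U : Set S) ⊓ A with hA₀
    have c1 : Nat.card A ≤ 2 * Nat.card A₀ := card_le_inf (card_le_two_cent hS cU hU2) A
    have uU : u ∈ U := (mU u).2 (by simp)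
    have c2 := two_mul_le_of_lt (lt_of_le_of_ne inf_le_right fun e =>
      htu (mem_centralizer_iff.1 (e.ge ht).1 u uU) : A₀ < A)
    have mT : ∀ x, x * u = u * x → x ∈ centralizer (U : Set S) := fun x e =>
      mem_centralizer_iff.2 fun v hv => by
        rcases (mU v).1 hv with rfl | rfl | rfl | rfl
        · simp
        · exact (hz x).symm
        · exact e.symm
        · rw [mul_assoc, ← hz x, ← mul_assoc, ← e, mul_assoc]
    have hzz := hA2 z zA
    have hz2 : orderOf z = 2 := orderOf_eq_prime (by rw [sq, hzz]) z1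
    have hZ : zpowers z ≤ A₀ := zpowers_le.2 ⟨mT z (hz u).symm, zA⟩
    have cZ : Nat.card (zpowers z) = 2 := by rw [Nat.card_zpowers, hz2]
    obtain ⟨a, ha, haz⟩ := SetLike.not_le_iff_exists.1
      (fun e => by have := card_le_of_le e; omega : ¬ A₀ ≤ zpowers z)
    have au : a * u = u * a := (mem_centralizer_iff.1 ha.1 u uU).symm
    refine ⟨z, u, a, t, hz, z1, u1, uz, cU, hU2, mU, hu, hA2 t ht, tu, hA2 a ha.2, au,
      comm_of_sq hA2 ht ha.2, fun e => ?_, fun x xu xa xt => ?_⟩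
    · rcases (mU a).1 e with rfl | rfl | rfl | rfl
      exacts [haz (one_mem _), haz (mem_zpowers _), uA ha.2, uA ((mul_mem_cancel_right zA).1 ha.2)]
    have m0 : ∀ w ∈ A₀, w = 1 ∨ w = z ∨ w = a ∨ w = a * z := fun w hw => by
      by_cases e : w ∈ zpowers z
      · rcases eq_one_or_eq_of_mem_zpowers_two hz2 e with e | e <;> simp [e]
      · rcases eq_one_or_eq_of_mem_zpowers_two hz2 (mul_mem_of_card hZ (by omega) ha hw haz e) with e | e
        · exact Or.inr (Or.inr (Or.inl (mul_left_cancel (e.trans (hA2 a ha.2).symm))))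
        · exact Or.inr (Or.inr (Or.inr (by rw [← e, ← mul_assoc, hA2 a ha.2, one_mul])))
    have x0 : ∀ w ∈ A₀, x * w = w * x := fun w hw => by
      rcases m0 w hw with rfl | rfl | rfl | rfl
      · simp
      · exact hz x
      · exact xa
      · exact Commute.mul_right xa (hz x)
    refine m0 x ⟨mT x xu, hC x fun v hv => ?_⟩
    by_cases e1 : v ∈ A₀
    · exact x0 v e1
    · have := x0 _ (mul_mem_of_card inf_le_right (by omega) ht hv
        (fun e => htu (mem_centralizer_iff.1 e.1 u uU)) e1)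
      rw [← mul_assoc, xt, mul_assoc, mul_assoc] at this
      exact mul_left_cancel this
  by_cases hW : ∃ W : Subgroup S, W.Normal ∧ (∀ x ∈ W, x * x = 1) ∧ 4 < Nat.card W
  · obtain ⟨W', hW'n, hW'2, c'⟩ := hW
    obtain ⟨W, hWn, hWW, cW⟩ := exists_normal_le_card_eq hS W' 3 (by
      have := two_mul_le_of_pow' hS (k := 2) (K := ⊥) (H := W') (by rw [card_bot]; omega)
      rw [card_bot] at this; omega)
    have hW2 : ∀ x ∈ W, x * x = 1 := fun x hx => hW'2 x (hWW hx)
    obtain ⟨U, hUn, hUW, cU⟩ := exists_normal_le_card_eq hS W 2 (by omega)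
    by_cases hUA : U ≤ A
    · exact caseU U hUn cU hUA
    obtain ⟨z, u, a₀, t, h₀⟩ := cfg U hUn cU (fun x hx => hW2 x (hUW hx)) hUA
    obtain ⟨a, haW, h⟩ : ∃ a ∈ W, Cfg U z u a t := by
      by_cases e : a₀ ∈ W
      · exact ⟨a₀, e, h₀⟩
      · exact h₀.swap hS hUW cW hW2 e
    by_cases hc : ∀ y, y * u = u * y → y * a = a * y → y ∈ U ⊔ zpowers a
    swap
    · push Not at hc
      obtain ⟨y, y1, y2, y3⟩ := hc
      have hWa : ∀ g : S, ⁅g, a⁆ ∈ U := fun g =>
        mul_mem_of_card hUW (by omega) (hWn.conj_mem a haW g) (W.inv_mem haW)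
          (fun e => h.aU (by simpa [mul_assoc] using hUn.conj_mem _ e g⁻¹)) fun e => h.aU (inv_mem_iff.1 e)
      by_cases hw : ∀ w : S, ⁅w, a⁆ = 1
      swap
      · push Not at hw
        obtain ⟨w, hw⟩ := hw
        exact h.caseA hS hWa y1 y2 y3 hw
      have ac : ∀ w : S, w * a = a * w := fun w => commutatorElement_eq_one_iff_mul_comm.1 (hw w)
      have hz2 : orderOf z = 2 := orderOf_eq_prime (by rw [sq, h.zz]) h.z1
      have hZn : (zpowers z).Normal := normal_of_le_center (zpowers_le.2 (mem_center_iff.2 h.zc))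
      have hle : zpowers z ⊔ zpowers a ≤ center S :=
        sup_le (zpowers_le.2 (mem_center_iff.2 h.zc)) (zpowers_le.2 (mem_center_iff.2 ac))
      refine caseU _ (normal_of_le_center hle) ?_ fun x hx => hC x fun v _ => (mem_center_iff.1 (hle hx) v).symm
      rw [card_sup_zpowers Nat.prime_two (mem_normalizer_of_normal _ a) (by rw [sq, h.aa]; exact one_mem _)
        fun e => h.aU (zpowers_le.2 h.zU e), Nat.card_zpowers, hz2]
    · exact h.caseI' hS hc
  push Not at hW
  by_cases hcyc : ∀ B : Subgroup S, B.Normal → IsMulCommutative B → IsCyclic B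
  · by_cases hnc : IsCyclic S
    · obtain ⟨x, hx⟩ := isCyclic_iff_exists_zpowers_eq_top.1 hnc
      exact (hx ▸ rk_zpowers x).le (by norm_num)
    · obtain ⟨a, b, m, -, hmc⟩ := mc_of_normal_abelian_cyclic hS hcyc hnc
      exact (rk_mc hmc).le (by norm_num)
  push Not at hcyc
  obtain ⟨B, hBn, hBc, hBnc⟩ := hcyc
  have hc := isMulCommutative_iff_forall.1 hBc
  have hn : (invs B hc 1).Normal := invs_normal (by simp)
  have h2 : ∀ x ∈ invs B hc 1, x * x = 1 := fun x hx => by
    have := hx.2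
    rw [one_mul, inv_one, mul_one] at this
    nth_rewrite 1 [this]; group
  have c4 : Nat.card (invs B hc 1) = 4 := by
    have j1 := hW _ hn h2
    by_contra e
    have j2 := two_mul_le_of_pow hS (k := 2) (K := ⊥) (H := invs B hc 1) (by rw [card_bot]; omega)
    rw [card_bot] at j2
    refine hBnc (isCyclic_of_comm_of_forall_pow_mem (hS.to_subgroup B) hBc (hS.to_subgroup (invs B hc 1))
      ?_ fun x hx e => ⟨hx, by
        rw [sq] at e; simpa using (inv_eq_of_mul_eq_one_right e).symm⟩)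
    have hpos : 0 < Nat.card (invs B hc 1) := Nat.card_pos
    by_cases e1 : Nat.card (invs B hc 1) = 1
    · have := (Nat.card_eq_one_iff_unique.1 e1).1
      infer_instance
    · exact isCyclic_of_prime_card (p := 2) (by omega)
  by_cases hUA : invs B hc 1 ≤ A
  · exact caseU _ hn c4 hUA
  obtain ⟨z, u, a, t, h⟩ := cfg _ hn c4 h2 hUA
  by_cases hc' : ∀ y, y * u = u * y → y * a = a * y → y ∈ invs B hc 1 ⊔ zpowers a
  · exact h.caseI' hS hc'
  push Not at hc'
  obtain ⟨y, y1, y2, y3⟩ := hc'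
  exact h.caseB hS hW y1 y2 y3

end Cfsg.Agent.Isaacs.HR
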