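import Mathlib
import Cfsg.Agent.Isaacs.HR7

/-! A self-centralizing central product of two quaternion groups of order eight. -/

set_option autoImplicit false

namespace Cfsg.Agent.Isaacs.HR

open Subgroup Cfsg.Agent.PGrp
open _root_.Cfsg.Agent.LocalEven (cj mem_cj card_cj cj_eq_self_iff cj_le_iff' conj_mem_cj cj_mul cj_one)
open scoped Pointwise commutatorElement

variable {S : Type*} [Group S]

structure Q8 (K : Subgroup S) (z : S) : Prop where
  card : Nat.card K = 8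
  z1 : z ≠ 1
  zz : z * z = 1
  zK : z ∈ K
  ex : ∃ x ∈ K, x * x = z
  tri : ∀ x ∈ K, x = 1 ∨ x = z ∨ x * x = z
  nc : ∀ x ∈ K, x * x = z → ∃ y ∈ K, y * y = z ∧ y * x = x * y * z
  zc : ∀ x ∈ K, x * z = z * x
  gen : ∀ x ∈ K, ∀ y ∈ K, y * x = x * y * z → ∀ w ∈ K, w = 1 ∨ w = z ∨ w = x ∨ w = x * z ∨ w = y ∨
    w = y * z ∨ w = x * y ∨ w = x * y * z

theorem exists_q8 {K : Subgroup S} (e : K ≃* QuaternionGroup 2) : ∃ z, Q8 K z := by
  let f : QuaternionGroup 2 →* S := K.subtype.comp e.symm.toMonoidHom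
  have hf : Function.Injective f := K.subtype_injective.comp e.symm.injective
  have hm : ∀ x, f x ∈ K := fun x => (e.symm x).2
  have hs : ∀ x ∈ K, ∃ y, f y = x := fun x hx => ⟨e ⟨x, hx⟩, by simp [f]⟩
  refine ⟨f (.a 2), ?_, ?_, ?_, hm _, ⟨f (.a 1), hm _, ?_⟩, ?_, ?_, ?_, ?_⟩
  · rw [Nat.card_congr e.toEquiv, Nat.card_eq_fintype_card, QuaternionGroup.card]
  · rw [← map_one f, hf.ne_iff]; decide
  · rw [← map_mul, ← map_one f, hf.eq_iff]; decide
  · rw [← map_mul, hf.eq_iff]; decide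
  · intro x hx
    obtain ⟨x, rfl⟩ := hs x hx
    simp only [← map_mul, ← map_one f, hf.eq_iff]
    clear hx; revert x; decide
  · intro x hx h
    obtain ⟨x, rfl⟩ := hs x hx
    rw [← map_mul, hf.eq_iff] at h
    obtain ⟨y, h1, h2⟩ : ∃ y : QuaternionGroup 2, y * y = .a 2 ∧ y * x = x * y * .a 2 := by
      clear hx; revert x; decide
    exact ⟨f y, hm y, by rw [← map_mul, h1], by rw [← map_mul, h2, map_mul, map_mul]⟩
  · intro x hx
    obtain ⟨x, rfl⟩ := hs x hx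
    simp only [← map_mul, hf.eq_iff]
    clear hx; revert x; decide
  · intro x hx y hy h w hw
    obtain ⟨x, rfl⟩ := hs x hx
    obtain ⟨y, rfl⟩ := hs y hy
    obtain ⟨w, rfl⟩ := hs w hw
    simp only [← map_mul, ← map_one f, hf.eq_iff] at h ⊢
    clear hx hy hw; revert x y w; decide

theorem Q8.le {K M : Subgroup S} {z x y : S} (h : Q8 K z) (hx : x ∈ K) (hy : y ∈ K) (e : y * x = x * y * z)
    (f : S →* S) (h1 : f x ∈ M) (h2 : f y ∈ M) (h3 : f z ∈ M) : ∀ w ∈ K, f w ∈ M := fun w hw => by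
  rcases h.gen x hx y hy e w hw with r | r | r | r | r | r | r | r <;> rw [r]
  · rw [map_one]; exact M.one_mem
  · exact h3
  · exact h1
  · rw [map_mul]; exact M.mul_mem h1 h3
  · exact h2
  · rw [map_mul]; exact M.mul_mem h2 h3
  · rw [map_mul]; exact M.mul_mem h1 h2
  · rw [map_mul, map_mul]; exact M.mul_mem (M.mul_mem h1 h2) h3

theorem elem_sup [Finite S] {U : Subgroup S} {t : S} (hU2 : ∀ x ∈ U, x * x = 1) (tt : t * t = 1)
    (tc : ∀ v ∈ U, t * v = v * t) (tU : t ∉ U) :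
    Nat.card ↥(U ⊔ zpowers t) = Nat.card U * 2 ∧ (∀ x ∈ U ⊔ zpowers t, x * x = 1) := by
  have hn : t ∈ normalizer (U : Set S) := mem_normalizer_of_conj_mem fun v hv => by
    rw [tc v hv, mul_inv_cancel_right]; exact hv
  refine ⟨card_sup_zpowers Nat.prime_two hn (by rw [sq, tt]; exact U.one_mem) tU, fun x hx => ?_⟩
  obtain ⟨v, hv, k, rfl⟩ := (mem_sup_zpowers hn).1 hx
  have c : Commute v (t ^ k) := (Commute.zpow_right (tc v hv).symm k)
  rw [← sq, c.mul_pow, sq, hU2 v hv, one_mul, ← zpow_natCast, ← zpow_mul, mul_comm, zpow_mul, zpow_natCast,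
    sq, tt, one_zpow]

theorem comm_sup {U : Subgroup S} {t y : S} (h1 : ∀ v ∈ U, y * v = v * y) (h2 : y * t = t * y) :
    ∀ x ∈ U ⊔ zpowers t, y * x = x * y := fun _ hx =>
  (mem_centralizer_singleton_iff.1 ((sup_le (fun v hv => mem_centralizer_singleton_iff.2 (h1 v hv).symm)
    (zpowers_le.2 (mem_centralizer_singleton_iff.2 h2.symm)) : U ⊔ zpowers t ≤ centralizer {y}) hx)).symm

theorem q8q8 [Finite S] (hS : IsPGroup 2 S) {Q Q₁ Q₂ : Subgroup S} {z : S} (h₁ : Q8 Q₁ z) (h₂ : Q8 Q₂ z)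
    (hc : ∀ a ∈ Q₁, ∀ b ∈ Q₂, a * b = b * a) (hQ : Q₁ ⊔ Q₂ = Q) (hC : centralizer (Q : Set S) ≤ Q) :
    Rk 4 (⊤ : Subgroup S) := by
  have : Fact (Nat.Prime 2) := ⟨Nat.prime_two⟩
  have zz := h₁.zz
  have hn : Q₂ ≤ normalizer (Q₁ : Set S) := fun b hb => mem_normalizer_of_conj_mem fun a ha => by
    rw [← hc a ha b hb]; simpa using ha
  have dec : ∀ x ∈ Q, ∃ a ∈ Q₁, ∃ b ∈ Q₂, a * b = x := fun x hx => (mem_sup_of_le_normalizer hn).1 (hQ ▸ hx)
  have l1 : Q₁ ≤ Q := hQ ▸ le_sup_left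
  have l2 : Q₂ ≤ Q := hQ ▸ le_sup_right
  have sqm : ∀ a ∈ Q₁, ∀ b ∈ Q₂, a * b * (a * b) = a * a * (b * b) := fun a ha b hb => by
    rw [mul_assoc, ← mul_assoc b, ← hc a ha b hb]; simp only [mul_assoc]
  have four : ∀ x ∈ Q, x * x ≠ 1 → x * x = z ∧ (x ∈ Q₁ ∨ x ∈ Q₂) := fun x hx e => by
    obtain ⟨a, ha, b, hb, rfl⟩ := dec x hx
    have e2 := sqm a ha b hb
    have t1 : a * a = 1 ∧ a ∈ Q₂ ∨ a * a = z := by
      rcases h₁.tri a ha with r | r | r
      exacts [Or.inl ⟨by rw [r, mul_one], r ▸ Q₂.one_mem⟩, Or.inl ⟨by rw [r, zz], r ▸ h₂.zK⟩, Or.inr r]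
    have t2 : b * b = 1 ∧ b ∈ Q₁ ∨ b * b = z := by
      rcases h₂.tri b hb with r | r | r
      exacts [Or.inl ⟨by rw [r, mul_one], r ▸ Q₁.one_mem⟩, Or.inl ⟨by rw [r, zz], r ▸ h₁.zK⟩, Or.inr r]
    rcases t1 with ⟨r, m⟩ | r <;> rcases t2 with ⟨r', m'⟩ | r'
    · exact absurd (by rw [e2, r, r', one_mul]) e
    · exact ⟨by rw [e2, r, r', one_mul], Or.inr (Q₂.mul_mem m hb)⟩
    · exact ⟨by rw [e2, r, r', mul_one], Or.inl (Q₁.mul_mem ha m')⟩
    · exact absurd (by rw [e2, r, r', zz]) e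
  have zQ : ∀ x ∈ Q, x * z = z * x := fun x hx => by
    obtain ⟨a, ha, b, hb, rfl⟩ := dec x hx
    exact Commute.mul_left (h₁.zc a ha) (h₂.zc b hb)
  have inter : ∀ x ∈ Q₁, x ∈ Q₂ → x = 1 ∨ x = z := fun x hx hx' => by
    rcases h₁.tri x hx with r | r | r
    · exact Or.inl r
    · exact Or.inr r
    · obtain ⟨y, hy, -, e⟩ := h₁.nc x hx r
      rw [hc y hy x hx', left_eq_mul] at e
      exact absurd e h₁.z1
  set N := normalizer (Q : Set S) with hN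
  have cfour : ∀ g ∈ N, ∀ x ∈ Q, x * x = z → g * z * g⁻¹ = z ∧ (g * x * g⁻¹ ∈ Q₁ ∨ g * x * g⁻¹ ∈ Q₂) := by
    intro g hg x hx e
    have e1 : g * x * g⁻¹ * (g * x * g⁻¹) = g * z * g⁻¹ := by rw [← e]; group
    have := four _ (conj_mem_of_mem_normalizer hg hx) (by rw [e1]; simpa using h₁.z1)
    exact ⟨e1 ▸ this.1, this.2⟩
  obtain ⟨i, hi, ii⟩ := h₁.ex
  obtain ⟨j, hj, jj, ij⟩ := h₁.nc i hi ii
  have gz : ∀ g ∈ N, g * z * g⁻¹ = z := fun g hg => (cfour g hg i (l1 hi) ii).1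
  have ncm : ∀ g x y : S, y * x = x * y * z → g * x * g⁻¹ * (g * y * g⁻¹) ≠ g * y * g⁻¹ * (g * x * g⁻¹) := by
    intro g x y e e'
    have : x * y = y * x := by
      have := congrArg (fun w => g⁻¹ * w * g) e'
      simpa [mul_assoc] using this
    rw [← this, left_eq_mul] at e
    exact h₁.z1 e
  have perm : ∀ g ∈ N, cj g Q₁ = Q₁ ∨ cj g Q₁ = Q₂ := fun g hg => by
    rcases (cfour g hg i (l1 hi) ii).2 with r | r <;> rcases (cfour g hg j (l1 hj) jj).2 with r' | r'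
    · exact Or.inl (eq_of_le_of_card_le (cj_le_iff'.2 (h₁.le hi hj ij (MulAut.conj g).toMonoidHom r r'
        (show g * z * g⁻¹ ∈ _ by rw [gz g hg]; exact h₁.zK))) (by rw [card_cj]))
    · exact absurd (hc _ r _ r') (ncm g i j ij)
    · exact absurd (hc _ r' _ r).symm (ncm g i j ij)
    · exact Or.inr (eq_of_le_of_card_le (cj_le_iff'.2 (h₁.le hi hj ij (MulAut.conj g).toMonoidHom r r'
        (show g * z * g⁻¹ ∈ _ by rw [gz g hg]; exact h₂.zK))) (by rw [card_cj, h₁.card, h₂.card]))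
  have hz2 : orderOf z = 2 := orderOf_eq_prime (by rw [sq, zz]) h₁.z1
  obtain ⟨i₁, hi₁, hi₁Z, hi₁c⟩ := exists_central_mod_of_nilpotent (P := N ⊓ normalizer (Q₁ : Set S))
    (M := Q₁) (N := zpowers z) (hS.to_subgroup _).isNilpotent (le_inf (l1.trans le_normalizer) le_normalizer)
    inf_le_right fun e => by
      have := card_le_of_le e
      rw [h₁.card, Nat.card_zpowers, hz2] at this; omega
  have ii₁ : i₁ * i₁ = z := ((h₁.tri i₁ hi₁).resolve_left fun e => hi₁Z (e ▸ one_mem _)).resolve_left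
    fun e => hi₁Z (e ▸ mem_zpowers _)
  have fix₁ : ∀ g ∈ N, cj g Q₁ = Q₁ → g * i₁ * g⁻¹ = i₁ ∨ g * i₁ * g⁻¹ = i₁ * z := fun g hg e => by
    rcases eq_one_or_eq_of_mem_zpowers_two hz2 (commutator_symm_mem (hi₁c g ⟨hg, cj_eq_self_iff.1 e⟩)) with r | r
    · left; exact mul_inv_eq_one.1 r
    · right; rw [h₁.zc i₁ hi₁, ← r, commutatorElement_def]; group
  obtain ⟨i₂, hi₂, ii₂, hmove⟩ : ∃ i₂ ∈ Q₂, i₂ * i₂ = z ∧ ∀ g ∈ N, cj g Q₁ = Q₂ →
      g * i₁ * g⁻¹ = i₂ ∨ g * i₁ * g⁻¹ = i₂ * z := by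
    by_cases e : ∃ s ∈ N, cj s Q₁ = Q₂
    · obtain ⟨s, hs, e⟩ := e
      refine ⟨s * i₁ * s⁻¹, e ▸ conj_mem_cj hi₁, by rw [← gz s hs, ← ii₁]; group, fun g hg e' => ?_⟩
      rcases fix₁ (s⁻¹ * g) (N.mul_mem (N.inv_mem hs) hg) (by
        rw [cj_mul, e', ← e, ← cj_mul, inv_mul_cancel, cj_one]) with r | r
      · left; nth_rewrite 2 [← r]; group
      · right; rw [← gz s hs, show s * i₁ * s⁻¹ * (s * z * s⁻¹) = s * (i₁ * z) * s⁻¹ by group, ← r]; group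
    · obtain ⟨x, hx, xx⟩ := h₂.ex
      exact ⟨x, hx, xx, fun g hg e' => absurd ⟨g, hg, e'⟩ e⟩
  obtain ⟨j₁, hj₁, jj₁, ij₁⟩ := h₁.nc i₁ hi₁ ii₁
  obtain ⟨j₂, hj₂, jj₂, ij₂⟩ := h₂.nc i₂ hi₂ ii₂
  have aQ : i₁ * j₂ ∈ Q := Q.mul_mem (l1 hi₁) (l2 hj₂)
  have bQ : j₁ * i₂ ∈ Q := Q.mul_mem (l1 hj₁) (l2 hi₂)
  have aa : i₁ * j₂ * (i₁ * j₂) = 1 := by rw [sqm _ hi₁ _ hj₂, ii₁, jj₂, zz]
  have bb : j₁ * i₂ * (j₁ * i₂) = 1 := by rw [sqm _ hj₁ _ hi₂, jj₁, ii₂, zz]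
  have aj₁ : i₁ * j₂ * j₁ = j₁ * z * (i₁ * j₂) := by
    rw [mul_assoc, ← hc _ hj₁ _ hj₂, mul_assoc j₁, ← zQ _ aQ, ← mul_assoc j₁, ← mul_assoc j₁, ij₁,
      mul_assoc _ z, ← zQ _ (l2 hj₂), mul_assoc _ (j₂ * z), mul_assoc j₂, zz, mul_one, mul_assoc]
  have ai₂ : i₁ * j₂ * i₂ = i₂ * z * (i₁ * j₂) := by
    rw [mul_assoc, ij₂, mul_assoc i₂ z, ← zQ _ aQ, ← mul_assoc i₂, ← mul_assoc i₂, ← hc _ hi₁ _ hi₂]
    simp only [mul_assoc]
  have ai₁ : i₁ * j₂ * i₁ = i₁ * (i₁ * j₂) := by rw [mul_assoc, ← hc _ hi₁ _ hj₂]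
  have aj₂ : i₁ * j₂ * j₂ = j₂ * (i₁ * j₂) := by rw [← mul_assoc j₂, ← hc _ hi₁ _ hj₂]
  have bi₁ : j₁ * i₂ * i₁ = i₁ * z * (j₁ * i₂) := by
    rw [mul_assoc, ← hc _ hi₁ _ hi₂, ← mul_assoc, ij₁, mul_assoc i₁ z, ← mul_assoc z, ← zQ _ (l1 hj₁)]
    simp only [mul_assoc]
  have ab : i₁ * j₂ * (j₁ * i₂) = j₁ * i₂ * (i₁ * j₂) := by
    rw [← mul_assoc, aj₁, mul_assoc _ _ i₂, ai₂, mul_assoc j₁ z, ← mul_assoc z, ← mul_assoc z,
      ← zQ _ (l2 hi₂), mul_assoc i₂ z z, zz, mul_one, mul_assoc]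
  generalize ha : i₁ * j₂ = a at *
  generalize hb : j₁ * i₂ = b at *
  have zc' : ∀ x ∈ Q, ∀ v ∈ zpowers z, x * v = v * x := fun x hx v hv => by
    rcases eq_one_or_eq_of_mem_zpowers_two hz2 hv with r | r <;> rw [r]
    exacts [by simp, zQ x hx]
  obtain ⟨c1, s1⟩ := elem_sup (U := zpowers z) (t := a) (fun x hx => by
    rcases eq_one_or_eq_of_mem_zpowers_two hz2 hx with r | r <;> simp [r, zz]) aa (zc' a aQ) fun e => by
      rw [← zc' _ (l1 hj₁) a e, mul_left_inj, left_eq_mul] at aj₁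
      exact h₁.z1 aj₁
  obtain ⟨c2, s2⟩ := elem_sup (t := b) s1 bb (comm_sup (zc' b bQ) ab.symm) fun e => by
    rw [← comm_sup (zc' _ (l1 hi₁)) ai₁.symm b e, mul_left_inj, left_eq_mul] at bi₁
    exact h₁.z1 bi₁
  rw [c1, Nat.card_zpowers, hz2] at c2
  set A := zpowers z ⊔ zpowers a ⊔ zpowers b with hA
  have zA : zpowers z ≤ A := le_sup_left.trans le_sup_left
  have aA : a ∈ A := mem_sup_left (mem_sup_right (mem_zpowers a))
  have bA : b ∈ A := mem_sup_right (mem_zpowers b)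
  have AQ : A ≤ Q := sup_le (sup_le (zpowers_le.2 (l1 h₁.zK)) (zpowers_le.2 aQ)) (zpowers_le.2 bQ)
  have fin : ∀ g ∈ N, g * i₁ = i₁ * g → g * j₁ = j₁ * g → g * i₂ = i₂ * g → g * j₂ = j₂ * g → g ∈ A := by
    intro g hg e1 e2 e3 e4
    have ez : z ∈ centralizer ({g} : Set S) :=
      mem_centralizer_singleton_iff.2 (mul_inv_eq_iff_eq_mul.1 (gz g hg)).symm
    have g1 := h₁.le hi₁ hj₁ ij₁ (MonoidHom.id S) (mem_centralizer_singleton_iff.2 e1.symm)
      (mem_centralizer_singleton_iff.2 e2.symm) ez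
    have g2 := h₂.le hi₂ hj₂ ij₂ (MonoidHom.id S) (mem_centralizer_singleton_iff.2 e3.symm)
      (mem_centralizer_singleton_iff.2 e4.symm) ez
    have g3 : g ∈ Q := hC (mem_centralizer_iff.2 fun x hx => mem_centralizer_singleton_iff.1
      ((hQ.ge.trans (sup_le g1 g2) : Q ≤ centralizer {g}) hx))
    obtain ⟨x, hx, y, hy, rfl⟩ := dec g g3
    refine zA (mul_mem ?_ ?_)
    · rcases h₁.tri x hx with r | r | r
      exacts [r ▸ one_mem _, r ▸ mem_zpowers _, by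
        obtain ⟨w, hw, -, e⟩ := h₁.nc x hx r
        have := mem_centralizer_singleton_iff.1 (g1 w hw)
        rw [MonoidHom.id_apply, mul_assoc x, ← hc w hw y hy, ← mul_assoc, ← mul_assoc, mul_left_inj, e,
          mul_eq_left] at this
        exact absurd this h₁.z1]
    · rcases h₂.tri y hy with r | r | r
      exacts [r ▸ one_mem _, r ▸ mem_zpowers _, by
        obtain ⟨w, hw, -, e⟩ := h₂.nc y hy r
        have := mem_centralizer_singleton_iff.1 (g2 w hw)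
        rw [MonoidHom.id_apply, ← mul_assoc, ← hc x hx w hw, mul_assoc, mul_assoc, mul_right_inj, e,
          mul_eq_left] at this
        exact absurd this h₁.z1]
  have step : ∀ g ∈ N, g * a = a * g → g * b = b * g → cj g Q₁ = Q₁ → g * i₁ = i₁ * g → g ∈ A := by
    intro g hg e1 e2 e3 e4
    have f1 : g * j₂ = j₂ * g := by
      rw [← ha, ← mul_assoc, e4, mul_assoc, mul_assoc] at e1
      exact mul_left_cancel e1
    have f2 : g * j₁ * g⁻¹ ∈ Q₁ := e3 ▸ conj_mem_cj hj₁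
    have f3 : g * i₂ * g⁻¹ = (g * j₁ * g⁻¹)⁻¹ * j₁ * i₂ := by
      rw [mul_assoc _ j₁, hb, ← mul_inv_cancel_right b g, ← e2, ← hb]; group
    have f4 := Q₁.mul_mem (Q₁.inv_mem f2) hj₁
    rcases (cfour g hg i₂ (l2 hi₂) ii₂).2 with r | r
    · rw [f3, mul_mem_cancel_left f4] at r
      rcases inter _ r hi₂ with r | r <;> rw [r] at ii₂
      · exact absurd (by simpa using ii₂.symm) h₁.z1
      · exact absurd (ii₂.symm.trans zz) h₁.z1
    rw [f3, mul_mem_cancel_right hi₂] at r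
    rcases inter _ f4 r with r | r <;> rw [r] at f3
    · refine fin g hg e4 ?_ ?_ f1
      · rw [← mul_inv_eq_iff_eq_mul]; exact inv_mul_eq_one.1 r
      · rw [← mul_inv_eq_iff_eq_mul, f3, one_mul]
    · have r1 : g * j₁ = j₁ * z * g := by
        rw [← mul_inv_eq_iff_eq_mul, ← mul_left_inj z, mul_assoc j₁, zz, mul_one, ← r]; group
      have r2 : g * i₂ = i₂ * z * g := by rw [← mul_inv_eq_iff_eq_mul, f3, zQ _ (l2 hi₂)]
      refine (mul_mem_cancel_left aA).1 (fin _ (N.mul_mem (le_normalizer aQ) hg)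
        (Commute.mul_left ai₁ e4) ?_ ?_ (Commute.mul_left aj₂ f1))
      · rw [mul_assoc, r1, ← mul_assoc, ← mul_assoc, aj₁, mul_assoc _ a z, zQ a aQ, mul_assoc j₁ z,
          ← mul_assoc z, zz, one_mul, mul_assoc]
      · rw [mul_assoc, r2, ← mul_assoc, ← mul_assoc, ai₂, mul_assoc _ a z, zQ a aQ, mul_assoc i₂ z,
          ← mul_assoc z, zz, one_mul, mul_assoc]
  have key : ∀ g ∈ N, g * a = a * g → g * b = b * g → g ∈ A := by
    intro g hg e1 e2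
    rcases perm g hg with e3 | e3
    · rcases fix₁ g hg e3 with r | r
      · exact step g hg e1 e2 e3 (mul_inv_eq_iff_eq_mul.1 r)
      · refine (mul_mem_cancel_left bA).1 (step _ (N.mul_mem (le_normalizer bQ) hg)
          (Commute.mul_left ab.symm e1) (Commute.mul_left (Commute.refl b) e2) ?_ ?_)
        · rw [cj_mul, e3]
          exact cj_eq_self_iff.2 ((hQ.ge.trans (sup_le le_normalizer hn)) bQ)
        · rw [mul_assoc, mul_inv_eq_iff_eq_mul.1 r, ← mul_assoc, ← mul_assoc, bi₁, mul_assoc _ b z, zQ b bQ,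
            mul_assoc i₁ z, ← mul_assoc z, zz, one_mul, mul_assoc]
    · exfalso
      have f1 : g * i₁ * g⁻¹ ∈ Q₂ := e3 ▸ conj_mem_cj hi₁
      have f2 : Commute (g * i₁ * g⁻¹) i₂ := by
        rcases hmove g hg e3 with r | r <;> rw [r]
        exact Commute.mul_left (Commute.refl _) (zQ _ (l2 hi₂)).symm
      have f3 : g * j₂ * g⁻¹ = i₁ * ((g * i₁ * g⁻¹)⁻¹ * j₂) := by
        rw [← mul_assoc i₁, hc _ hi₁ _ (Q₂.inv_mem f1), mul_assoc _ i₁, ha, ← mul_inv_cancel_right a g, ← e1,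
          ← ha]; group
      have f4 := Q₂.mul_mem (Q₂.inv_mem f1) hj₂
      have f5 : Commute ((g * i₁ * g⁻¹)⁻¹ * j₂) i₂ → False := fun c => by
        have := f2.mul_left c
        rw [mul_inv_cancel_left] at this
        rw [this.eq, left_eq_mul] at ij₂
        exact h₁.z1 ij₂
      rcases h₂.tri _ f4 with r | r | r
      · exact f5 (r ▸ Commute.one_left _)
      · exact f5 (r ▸ (zQ _ (l2 hi₂)).symm)
      · have := sqm _ hi₁ _ f4
        rw [← f3, r, ii₁, zz, show g * j₂ * g⁻¹ * (g * j₂ * g⁻¹) = g * (j₂ * j₂) * g⁻¹ by group, jj₂,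
          gz g hg] at this
        exact h₁.z1 this
  refine harada hS s2 c2 fun x hx => ?_
  by_contra hxA
  have QA : Q ≤ normalizer (A : Set S) := fun q hq => mem_normalizer_of_conj_mem fun v hv => by
    have : q * v * q⁻¹ = ⁅q, v⁆ * v := by rw [commutatorElement_def]; group
    rw [this]
    refine A.mul_mem (zA (comm_mem (H := Q) (fun y hy => ?_) hq (AQ hv))) hv
    by_cases e : y * y = 1
    · rw [sq, e]; exact one_mem _
    · rw [sq, (four y hy e).1]; exact mem_zpowers z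
  obtain ⟨k, hk, hkA, hkc⟩ := exists_central_mod_of_nilpotent (P := Q ⊔ centralizer (A : Set S))
    (M := centralizer (A : Set S)) (N := A) (hS.to_subgroup _).isNilpotent le_sup_right
    (sup_le (LocalEven.le_normalizer_centralizer QA) le_normalizer)
    fun e => hxA (e (mem_centralizer_iff.2 fun v hv => (hx v hv).symm))
  refine hkA (key k (mem_normalizer_of_conj_mem fun q hq => ?_) (mem_centralizer_iff.1 hk a aA).symm
    (mem_centralizer_iff.1 hk b bA).symm)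
  have : k * q * k⁻¹ = ⁅k, q⁆ * q := by rw [commutatorElement_def]; group
  rw [this]
  exact Q.mul_mem (AQ (hkc q (mem_sup_left hq))) hq

end Cfsg.Agent.Isaacs.HR
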