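import Mathlib
import Cfsg.Agent.Inv.Pairs
import Cfsg.Agent.Core.MinNormal
import Cfsg.Agent.PGrp.Basic
import Cfsg.Agent.S0205
import Cfsg.Agent.S0215

/-! Four-transitive groups whose four-point stabilizer has odd order (M. Hall). -/

set_option autoImplicit false

namespace Cfsg.Agent.Hall4

open Subgroup MulAction

def D4 {Ω : Type*} (a b c d : Ω) : Prop := a ≠ b ∧ a ≠ c ∧ a ≠ d ∧ b ≠ c ∧ b ≠ d ∧ c ≠ d

structure H4 (G Ω : Type*) [Group G] [MulAction G Ω] : Prop where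
  tr : ∀ {a b c d a' b' c' d' : Ω}, D4 a b c d → D4 a' b' c' d' →
    ∃ g : G, g • a = a' ∧ g • b = b' ∧ g • c = c' ∧ g • d = d'
  odd : ∀ {a b c d : Ω}, D4 a b c d → ∀ g : G, g • a = a → g • b = b → g • c = c → g • d = d → Odd (orderOf g)
  faith : ∀ g : G, (∀ x : Ω, g • x = x) → g = 1

variable {G Ω : Type*} [Group G] [MulAction G Ω] {a b c d p q p' q' x y z : Ω} {g s t : G}

theorem eq_one_of_odd (h : s * s = 1) (ho : Odd (orderOf s)) : s = 1 := by
  obtain ⟨m, hm⟩ := ho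
  have := pow_orderOf_eq_one s
  rwa [hm, pow_succ, pow_mul, sq, h, one_pow, one_mul] at this

theorem pow_smul_odd (h : g • g • x = x) {m : ℕ} (hm : Odd m) : g ^ m • x = g • x := by
  obtain ⟨k, rfl⟩ := hm
  have : (g ^ 2) ^ k • x = x := pow_mem (show g ^ 2 ∈ stabilizer G x by rw [mem_stabilizer_iff, sq, mul_smul, h]) k
  rw [pow_succ', pow_mul, mul_smul, this]

theorem pow_inv (h : Odd (orderOf (g * g))) : ∃ m, Odd m ∧ g ^ m * g ^ m = 1 :=
  ⟨_, h, by rw [← (Commute.refl g).mul_pow, pow_orderOf_eq_one]⟩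

theorem ss (h : s * s = 1) (x : Ω) : s • s • x = x := by rw [← mul_smul, h, one_smul]

theorem fix_of_comm (h : g * s = s * g) (e : s • x = x) : s • g • x = g • x := by
  rw [← mul_smul, ← h, mul_smul, e]

theorem fix_zpow {h : G} (hh : h ∈ zpowers g) (e : g • x = x) : h • x = x :=
  (zpowers_le.mpr (show g ∈ stabilizer G x from e)) hh

def Cen (s : G) (p q r : Ω) : Prop :=
  s * s = 1 ∧ s ≠ 1 ∧ s • p = p ∧ s • q = q ∧ s • r = r ∧ ∀ g : G, g • p = p → g • q = q → g • r = r → g * s = s * g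

namespace H4

variable (H : H4 G Ω)
include H

theorem fix3 (hs : s * s = 1) (D : D4 a b c d) (h1 : s • a = a) (h2 : s • b = b) (h3 : s • c = c) (h4 : s • d = d) :
    s = 1 := eq_one_of_odd hs (H.odd D s h1 h2 h3 h4)

theorem mk_inv (D : D4 a b c d) (h1 : g • g • a = a) (h2 : g • g • b = b) (h3 : g • g • c = c) (h4 : g • g • d = d) :
    ∃ s ∈ zpowers g, s * s = 1 ∧ ∀ x : Ω, g • g • x = x → s • x = g • x := by
  obtain ⟨m, hm, e⟩ := pow_inv (H.odd D (g * g) (by rwa [mul_smul]) (by rwa [mul_smul]) (by rwa [mul_smul])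
    (by rwa [mul_smul]))
  exact ⟨g ^ m, npow_mem_zpowers g m, e, fun x hx => pow_smul_odd hx hm⟩

theorem transport (hs : s * s = 1) (ht : t * t = 1) (D : D4 a b c d) (h1 : s • a = t • a) (h2 : s • b = t • b)
    (h3 : s • c = t • c) (h4 : s • d = t • d) :
    ∃ h ∈ zpowers (s * t), h * s * h⁻¹ = t ∧ ∀ x : Ω, s • x = t • x → h • x = x := by
  have k : ∀ x : Ω, s • x = t • x → (s * t) • x = x := fun x e => by rw [mul_smul, ← e, ss hs]
  obtain ⟨h, h5, h6⟩ := Inv.exists_conj_of_odd hs ht (H.odd D _ (k _ h1) (k _ h2) (k _ h3) (k _ h4))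
  exact ⟨h, h5, h6, fun x e => fix_zpow h5 (k x e)⟩

theorem conj (hs : s * s = 1) (ht : t * t = 1) (D : D4 p (s • p) p' (s • p')) (D' : D4 q (t • q) q' (t • q')) :
    ∃ g : G, g • p = q ∧ g • p' = q' ∧ g * s * g⁻¹ = t := by
  obtain ⟨g, h1, h2, h3, h4⟩ := H.tr D D'
  have k : ∀ x : Ω, (g * s * g⁻¹) • g • x = g • s • x := fun x => by simp [mul_smul]
  have e1 : (g * s * g⁻¹) • q = t • q := by rw [← h2, ← h1, k]
  have e3 : (g * s * g⁻¹) • q' = t • q' := by rw [← h4, ← h3, k]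
  obtain ⟨h, -, h5, h6⟩ := H.transport (s := g * s * g⁻¹) (by simp [mul_assoc, ← mul_assoc s, hs]) ht D' e1
    (by rw [ss ht, ← h2, k, ss hs, h1]) e3 (by rw [ss ht, ← h4, k, ss hs, h3])
  exact ⟨h * g, by rw [mul_smul, h1, h6 _ e1], by rw [mul_smul, h3, h6 _ e3], by rw [← h5]; group⟩

theorem exists_swap (D : D4 a b c d) : ∃ s : G, s * s = 1 ∧ s • a = a ∧ s • b = b ∧ s • c = d ∧ s • d = c := by
  obtain ⟨g, h1, h2, h3, h4⟩ := H.tr D (a' := a) (b' := b) (c' := d) (d' := c) (by unfold D4 at *; grind)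
  obtain ⟨s, -, e, k⟩ := H.mk_inv (g := g) D (by rw [h1, h1]) (by rw [h2, h2]) (by rw [h3, h4]) (by rw [h4, h3])
  exact ⟨s, e, by rw [k _ (by rw [h1, h1]), h1], by rw [k _ (by rw [h2, h2]), h2], by rw [k _ (by rw [h3, h4]), h3],
    by rw [k _ (by rw [h4, h3]), h4]⟩

theorem comm_inv (hs : s * s = 1) (D : D4 a b c d) (h1 : s • a = a) (h2 : s • b = b) (h3 : s • c = d) :
    ∃ t : G, t * t = 1 ∧ s * t = t * s ∧ t • a = b ∧ t • b = a ∧ t • c = c ∧ t • d = d := by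
  have h4 : s • d = c := by rw [← h3, ss hs]
  obtain ⟨u, hu, u1, u2, u3, u4⟩ := H.exists_swap (a := c) (b := d) (c := a) (d := b) (by unfold D4 at *; grind)
  have k1 : (s * u) • (s * u) • a = a := by simp [mul_smul, *]
  have k2 : (s * u) • (s * u) • b = b := by simp [mul_smul, *]
  have k3 : (s * u) • (s * u) • c = c := by simp [mul_smul, *]
  have k4 : (s * u) • (s * u) • d = d := by simp [mul_smul, *]
  obtain ⟨e, he, ee, k⟩ := H.mk_inv D k1 k2 k3 k4
  have h5 := Inv.inverts_of_mem_zpowers (Inv.inverts_mul_left hs hu) he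
  rw [inv_eq_of_mul_eq_one_right ee, mul_inv_eq_iff_eq_mul] at h5
  refine ⟨s * e, ?_, by rw [mul_assoc, h5], ?_, ?_, ?_, ?_⟩
  · rw [mul_assoc, ← mul_assoc e, ← h5, mul_assoc, ee, mul_one, hs]
  all_goals simp [mul_smul, k _ k1, k _ k2, k _ k3, k _ k4, *]

variable [Fintype Ω] [DecidableEq Ω]

theorem card_fix (hs : s * s = 1) (h1 : s ≠ 1) : (Finset.univ.filter fun x : Ω => s • x = x).card ≤ 3 := by
  by_contra! h
  obtain ⟨a, b, c, d, ha, hb, hc, hd, D⟩ := Finset.three_lt_card_iff.mp h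
  simp only [Finset.mem_filter, Finset.mem_univ, true_and] at ha hb hc hd
  exact h1 (H.fix3 hs D ha hb hc hd)

omit H in
theorem exists_out {n : ℕ} (hn : n < Fintype.card Ω) (S : Finset Ω) (h : S.card ≤ n) : ∃ x, x ∉ S := by
  by_contra! e
  rw [Finset.eq_univ_iff_forall.mpr e, Finset.card_univ] at h
  omega

omit H [Fintype Ω] [DecidableEq Ω] in
theorem reg (hs : s * s = 1) (hc : s * t = t * s) (h1 : s • p ≠ p) (h2 : t • p ≠ p) (h3 : s • t • p ≠ p) :
    D4 p (s • p) (t • p) (s • t • p) :=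
  ⟨h1.symm, h2.symm, h3.symm, fun e => h3 (by rw [← e, ss hs]), fun e => h2 (MulAction.injective s e).symm,
    fun e => h1 (MulAction.injective t (show t • s • p = t • p by rw [← mul_smul, ← hc, mul_smul]; exact e.symm))⟩

variable (hn : 7 < Fintype.card Ω)
include hn

theorem uniq (hs : s * s = 1) (ht : t * t = 1) (s1 : s ≠ 1) (t1 : t ≠ 1) (hc : s * t = t * s) (hab : a ≠ b)
    (sa : s • a = a) (sb : s • b = b) (ta : t • a = a) (tb : t • b = b) : s = t := by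
  by_contra hst
  have hst1 : s * t ≠ 1 := fun e => hst (mul_right_cancel (e.trans ht.symm))
  have sq : ∀ {u : G}, u * u = 1 → s * u = u * s → s * u * (s * u) = 1 := fun {u} h e => by
    rw [mul_assoc, ← mul_assoc u, ← e, mul_assoc, h, mul_one, hs]
  obtain ⟨q, hq⟩ := exists_out hn ((Finset.univ.filter fun x : Ω => s • x = x) ∪
      (Finset.univ.filter fun x : Ω => t • x = x) ∪ Finset.univ.filter fun x : Ω => (s * t) • x = x) (by
    have h1 := Finset.card_union_add_card_inter (Finset.univ.filter fun x : Ω => s • x = x)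
      (Finset.univ.filter fun x : Ω => t • x = x)
    have h2 : 2 ≤ ((Finset.univ.filter fun x : Ω => s • x = x) ∩ Finset.univ.filter fun x : Ω => t • x = x).card :=
      Finset.one_lt_card.mpr ⟨a, by simp [*], b, by simp [*], hab⟩
    have h3 := H.card_fix hs s1
    have h4 := H.card_fix ht t1
    have h5 := H.card_fix (sq ht hc) hst1
    exact (Finset.card_union_le _ _).trans (by omega))
  simp only [Finset.mem_union, Finset.mem_filter, Finset.mem_univ, true_and, not_or, mul_smul] at hq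
  have Dq := reg hs hc hq.1.1 hq.1.2 hq.2
  have D : D4 a b q (s • q) := ⟨hab, fun e => hq.1.1 (e ▸ sa), fun e => hq.1.1 (by
    rw [← e, ← ss hs q, ← e, sa]), fun e => hq.1.1 (e ▸ sb), fun e => hq.1.1 (by rw [← e, ← ss hs q, ← e, sb]), Dq.1⟩
  obtain ⟨u, hu, hsu, ua, ub, uc, ud⟩ := H.comm_inv hs D sa sb rfl
  have u1 : u ≠ 1 := by rintro rfl; exact hab (by rwa [one_smul] at ua)
  have su1 : s * u ≠ 1 := fun e => hab (by rw [← ua, ← ss hs (u • a), ← mul_smul s u, e, one_smul, sa])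
  obtain ⟨p, hp⟩ := exists_out hn (({a, b, q, s • q} : Finset Ω) ∪
      Finset.univ.filter fun x : Ω => (s * u) • x = x) ((Finset.card_union_le _ _).trans (by
    have h1 := H.card_fix (sq hu hsu) su1
    have h2 : ({a, b, q, s • q} : Finset Ω).card ≤ 4 := Finset.card_le_four
    omega))
  simp only [Finset.mem_union, Finset.mem_filter, Finset.mem_univ, true_and, not_or, mul_smul, Finset.mem_insert,
    Finset.mem_singleton] at hp
  obtain ⟨⟨p1, p2, p3, p4⟩, p5⟩ := hp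
  have sp : s • p ≠ p := fun e => by
    have e1 := fix_of_comm hsu.symm e
    refine s1 (H.fix3 hs (a := a) (b := b) (c := p) (d := u • p) ⟨hab, Ne.symm p1, fun f => p2 ?_, Ne.symm p2,
      fun f => p1 ?_, fun f => p5 (e1.trans f.symm)⟩ sa sb e e1)
    · rw [← ss hu p, ← f, ua]
    · rw [← ss hu p, ← f, ub]
  have up : u • p ≠ p := fun e => by
    have e1 := fix_of_comm hsu e
    refine u1 (H.fix3 hu (a := q) (b := s • q) (c := p) (d := s • p) ⟨Dq.1, Ne.symm p3, fun f => p4 ?_, Ne.symm p4,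
      fun f => p3 (MulAction.injective s f).symm, sp.symm⟩ uc ud e e1)
    rw [f, ss hs]
  obtain ⟨g, g1, g2, g3⟩ := H.conj hs hs (reg hs hsu sp up p5) Dq
  have gs : g * s = s * g := by rwa [mul_inv_eq_iff_eq_mul] at g3
  have k : ∀ x : Ω, (g * u * g⁻¹) • g • x = g • u • x := fun x => by simp [mul_smul]
  have c1 : ∀ x : Ω, s • g • x = g • s • x := fun x => by rw [← mul_smul, ← gs, mul_smul]
  have c2 : ∀ x : Ω, s • u • x = u • s • x := fun x => by rw [← mul_smul, hsu, mul_smul]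
  have c3 : ∀ x : Ω, s • t • x = t • s • x := fun x => by rw [← mul_smul, hc, mul_smul]
  obtain ⟨h, h1, h2, -⟩ := H.transport (s := g * u * g⁻¹) (by simp [mul_assoc, ← mul_assoc u, hu]) ht Dq
    (by rw [← g2, ← g1, k]) (by rw [← c3, ← g2, ← g1, c1, k, c1, c2]) (by rw [ss ht, ← g2, k, ss hu, g1])
    (by rw [← c3, ss ht, ← g2, c1, k, ← c2, ss hu, ← c1, g1])
  have hs' : h * s = s * h := by
    have : g * u * g⁻¹ * t ∈ centralizer {s} := mul_mem (mul_mem (mul_mem (mem_centralizer_singleton_iff.mpr gs)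
      (mem_centralizer_singleton_iff.mpr hsu.symm)) (inv_mem (mem_centralizer_singleton_iff.mpr gs)))
      (mem_centralizer_singleton_iff.mpr hc.symm)
    exact mem_centralizer_singleton_iff.mp (zpowers_le.mpr this h1)
  have f1 : ∀ x : Ω, s • x = x → s • (h * g)⁻¹ • x = (h * g)⁻¹ • x := fun x => fix_of_comm
    (mem_centralizer_singleton_iff.mp (inv_mem (mul_mem (mem_centralizer_singleton_iff.mpr hs')
      (mem_centralizer_singleton_iff.mpr gs))))
  have f2 : ∀ x : Ω, t • x = x → u • (h * g)⁻¹ • x = (h * g)⁻¹ • x := fun x e => by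
    rw [eq_inv_smul_iff, ← mul_smul, ← mul_smul]
    exact (congrArg (· • x) (by rw [← h2]; group)).trans e
  have f3 : ∀ x : Ω, u • x = x → a ≠ x ∧ b ≠ x := fun x e =>
    ⟨fun f => hab (by rw [← ua, f, e]), fun f => hab (by rw [← ub, f, e])⟩
  exact s1 (H.fix3 hs ⟨hab, (f3 _ (f2 a ta)).1, (f3 _ (f2 b tb)).1, (f3 _ (f2 a ta)).2, (f3 _ (f2 b tb)).2,
    fun e => hab (MulAction.injective _ e)⟩ sa sb (f1 a sa) (f1 b sb))

variable [Finite G]

theorem exists_ab (D : D4 a b c d) (hs : s * s = 1) (sa : s • a = a) (sb : s • b = b) (sc : s • c = d) :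
    ∃ A : Subgroup G, (∀ n ∈ A, n • a = a ∧ n • b = b ∧ Odd (orderOf n)) ∧ (∀ n ∈ A, ∀ m ∈ A, n * m = m * n) ∧
      (∀ g : G, g • a = a → g • b = b → ∀ n ∈ A, g * n * g⁻¹ ∈ A) ∧ ∃ n ∈ A, n ≠ 1 := by
  have s1 : s ≠ 1 := by rintro rfl; exact D.2.2.2.2.2 (by rwa [one_smul] at sc)
  let B : Subgroup G := stabilizer G a ⊓ stabilizer G b
  let u : B := ⟨s, sa, sb⟩
  have hu : orderOf u = 2 := orderOf_eq_prime (Subtype.ext (by rw [sq]; exact hs)) fun e => s1 (congrArg Subtype.val e)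
  obtain ⟨P, hP⟩ := (show IsPGroup 2 (zpowers u) from IsPGroup.of_card (n := 1) (by
    rw [Nat.card_zpowers, hu, pow_one])).exists_le_sylow
  have huP : u ∈ P := hP (mem_zpowers u)
  have : Nontrivial P := ⟨⟨⟨u, huP⟩, 1, fun e => s1 (congrArg (fun x : P => (x.1 : G)) e)⟩⟩
  obtain ⟨z, -, z1, z2⟩ := PGrp.exists_mem_center_orderOf_eq P.isPGroup' ⊤ top_ne_bot
  have key : ∀ v : B, v ∈ P → orderOf v = 2 → v = z.1 := fun v hv ho => by
    have e1 : ∀ w : B, orderOf w = 2 → (w : G) * w = 1 ∧ (w : G) ≠ 1 := fun w h =>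
      ⟨by rw [← sq, ← coe_pow, ← h, pow_orderOf_eq_one, coe_one], fun e => by
        rw [show w = 1 from Subtype.ext e, orderOf_one] at h; omega⟩
    have e2 := e1 z.1 (by rw [Subgroup.orderOf_coe, z2])
    exact Subtype.ext (H.uniq hn (e1 v ho).1 e2.1 (e1 v ho).2 e2.2
      (congrArg (fun x : P => (x.1 : G)) (mem_center_iff.mp z1 ⟨v, hv⟩)) D.1 v.2.1 v.2.2 z.1.2.1 z.1.2.2)
  obtain ⟨N, hN, ho, hc⟩ := S0215.result P u hu huP fun g hg =>
    (key _ hg (by rw [← hu, ← MulAut.conj_apply, MulEquiv.orderOf_eq])).trans (key u huP hu).symm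
  have hN1 : N ≠ ⊥ := by
    rintro rfl
    obtain ⟨e, he⟩ := exists_out hn {a, b, c, d} (Finset.card_le_four.trans (by norm_num))
    simp only [Finset.mem_insert, Finset.mem_singleton, not_or] at he
    obtain ⟨g, g1, g2, g3, g4⟩ := H.tr D (a' := a) (b' := b) (c' := c) (d' := e) (by unfold D4 at *; grind)
    have h1 : s * g * s⁻¹ * g⁻¹ = 1 := congrArg Subtype.val (mem_bot.mp (hc ⟨g, g1, g2⟩))
    rw [mul_inv_eq_one, mul_inv_eq_iff_eq_mul] at h1
    exact he.2.2.2 (by rw [← g4, ← sc, ← mul_smul, ← h1, mul_smul, g3])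
  obtain ⟨A, r, A1, A2, A3, -, A4, -⟩ := Core.exists_minimal_normal_elementary_le N (S0205.result ho) hN1
  refine ⟨A.map B.subtype, ?_, ?_, ?_, ?_⟩
  · rintro _ ⟨n, hn, rfl⟩
    exact ⟨n.2.1, n.2.2, by
      rw [coe_subtype, Subgroup.orderOf_coe]; exact ho.of_dvd_nat (N.orderOf_dvd_natCard (A3 hn))⟩
  · rintro _ ⟨n, hn, rfl⟩ _ ⟨m, hm, rfl⟩
    exact congrArg (fun x : A => (x.1 : G)) (A4.1.1.1 ⟨n, hn⟩ ⟨m, hm⟩)
  · rintro g g1 g2 _ ⟨n, hn, rfl⟩
    exact ⟨_, A1.conj_mem n hn ⟨g, g1, g2⟩, rfl⟩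
  · obtain ⟨n, hn, h1⟩ := (bot_or_exists_ne_one A).resolve_left A2
    exact ⟨n, ⟨n, hn, rfl⟩, fun e => h1 (Subtype.ext e)⟩

theorem exists_cen (D : D4 a b c d) : ∃ s : G, Cen s a b c := by
  obtain ⟨s, hs, sa, sb, sc, -⟩ := H.exists_swap D
  obtain ⟨A, A1, A2, A3, n₀, A4, A5⟩ := H.exists_ab hn D hs sa sb sc
  have htr : ∀ z : Ω, z ≠ a → z ≠ b → ∃ n ∈ A, n • c = z := fun z za zb => by
    by_cases zc : z = c
    · exact ⟨1, one_mem _, by rw [one_smul, zc]⟩
    obtain ⟨y, hy⟩ := not_forall.mp (mt (H.faith n₀) A5)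
    obtain ⟨n1, n2, -⟩ := A1 n₀ A4
    have Dy : D4 a b y (n₀ • y) := ⟨D.1, fun e => hy (e ▸ n1), fun e => hy (by
      rw [← MulAction.injective n₀ (n1.trans e), n1]), fun e => hy (e ▸ n2), fun e => hy (by
      rw [← MulAction.injective n₀ (n2.trans e), n2]), Ne.symm hy⟩
    obtain ⟨g, g1, g2, g3, g4⟩ := H.tr Dy (a' := a) (b' := b) (c' := c) (d' := z) (by unfold D4 at *; grind)
    exact ⟨_, A3 g g1 g2 n₀ A4, by rw [← g3, ← g4]; simp [mul_smul]⟩
  have ext : ∀ g : G, g • a = a → g • b = b → (∀ n ∈ A, g • n • c = n • c) → g = 1 := fun g g1 g2 h =>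
    H.faith g fun z => by
      by_cases za : z = a
      · rw [za, g1]
      by_cases zb : z = b
      · rw [zb, g2]
      obtain ⟨n, hn, rfl⟩ := htr z za zb
      exact h n hn
  obtain ⟨n, hnA, nc⟩ := htr d D.2.2.1.symm D.2.2.2.2.1.symm
  obtain ⟨na, nb, -⟩ := A1 n hnA
  have hee : s * n * (s * n) ∈ A := by
    have := mul_mem (A3 s sa sb n hnA) hnA
    rwa [inv_eq_of_mul_eq_one_right hs, mul_assoc] at this
  obtain ⟨m, hm, e⟩ := pow_inv (A1 _ hee).2.2
  have ea : (s * n) ^ m • a = a := fix_zpow (npow_mem_zpowers _ m) (by rw [mul_smul, na, sa])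
  have eb : (s * n) ^ m • b = b := fix_zpow (npow_mem_zpowers _ m) (by rw [mul_smul, nb, sb])
  have ec : (s * n) ^ m • c = c := fix_zpow (npow_mem_zpowers _ m) (by rw [mul_smul, nc, ← sc, ss hs])
  have e1 : (s * n) ^ m ≠ 1 := fun h => by
    obtain ⟨k, rfl⟩ := hm
    rw [pow_succ, pow_mul, sq, mul_eq_one_iff_inv_eq] at h
    have h1 : s ∈ A := (mul_mem_cancel_right hnA).mp (h ▸ inv_mem (pow_mem hee k))
    rw [eq_one_of_odd hs (A1 s h1).2.2, one_smul] at sc
    exact D.2.2.2.2.2 sc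
  generalize (s * n) ^ m = t at e ea eb ec e1
  have hi : t⁻¹ = t := inv_eq_of_mul_eq_one_right e
  have hinv : ∀ k ∈ A, t * k = k⁻¹ * t := fun k hk => by
    have h1 := A3 t ea eb k hk
    have h2 := mul_mem hk h1
    have h3 : k * (t * k * t⁻¹) * t = t * (k * (t * k * t⁻¹)) := by
      conv_rhs => rw [A2 k hk _ h1, hi, ← mul_assoc, ← mul_assoc, ← mul_assoc, e, one_mul]
      rw [hi, mul_assoc, mul_assoc, e, mul_one, mul_assoc]
    obtain ⟨ka, kb, -⟩ := A1 _ h2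
    have h4 : (k * (t * k * t⁻¹)) • c = c := by
      by_contra h5
      exact e1 (H.fix3 e ⟨D.1, D.2.1, fun f => D.2.1 (MulAction.injective _ (ka.trans f)), D.2.2.2.1,
        fun f => D.2.2.2.1 (MulAction.injective _ (kb.trans f)), Ne.symm h5⟩ ea eb ec (fix_of_comm h3 ec))
    have h5 := ext _ ka kb fun n hn => by rw [← mul_smul, A2 _ h2 n hn, mul_smul, h4]
    rw [mul_eq_one_iff_inv_eq] at h5
    rw [h5, inv_mul_cancel_right]
  refine ⟨t, e, e1, ea, eb, ec, fun g g1 g2 g3 => ?_⟩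
  symm
  rw [← inv_mul_eq_one]
  refine ext _ (by rw [mul_smul, inv_smul_eq_iff]; simp [mul_smul, *])
    (by rw [mul_smul, inv_smul_eq_iff]; simp [mul_smul, *]) fun k hk => ?_
  rw [mul_smul, inv_smul_eq_iff]
  have g4 : g⁻¹ • c = c := inv_smul_eq_iff.mpr g3.symm
  calc (g * t) • k • c = (g * k⁻¹) • t • c := by rw [← mul_smul, mul_assoc, hinv k hk, ← mul_assoc, mul_smul]
    _ = (g * k * g⁻¹)⁻¹ • t • c := by simp [mul_smul, ec, g4]
    _ = t • (g * k * g⁻¹) • c := by rw [← mul_smul, ← hinv _ (A3 g g1 g2 k hk), mul_smul]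
    _ = (t * g) • k • c := by simp [mul_smul, g4]

theorem eq_one (D : D4 a b c d) (ga : g • a = a) (gb : g • b = b) (gc : g • c = c) (gd : g • d = d) : g = 1 := by
  obtain ⟨s, hs, s1, sa, sb, sc, sg⟩ := H.exists_cen hn D
  let Φ : Ω → Prop := fun y => ∀ h : G, h • a = a → h • b = b → h • c = c → h • d = d → h • y = y
  have sd : s • d ≠ d := fun e => s1 (H.fix3 hs D sa sb sc e)
  have inj : ∀ {x y : Ω}, s • x = x → x ≠ y → x ≠ s • y := fun {x y} e f k => f (MulAction.injective s (e.trans k))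
  have Φ5 : Φ (s • d) := fun h h1 h2 h3 h4 => fix_of_comm (sg h h1 h2 h3).symm h4
  have mv : ∀ y, y ≠ a → y ≠ b → y ≠ c → s • y ≠ y := fun y y1 y2 y3 e =>
    s1 (H.fix3 hs ⟨D.1, D.2.1, y1.symm, D.2.2.2.1, y2.symm, y3.symm⟩ sa sb sc e)
  have dd : ∀ y, y ≠ a → y ≠ b → y ≠ c → y ≠ d → y ≠ s • d → D4 d (s • d) y (s • y) := fun y y1 y2 y3 y4 y5 =>
    ⟨sd.symm, y4.symm, fun e => y5 (by rw [e, ss hs]), y5.symm, fun e => y4 (MulAction.injective s e).symm,
      (mv y y1 y2 y3).symm⟩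
  obtain ⟨y, y1, y2, y3, y4, y5, hy⟩ : ∃ y, y ≠ a ∧ y ≠ b ∧ y ≠ c ∧ y ≠ d ∧ y ≠ s • d ∧ Φ y := by
    have D' : D4 c d (s • d) a := ⟨D.2.2.2.2.2, inj sc D.2.2.2.2.2, D.2.1.symm, sd.symm, D.2.2.1.symm,
      (inj sa D.2.2.1).symm⟩
    obtain ⟨t, ht, t1, tc, td, te, tg⟩ := H.exists_cen hn D'
    have ta : t • a ≠ a := fun e => t1 (H.fix3 ht D' tc td te e)
    have inj' : ∀ {x : Ω}, t • x = x → a ≠ x → t • a ≠ x := fun {x} e f k => f (MulAction.injective t (k.trans e.symm))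
    by_cases tb : t • a = b
    swap
    · exact ⟨t • a, ta, tb, inj' tc D.2.1, inj' td D.2.2.1, inj' te (inj sa D.2.2.1), fun h h1 h2 h3 h4 =>
        fix_of_comm (tg h h3 h4 (Φ5 h h1 h2 h3 h4)).symm h1⟩
    have tb' : t • b = a := by rw [← tb, ss ht]
    have D2 : D4 d (s • d) a b := ⟨sd.symm, D.2.2.1.symm, D.2.2.2.2.1.symm, (inj sa D.2.2.1).symm,
      (inj sb D.2.2.2.2.1).symm, D.1⟩
    have k1 : (s * t) • (s * t) • d = d := by simp [mul_smul, td, te, ss hs]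
    have k3 : (s * t) • (s * t) • a = a := by simp [mul_smul, tb, tb', sa, sb]
    obtain ⟨e, he, ee, k⟩ := H.mk_inv D2 k1 (by simp [mul_smul, td, te, ss hs]) k3 (by simp [mul_smul, tb, tb', sa, sb])
    have ed : e • d = s • d := by rw [k _ k1, mul_smul, td]
    have ea : e • a = b := by rw [k _ k3, mul_smul, tb, sb]
    have e1 : e ≠ 1 := by rintro rfl; exact D.1 (by rwa [one_smul] at ea)
    have ec : e • c = c := fix_zpow he (by rw [mul_smul, tc, sc])
    obtain ⟨w, hw⟩ := exists_out hn {a, b, c, d, s • d} (Finset.card_le_five.trans (by norm_num))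
    simp only [Finset.mem_insert, Finset.mem_singleton, not_or] at hw
    obtain ⟨g, -, -, g3⟩ := H.conj hs ee (dd w hw.1 hw.2.1 hw.2.2.1 hw.2.2.2.1 hw.2.2.2.2) (q := d) (q' := a)
      (by rw [ed, ea]; exact D2)
    have fe : ∀ x : Ω, s • x = x → e • g • x = g • x := fun x h => by rw [← g3]; simp [mul_smul, h]
    obtain ⟨y, yc, ey⟩ : ∃ y, y ≠ c ∧ e • y = y := by
      by_cases h : g • a = c
      · exact ⟨g • b, fun f => D.1 (MulAction.injective g (h.trans f.symm)), fe b sb⟩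
      · exact ⟨g • a, h, fe a sa⟩
    refine ⟨y, fun f => D.1 (by rw [← ea, ← f, ey]), fun f => D.1 (by rw [← ss ee a, ea, ← f, ey]), yc,
      fun f => sd (by rw [← ed, ← f, ey]), fun f => sd (f.symm.trans (by rw [← ss ee d, ed, ← f, ey])), fun h h1 h2 h3 h4 => ?_⟩
    have hc : h * e = e * h := (mem_centralizer_singleton_iff.mp (zpowers_le.mpr (mul_mem
      (mem_centralizer_singleton_iff.mpr (sg h h1 h2 h3).symm)
      (mem_centralizer_singleton_iff.mpr (tg h h3 h4 (Φ5 h h1 h2 h3 h4)).symm)) he)).symm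
    by_contra hy
    have ne : ∀ {x : Ω}, x ≠ c → c ≠ h • x := fun {x} f k => f (MulAction.injective h (h3.trans k)).symm
    have h5 : h • h • y = y := by
      by_contra h5
      exact e1 (H.fix3 ee ⟨yc.symm, ne yc, ne (ne yc).symm, Ne.symm hy, Ne.symm h5,
        fun f => hy (MulAction.injective h f).symm⟩ ec ey (fix_of_comm hc ey) (fix_of_comm hc (fix_of_comm hc ey)))
    have h6 := pow_smul_odd h5 (H.odd D h h1 h2 h3 h4)
    rw [pow_orderOf_eq_one, one_smul] at h6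
    exact hy h6.symm
  refine H.faith g fun z => ?_
  by_cases z1 : z = a
  · rw [z1, ga]
  by_cases z2 : z = b
  · rw [z2, gb]
  by_cases z3 : z = c
  · rw [z3, gc]
  by_cases z4 : z = d
  · rw [z4, gd]
  by_cases z5 : z = s • d
  · rw [z5, Φ5 g ga gb gc gd]
  obtain ⟨k, k1, k2, k3⟩ := H.conj hs hs (dd y y1 y2 y3 y4 y5) (dd z z1 z2 z3 z4 z5)
  rw [mul_inv_eq_iff_eq_mul] at k3
  have f : ∀ x : Ω, s • x = x → (k⁻¹ * g * k) • x = x := fun x e => by
    have h1 := fix_of_comm k3 e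
    have h2 : g • k • x = k • x := by
      by_contra h2
      exact mv _ (fun f => h2 (by rw [f, ga])) (fun f => h2 (by rw [f, gb])) (fun f => h2 (by rw [f, gc])) h1
    rw [mul_smul, mul_smul, h2, inv_smul_smul]
  have := hy _ (f a sa) (f b sb) (f c sc) (by rw [mul_smul, mul_smul, k1, gd, inv_smul_eq_iff, k1])
  rwa [mul_smul, mul_smul, k2, inv_smul_eq_iff, k2] at this

end H4

end Cfsg.Agent.Hall4
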