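import Mathlib
import Cfsg.Agent.Char.BrauerPerm

/-! Counting conjugacy classes of semidirect products through commuting pairs. -/

set_option autoImplicit false

namespace Cfsg.Agent.Isaacs

open Cfsg Cfsg.Agent.Char Subgroup Finset
open scoped Classical

theorem k_mul (N : Type*) [Group N] [Fintype N] :
    Nat.card (ConjClasses N) * Nat.card N = ∑ x : N, ∑ y : N, if x * y = y * x then 1 else 0 := by
  rw [← card_comm_eq_card_conjClasses_mul_card, Nat.card_eq_fintype_card, Fintype.card_subtype, card_filter,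
    Fintype.sum_prod_type]
  rfl

theorem k_congr {A B : Type*} [Group A] [Group B] [Finite A] (e : A ≃* B) :
    Nat.card (ConjClasses A) = Nat.card (ConjClasses B) := by
  have := Finite.of_equiv A e.toEquiv
  have := Fintype.ofFinite A
  have := Fintype.ofFinite B
  refine Nat.eq_of_mul_eq_mul_right (Nat.card_pos (α := A)) ?_
  rw [k_mul, Nat.card_congr e.toEquiv, k_mul]
  exact Fintype.sum_equiv e.toEquiv _ _ fun x => Fintype.sum_equiv e.toEquiv _ _ fun y => by
    simp [← map_mul]

variable {X : Type*} [Group X] [Fintype X] {V G : Subgroup X}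

theorem sum_compl' (h : IsComplement' V G) {M : Type*} [AddCommMonoid M] (f : X → M) :
    ∑ x, f x = ∑ a : G, ∑ u : V, f (u * a) := by
  rw [sum_comm, ← Fintype.sum_prod_type']
  exact (Fintype.sum_bijective _ h _ _ fun _ => rfl).symm

theorem k_mul_sub (H : Subgroup X) : Nat.card (ConjClasses H) * Nat.card H =
    ∑ x : H, ∑ y : H, if x.1 * y = y * x then 1 else 0 := by
  simp only [k_mul, Subtype.ext_iff, Subgroup.coe_mul]

theorem k_mul_compl (h : IsComplement' V G) : Nat.card (ConjClasses X) * (Nat.card V * Nat.card G) =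
    ∑ a : G, ∑ b : G, ∑ u : V, ∑ w : V, if u.1 * a * (w * b) = w * b * (u * a) then 1 else 0 := by
  rw [h.card_mul_card, k_mul, sum_compl' h]
  exact sum_congr rfl fun a _ => (sum_congr rfl fun u _ => sum_compl' h _).trans sum_comm

omit [Fintype X] in
theorem comm_of_compl [V.Normal] (h : Disjoint V G) {u w a b : X} (hu : u ∈ V) (hw : w ∈ V) (ha : a ∈ G) (hb : b ∈ G)
    (e : u * a * (w * b) = w * b * (u * a)) : a * b = b * a := by
  have := congrArg (QuotientGroup.mk (s := V)) e
  simp only [QuotientGroup.mk_mul, (QuotientGroup.eq_one_iff _).mpr hu, (QuotientGroup.eq_one_iff _).mpr hw, one_mul] at this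
  exact inv_mul_eq_one.mp (disjoint_def.mp h (QuotientGroup.eq.mp this)
    (mul_mem (inv_mem (mul_mem ha hb)) (mul_mem hb ha)))

theorem k_frob [hV : V.Normal] (h : IsComplement' V G) (hf : ∀ a ∈ G, a ≠ 1 → ∀ v ∈ V, a * v = v * a → v = 1) :
    Nat.card G * Nat.card (ConjClasses X) + 1 = Nat.card G * Nat.card (ConjClasses G) + Nat.card (ConjClasses V) := by
  have a : ∀ a b : G, a ≠ 1 → (∑ u : V, ∑ w : V, if u.1 * a * (w * b) = w * b * (u * a) then 1 else 0) =
      Nat.card V * if a.1 * b = b * a then 1 else 0 := fun a b i => by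
    rw [Nat.card_eq_fintype_card, ← card_univ, ← smul_eq_mul, ← sum_const]
    refine sum_congr rfl fun u _ => ?_
    have j := hf a a.2 (by simpa using i)
    obtain ⟨y, k, l⟩ := BrauerPerm.exists_conj_eq_mul_of_fpf V (fun n i => hV.conj_mem n i a) (fun n i e => j n i e.symm) u.2
    rw [sum_eq_single (⟨y * (b.1 * y⁻¹ * b.1⁻¹), mul_mem k (hV.conj_mem _ (inv_mem k) _)⟩ : V) (fun w _ o => if_neg fun e => o ?_)
      (by simp), ← l]
    · exact if_congr (by simp [← mul_assoc]; simp [mul_assoc]) rfl rfl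
    have c := comm_of_compl h.disjoint u.2 w.2 a.2 b.2 e
    have := j _ (mul_mem (mul_mem (inv_mem k) w.2) (hV.conj_mem _ k b)) (by
      rw [← l] at e
      calc _ = y⁻¹ * (y * a * y⁻¹ * (w * b)) * y * b.1⁻¹ := by group
        _ = y⁻¹ * w * b * y * (a * b.1⁻¹) := by rw [e]; group
        _ = _ := by rw [(show Commute a.1 b from c).inv_right.eq]; group)
    exact Subtype.ext (calc w.1 = y * (y⁻¹ * w * (b * y * b.1⁻¹)) * (b * y⁻¹ * b.1⁻¹) := by group
      _ = _ := by rw [this]; simp)
  refine Nat.eq_of_mul_eq_mul_left (Nat.card_pos (α := V)) ?_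
  rw [mul_add, mul_add, mul_comm (Nat.card G), mul_left_comm, k_mul_compl h, mul_comm (Nat.card G), k_mul_sub,
    mul_comm _ (Nat.card (ConjClasses V)), k_mul_sub, ← Fintype.sum_prod_type', ← Fintype.sum_prod_type' (α₁ := G),
    mul_sum, ← add_sum_erase _ _ (mem_univ 1), ← add_sum_erase (s := (univ : Finset (G × G))) _ (mem_univ 1),
    sum_congr rfl (g := fun p : G × G => Nat.card V * if p.1.1 * p.2 = p.2 * p.1 then 1 else 0) fun p i => ?_]
  · simp only [Prod.fst_one, Prod.snd_one, OneMemClass.coe_one, mul_one, if_true]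
    ring
  by_cases e : p.1 = 1
  · rw [sum_comm]
    simpa only [eq_comm] using a p.2 p.1 fun j => (mem_erase.mp i).1 (Prod.ext e j)
  · exact a _ _ e

section comm
variable {V : Type*} [CommGroup V] [Fintype V] {α β : MulAut V} {n : ℕ}

/-- `v ↦ v / α v` -/
def dl (α : MulAut V) : V →* V := MonoidHom.id V / α.toMonoidHom

theorem compl_dl (h : α ^ n = 1) (hc : n.Coprime (Nat.card V)) : IsComplement' (dl α).range (dl α).ker := by
  refine isComplement'_of_card_mul_and_disjoint (by rw [mul_comm, ← index_ker, card_mul_index]) (disjoint_def.mpr ?_)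
  rintro _ ⟨v, rfl⟩ a
  have b : ∀ k : ℕ, (α ^ k) v * dl α v ^ k = v := fun k => by
    induction k with
    | zero => simp
    | succ k ih =>
      have c : α (dl α v) = dl α v := (div_eq_one.mp a).symm
      rw [pow_succ' α, pow_succ, MulAut.mul_apply, ← mul_assoc, ← c, ← map_pow, ← map_mul, ih, c]
      simp [dl]
  have := b n
  rw [h] at this
  exact (powCoprime hc.symm).injective (by simpa using this)

theorem sum_dl (h : α ^ n = 1) (hc : n.Coprime (Nat.card V)) (e : α * β = β * α) :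
    (∑ u : V, ∑ w : V, if u * α w = w * β u then 1 else 0) =
      Nat.card V * ∑ v : V, if α v = v ∧ β v = v then 1 else 0 := by
  have c := compl_dl h hc
  have d : ∀ v, dl β (dl α v) = dl α (dl β v) := fun v => by
    have : α (β v) = β (α v) := DFunLike.congr_fun e v
    simp [dl, this, div_div_div_comm]
  have a : ∀ u : V, (∑ w : V, if u * α w = w * β u then 1 else 0) =
      if dl β u ∈ (dl α).range then Nat.card (dl α).ker else 0 := fun u => by
    have b : ∀ w, u * α w = w * β u ↔ dl α w = dl β u := fun w => by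
      simp [dl, div_eq_div_iff_mul_eq_mul, eq_comm]
    simp only [b, ← card_filter]
    split_ifs with i
    · rw [MonoidHom.card_fiber_eq_of_mem_range _ i ⟨1, map_one _⟩, Nat.card_eq_fintype_card, Fintype.card_subtype]
      simp
    · exact card_eq_zero.mpr (filter_eq_empty_iff.mpr fun w _ j => i ⟨w, j⟩)
  have b : ∀ (u : (dl α).range) (v : (dl α).ker), dl β (u * v) ∈ (dl α).range ↔ β v = v := by
    rintro ⟨_, u, rfl⟩ ⟨v, i⟩
    rw [map_mul, d, Subgroup.mul_mem_cancel_left _ (MonoidHom.mem_range.mpr ⟨_, rfl⟩), eq_comm, ← div_eq_one]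
    exact ⟨fun j => disjoint_def.mp c.disjoint j ((d v).symm.trans (by rw [i, map_one])),
      fun j => (show dl β v = 1 from j) ▸ one_mem _⟩
  rw [sum_congr rfl fun u _ => a u, sum_compl' c, ← c.card_mul_card]
  simp only [b, sum_const, card_univ, ← Nat.card_eq_fintype_card, smul_eq_mul, ite_and]
  rw [← sum_filter (fun v => α v = v), sum_subtype (p := (· ∈ (dl α).ker)) (F := inferInstance) _ fun v => by
    simp [dl, div_eq_one, @eq_comm _ v], mul_sum]
  exact sum_congr (by congr!) fun _ _ => by split_ifs <;> simp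

end comm

open scoped IsMulCommutative in
theorem k_mul_abelian [hV : V.Normal] (hab : ∀ a ∈ V, ∀ b ∈ V, a * b = b * a) (h : IsComplement' V G)
    (hc : (Nat.card V).Coprime (Nat.card G)) : Nat.card (ConjClasses X) * Nat.card G =
      ∑ v : V, Nat.card (ConjClasses ↥(G ⊓ centralizer {v.1})) * Nat.card ↥(G ⊓ centralizer {v.1}) := by
  have : IsMulCommutative V := ⟨⟨fun a b => Subtype.ext (hab a a.2 b b.2)⟩⟩
  refine Nat.eq_of_mul_eq_mul_left (Nat.card_pos (α := V)) ?_
  have a : ∀ (v : V) (f : X → ℕ), ∑ x : ↥(G ⊓ centralizer {v.1}), f x = ∑ a : G, if a.1 * v = v * a then f a else 0 :=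
    fun v f => by
      rw [← sum_subtype (univ.filter (· ∈ G ⊓ centralizer {v.1})) (by simp),
        ← sum_subtype (univ.filter (· ∈ G)) (by simp) fun a => if a * v = v * a then f a else 0, ← sum_filter, filter_filter]
      simp [mem_centralizer_singleton_iff]
  rw [mul_left_comm, k_mul_compl h]
  simp only [k_mul_sub]
  rw [sum_congr rfl fun v _ => (a v fun x => ∑ y : ↥(G ⊓ centralizer {v.1}), if x * y = y * x then 1 else 0).trans
    (sum_congr rfl fun x _ => if_congr Iff.rfl (a v fun y => if x * y = y * x then 1 else 0) rfl), sum_comm (s := univ (α := V)),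
    mul_sum]
  refine sum_congr rfl fun x _ => ?_
  rw [sum_congr rfl (g := fun v : V => ∑ y : G, if x.1 * y = y * x then if x * v.1 = v * x ∧ y * v.1 = v * y then 1 else 0
    else 0) fun v _ => by split_ifs with i <;> simp [i, ← ite_and, and_comm], sum_comm (s := univ (α := V)), mul_sum]
  refine sum_congr rfl fun y _ => ?_
  rw [sum_ite_irrel, sum_const_zero]
  split_ifs with i
  · convert sum_dl (α := MulAut.conjNormal x.1) (β := MulAut.conjNormal y.1) (V := V) (n := Nat.card G)
      (by rw [← map_pow, ← Subgroup.coe_pow, pow_card_eq_one', Subgroup.coe_one, map_one]) hc.symm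
      (by rw [← map_mul, i, map_mul]) using 5 with u _ w _ v _ v
    · rw [Subtype.ext_iff, ← mul_left_inj (a := x.1 * y.1) (b := (u * _ : V))]
      nth_rw 2 [i]
      simp [mul_assoc]
    all_goals simp [Subtype.ext_iff, mul_inv_eq_iff_eq_mul]
  · exact sum_eq_zero fun u _ => sum_eq_zero fun w _ => if_neg fun e => i (comm_of_compl h.disjoint u.2 w.2 x.2 y.2 e)

theorem k_abelian [hV : V.Normal] (hab : ∀ a ∈ V, ∀ b ∈ V, a * b = b * a) (h : IsComplement' V G)
    (hc : (Nat.card V).Coprime (Nat.card G)) (S : Finset X) (hS : ∀ s ∈ S, s ∈ V)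
    (hr : ∀ v ∈ V, ∃! s, s ∈ S ∧ ∃ g ∈ G, g * v * g⁻¹ = s) :
    Nat.card (ConjClasses X) = ∑ s ∈ S, Nat.card (ConjClasses ↥(G ⊓ centralizer {s})) := by
  refine Nat.eq_of_mul_eq_mul_right (Nat.card_pos (α := G)) ?_
  rw [k_mul_abelian hab h hc, sum_mul, sum_congr rfl (s₁ := S) (g := fun s => ∑ v : V, ∑ g : G,
    if g.1 * v * g.1⁻¹ = s then Nat.card (ConjClasses ↥(G ⊓ centralizer {s})) else 0) fun s i => ?_, sum_comm]
  · refine sum_congr rfl fun v _ => ?_
    obtain ⟨_, ⟨a, g, b, rfl⟩, c⟩ := hr v v.2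
    rw [sum_eq_single_of_mem _ a fun s i j => sum_eq_zero fun (x : G) _ => if_neg fun k => j (c s ⟨i, x.1, x.2, k⟩),
      ← sum_filter, sum_const, smul_eq_mul, mul_comm]
    congr 1
    · rw [← Fintype.card_subtype, ← Nat.card_eq_fintype_card]
      exact Nat.card_congr ⟨fun x => ⟨⟨g * x, mul_mem b x.2.1⟩, by
        simp [mul_assoc, ← mul_assoc x.1, mem_centralizer_singleton_iff.mp x.2.2]⟩, fun x => ⟨g⁻¹ * x.1, G.mul_mem (inv_mem b) x.1.2,
        mem_centralizer_singleton_iff.mpr (by rw [mul_assoc, mul_inv_eq_iff_eq_mul.mp x.2]; group)⟩,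
        fun _ => by simp, fun _ => by simp⟩
    · refine k_congr (((MulAut.conj g).subgroupMap _).trans (MulEquiv.subgroupCongr (Subgroup.ext fun x => ?_)))
      rw [← MulEquiv.toMonoidHom_eq_coe, Subgroup.mem_map_equiv]
      simp [mem_centralizer_singleton_iff, mul_mem_cancel_left, mul_mem_cancel_right, b, mul_assoc,
        inv_mul_eq_iff_eq_mul]
      exact fun _ => by rw [← mul_left_inj g⁻¹]; simp [mul_assoc]
  rw [sum_comm, Nat.card_eq_fintype_card (α := G), ← card_univ, mul_comm, ← smul_eq_mul, ← sum_const]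
  exact sum_congr rfl fun g _ => ((sum_eq_single (⟨g.1⁻¹ * s * g, hV.conj_mem' _ (hS s i) _⟩ : V)
    (fun v _ j => if_neg fun k => j (Subtype.ext (by simp [← k, mul_assoc]))) (by simp)).trans (by simp [mul_assoc])).symm

theorem k_le_semidirect {X : Type*} [Group X] [Finite X] (V : Subgroup X) [hV : V.Normal] (φ : X ⧸ V →* MulAut V)
    (hφ : ∀ (x : X) (v : V), (φ (QuotientGroup.mk x) v : X) = x * v * x⁻¹) :
    Nat.card (ConjClasses X) ≤ Nat.card (ConjClasses (V ⋊[φ] (X ⧸ V))) := by
  have := Finite.of_equiv _ (SemidirectProduct.equivProd (φ := φ)).symm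
  refine Nat.le_of_mul_le_mul_right ?_ (Nat.card_pos (α := X))
  nth_rw 2 [← card_mul_index V]
  rw [index, ← SemidirectProduct.card (φ := φ), ← card_comm_eq_card_conjClasses_mul_card,
    ← card_comm_eq_card_conjClasses_mul_card]
  have : ∀ q r : X ⧸ V, ∃ s : X × X, ∀ x y : X, x * y = y * x → x = q → y = r →
      s.1 * s.2 = s.2 * s.1 ∧ s.1 = q ∧ s.2 = r := fun q r => by
    by_cases a : ∃ x y : X, x * y = y * x ∧ x = q ∧ y = r
    · obtain ⟨x, y, a⟩ := a
      exact ⟨(x, y), fun _ _ _ _ _ => a⟩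
    · exact ⟨1, fun x y i j k => (a ⟨x, y, i, j, k⟩).elim⟩
  choose s hs using this
  have m : ∀ {x y : X}, (x : X ⧸ V) = y → y * x⁻¹ ∈ V := fun e => hV.mem_comm (QuotientGroup.eq.mp e)
  refine Nat.card_le_card_of_injective (fun p => ⟨(⟨⟨_, m (hs _ _ _ _ p.2 rfl rfl).2.1⟩, p.1.1⟩,
    ⟨⟨_, m (hs _ _ _ _ p.2 rfl rfl).2.2⟩, p.1.2⟩), ?_⟩) fun p q e => ?_
  · obtain ⟨a, b, c⟩ := hs _ _ _ _ p.2 rfl rfl
    refine SemidirectProduct.ext (Subtype.ext ?_) (congrArg QuotientGroup.mk p.2.eq)
    simp only [SemidirectProduct.mul_left, Subgroup.coe_mul]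
    rw [(b ▸ hφ _ : ∀ v, (φ p.1.1 v : X) = _), (c ▸ hφ _ : ∀ v, (φ p.1.2 v : X) = _)]
    dsimp only
    generalize s p.1.1 p.1.2 = t at a
    rw [← mul_left_inj (t.1 * t.2)]
    nth_rw 2 [a]
    simpa [mul_assoc] using p.2.eq
  · simp only [Subtype.mk.injEq, Prod.mk.injEq, SemidirectProduct.ext_iff] at e
    obtain ⟨⟨a, b⟩, c, d⟩ := e
    rw [b, d] at a c
    exact Subtype.ext (Prod.ext (mul_right_cancel a) (mul_right_cancel c))


end Cfsg.Agent.Isaacs
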