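import Mathlib
import Cfsg.Agent.Block.Gens
import Cfsg.Agent.Isaacs.Zero2
import Cfsg.Agent.Isaacs.KGV
import Cfsg.Agent.Core.Coprime2
import Cfsg.Agent.BG.AmbPi

/-! Knörr's bounds for the class number of a coprime semidirect product. -/

set_option autoImplicit false

namespace Cfsg.Agent.Isaacs

open Cfsg Cfsg.Agent.Char Cfsg.Agent.Block Subgroup Finset
open scoped Classical ComplexConjugate

theorem sum_sum_sub {ι : Type*} [Fintype ι] (y : ι → ℂ) : ∑ i, ∑ j, (y i - y j) * conj (y i - y j) =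
    2 * (Fintype.card ι * ∑ i, y i * conj (y i) - (∑ i, y i) * conj (∑ i, y i)) := by
  simp only [map_sub, sub_mul, mul_sub, sum_sub_distrib, ← sum_mul, ← mul_sum, map_sum, sum_const, card_univ, nsmul_eq_mul,
    mul_assoc]
  ring

section
variable {A : Type*} [CommGroup A] [Fintype A] {D K : Subgroup A} {W W' : A → ℝ} {c : ℝ} {η : A → ℂ}

omit [Fintype A] in
theorem comm_le (K : Subgroup A) : commutator A ≤ K :=
  commutator_le.mpr fun a _ b _ => by simp [commutatorElement_def, one_mem]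

theorem sum_linAnn [Fintype (linAnn K)] (a : A) : ∑ l : linAnn K, (l.1 a : ℂ) = if a ∈ K then (K.index : ℂ) else 0 := by
  split_ifs with h
  · simp [fun l : linAnn K => mem_linAnn.mp l.2 a h, ← card_linAnn (N := K) (comm_le K)]
  have : NeZero (Monoid.exponent (A ⧸ K)) := ⟨Monoid.exponent_ne_zero_of_finite⟩
  obtain ⟨l, e⟩ := CommGroup.exists_apply_ne_one_of_hasEnoughRootsOfUnity (A ⧸ K) ℂ (a := a)
    (mt (QuotientGroup.eq_one_iff a).mp h)
  refine sum_hom_units_eq_zero ((Units.coeHom ℂ).comp ((MonoidHom.eval a).comp (linAnn K).subtype)) fun i => e ?_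
  exact Units.ext (DFunLike.congr_fun i ⟨l.comp (QuotientGroup.mk' K), mem_linAnn.mpr fun n j => by
    simp [(QuotientGroup.eq_one_iff n).mpr j]⟩ :)

theorem sum_ite_mem (z : ℂ) : (∑ e : D, if e.1 ∈ K then z else 0) = Nat.card ↥(D ⊓ K) * z := by
  rw [← sum_filter, sum_const, nsmul_eq_mul, ← Fintype.card_subtype, ← Nat.card_eq_fintype_card, inf_comm,
    ← Core.card_subgroupOf]
  rfl

theorem knorr_eq [Fintype (linAnn K)] (h : ∀ d ∈ D ⊓ K, ∀ a, η (d * a) = η a) (b : A) {x : linAnn K → ℂ}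
    (hx : ∀ l, x l = ∑ d : D, η (d * b) * conj (l.1 (d * b) : ℂ)) :
    (K.index + 1) * ∑ l, x l * conj (x l) - (∑ l, x l) * conj (∑ l, x l) = K.index * Nat.card ↥(D ⊓ K) *
      ∑ d : D, (if d * b ∈ K then 1 else K.index + 1) * (η (d * b) * conj (η (d * b))) := by
  have a : ∀ f g : D → ℂ, (∑ d, f d) * ∑ d, g d = ∑ d, ∑ e, f d * g (e * d) := fun f g => by
    rw [sum_mul]
    exact sum_congr rfl fun d _ => by rw [← mul_sum, ← Equiv.sum_comp (Equiv.mulRight d) g]; rfl
  have e1 : ∑ l, x l * conj (x l) = ∑ d : D, Nat.card ↥(D ⊓ K) * (K.index * (η (d * b) * conj (η (d * b)))) := by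
    simp only [hx, map_sum, a, ← sum_ite_mem]
    rw [sum_comm]
    refine sum_congr rfl fun d _ => sum_comm.trans (sum_congr rfl fun e _ => ?_)
    rw [sum_congr rfl (g := fun l : linAnn K => l.1 e * (η (d * b) * conj (η (e * (d * b))))) fun l _ => ?_, ← sum_mul,
      sum_linAnn]
    · split_ifs with i
      · rw [h e ⟨e.2, i⟩]
      · simp
    have := Complex.mul_conj' (l.1 (d * b))
    rw [linear_norm, Complex.ofReal_one] at this
    rw [Subgroup.coe_mul, mul_assoc e.1, map_mul l.1 e.1, map_mul conj (η _), Complex.conj_conj, Units.val_mul]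
    linear_combination (exp := 1) (l.1 e * η (d * b) * conj (η (e * (d * b)))) * this
  have e2 : ∑ l, x l = ∑ d : D, if d * b ∈ K then K.index * η (d * b) else 0 := by
    simp only [hx]
    rw [sum_comm]
    exact sum_congr rfl fun d _ => by rw [← mul_sum, ← map_sum, sum_linAnn]; split_ifs <;> simp [mul_comm]
  rw [e1, e2, map_sum, a, mul_sum, mul_sum, ← sum_sub_distrib]
  refine sum_congr rfl fun d _ => ?_
  split_ifs with i
  · rw [sum_congr rfl (g := fun e : D => if e.1 ∈ K then K.index * η (d * b) * (K.index * conj (η (d * b))) else 0)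
      fun e _ => ?_, sum_ite_mem]
    · ring
    rw [Subgroup.coe_mul, mul_assoc e.1]
    by_cases j : e.1 ∈ K
    · simp [j, mul_mem j i, h e ⟨e.2, j⟩]
    · simp [j, K.mul_mem_cancel_right i]
  · simp; ring

/-- a lower bound for the weighted norms of the generalized characters that are constant on the cosets of `D` -/
def KB (D : Subgroup A) (W : A → ℝ) (c : ℝ) : Prop :=
  ∀ η, Gen ⊤ η → (∀ d ∈ D, ∀ a, η (d * a) = η a) → (∃ a, W a ≠ 0 ∧ η a ≠ 0) → c ≤ Nat.card D * ∑ a, W a * ‖η a‖ ^ 2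

theorem KB.mono (h : KB D W c) (h1 : ∀ a, W a ≤ W' a) (h2 : ∀ a, W' a ≠ 0 → W a ≠ 0) : KB D W' c :=
  fun η a b ⟨x, i, j⟩ => (h η a b ⟨x, h2 x i, j⟩).trans (by gcongr; exact h1 _)

theorem KB.step (h : KB D W c) (h0 : ∀ a, 0 ≤ W a) (hi : ∀ d ∈ D, ∀ a, W (d * a) = W a) :
    KB (D ⊓ K) (fun a => (if a ∈ K then 1 else (K.index : ℝ) + 1) * W a) c := by
  intro η a b ⟨z, z1, z2⟩
  have := Fintype.ofFinite (linAnn K)
  let x : Option (linAnn K) → A → ℂ := fun l => l.elim 0 fun l x => inn D (sh x η) (sh x fun a => l.1 a)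
  have x1 : ∀ l, Gen ⊤ (x l) := by
    rintro (_ | l)
    · exact gen_zero
    · exact gen_inn_sh a (irr_top.mpr (isIrr_linear l.1)).gen
  have x2 : ∀ l a, Nat.card D * x (some l) a = ∑ d : D, η (d * a) * conj (l.1 (d * a) : ℂ) := fun _ _ => card_mul_inn
  have x3 : ∀ l, ∀ d ∈ D, ∀ a, x l (d * a) = x l a := by
    rintro (_ | l) d i a
    · rfl
    refine mul_left_cancel₀ (card_ne_zero (G := D)) ?_
    rw [x2, x2, ← Equiv.sum_comp (Equiv.mulRight (⟨d, i⟩ : D)) fun d : D => η (d * a) * _]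
    simp [mul_assoc]
  obtain ⟨l, e⟩ : ∃ l, x (some l) z ≠ 0 := by
    by_contra! e
    have : ∑ l : linAnn K, (l.1 z : ℂ) * (Nat.card D * x (some l) z) = Nat.card ↥(D ⊓ K) * (K.index * η z) := by
      simp only [x2, mul_sum, ← sum_ite_mem]
      refine sum_comm.trans (sum_congr rfl fun d _ => ?_)
      rw [sum_congr rfl (g := fun l : linAnn K => conj (l.1 d : ℂ) * η (d * z)) fun l _ => ?_, ← sum_mul, ← map_sum, sum_linAnn]
      · split_ifs with i
        · rw [b d ⟨d.2, i⟩, map_natCast]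
        · simp
      have := Complex.mul_conj' (l.1 z)
      rw [linear_norm, Complex.ofReal_one] at this
      rw [map_mul l.1, Units.val_mul, map_mul]
      linear_combination (exp := 1) (η (d * z) * conj (l.1 d : ℂ)) * this
    simp only [e, mul_zero, sum_const_zero] at this
    exact mul_ne_zero card_ne_zero (mul_ne_zero (Nat.cast_ne_zero.mpr index_ne_zero_of_finite) z2) this.symm
  have := two_mul_le_sum_sum (a := fun l (a : {a // W a ≠ 0}) => x l a) (m := c)
    (w := fun i j => Nat.card D * ∑ a, W a * ‖(x i - x j) a‖ ^ 2) (x₀ := some l) (y₀ := none)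
    (fun i j => by simp only [Pi.sub_apply, norm_sub_rev])
    (fun i j => mul_nonneg (Nat.cast_nonneg _) (sum_nonneg fun a _ => mul_nonneg (h0 a) (sq_nonneg _)))
    (fun i j k => h _ ((x1 i).sub (x1 j)) (fun d o a => by simp [x3 _ d o]) ((Function.ne_iff.mp k).elim fun a o =>
      ⟨a, a.2, sub_ne_zero.mpr o⟩)) (Function.ne_iff.mpr ⟨⟨z, right_ne_zero_of_mul z1⟩, e⟩)
  have n : Fintype.card (linAnn K) = K.index := Nat.card_eq_fintype_card.symm.trans (card_linAnn (comm_le K))
  have k : ∀ a, (Nat.card D : ℝ) ^ 2 * ∑ i, ∑ j, ‖(x i - x j) a‖ ^ 2 = 2 * (K.index * Nat.card ↥(D ⊓ K) *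
      ∑ d : D, (if d * a ∈ K then 1 else (K.index : ℝ) + 1) * ‖η (d * a)‖ ^ 2) := fun a => by
    have := sum_sum_sub fun l => Nat.card D * x l a
    rw [Fintype.sum_option (fun l => Nat.card D * x l a * _), Fintype.sum_option (fun l => Nat.card D * x l a),
      Fintype.card_option, n, show x none a = 0 from rfl, mul_zero, zero_mul, zero_add, zero_add, Nat.cast_add_one,
      knorr_eq b a (x2 · a)] at this
    simp only [Complex.mul_conj', ← mul_sub, norm_mul, mul_pow, Complex.ofReal_mul, ← mul_sum] at this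
    apply Complex.ofReal_injective
    simpa [apply_ite Complex.ofReal] using this
  have k' : (Nat.card D : ℝ) ^ 2 * ∑ i, ∑ j, ∑ a, W a * ‖(x i - x j) a‖ ^ 2 = 2 * (K.index * Nat.card ↥(D ⊓ K) *
      (Nat.card D * ∑ a, (if a ∈ K then 1 else (K.index : ℝ) + 1) * W a * ‖η a‖ ^ 2)) := by
    rw [sum_congr rfl fun i _ => sum_comm, sum_comm, mul_sum, sum_congr rfl (g := fun a : A => 2 * ((K.index : ℝ) * Nat.card ↥(D ⊓ K) *
      ∑ d : D, (if d.1 * a ∈ K then 1 else (K.index : ℝ) + 1) * W (d * a) * ‖η (d * a)‖ ^ 2)) fun a _ => ?_,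
      ← mul_sum, ← mul_sum, sum_comm, sum_congr rfl fun d _ => Equiv.sum_comp (Equiv.mulLeft d.1)
        fun a => (if a ∈ K then 1 else (K.index : ℝ) + 1) * W a * ‖η a‖ ^ 2, sum_const, card_univ, nsmul_eq_mul,
      Nat.card_eq_fintype_card (α := D)]
    simp only [← mul_sum, fun d : D => hi d d.2, mul_right_comm _ (W a), ← sum_mul]
    linear_combination W a * k a
  simp only [← mul_sum, Fintype.card_option, n] at this
  have d : (0 : ℝ) < Nat.card D := Nat.cast_pos.mpr Nat.card_pos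
  have i : (0 : ℝ) < K.index := Nat.cast_pos.mpr (Nat.pos_of_ne_zero index_ne_zero_of_finite)
  refine le_of_mul_le_mul_left ?_ (mul_pos d (mul_pos two_pos i))
  push_cast at this
  linear_combination mul_le_mul_of_nonneg_left this d.le + k'

omit [Fintype A] in
theorem Gen.card_gens_le {G : Type*} [Group G] [Finite G] {η : G → ℂ} (h : Gen ⊤ η) {u v : G} (hv : v ∈ gens u)
    (e : η v ≠ 0) : ((gens u).card : ℝ) ≤ ∑ x ∈ gens u, ‖η x‖ ^ 2 := by
  simpa only [gens_eq_of_mem hv, Complex.normSq_eq_norm_sq] using (GalF.card_le_sum_normSq (u := v) (F := η)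
    (fun φ k _ i x _ => Galois.isGenChar_map_eq_pow_of_dvd φ (gen_top.mp h) i (orderOf_dvd_natCard x))
    (fun x _ => h.isIntegral trivial) e).1

theorem sum_gens_wt (H : Subgroup A) (v : A) {F : A → ℝ} (h : ∀ d ∈ H, ∀ a, F (d * a) = F a) :
    ∑ a, (∑ u ∈ gens v, if a * u⁻¹ ∈ H then 1 else 0) * F a = Nat.card H * ∑ u ∈ gens v, F u := by
  simp only [sum_mul]
  rw [sum_comm, mul_sum]
  refine sum_congr rfl fun u _ => ?_
  rw [← Equiv.sum_comp (Equiv.mulRight u), sum_congr rfl (g := fun a => if a ∈ H then F u else 0) fun a _ => by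
    by_cases i : a ∈ H <;> simp [i, h], ← sum_filter, sum_const, nsmul_eq_mul, Nat.card_eq_fintype_card, Fintype.card_subtype]

theorem kb_base (H : Subgroup A) (v : A) :
    KB H (fun a => ∑ u ∈ gens v, if a * u⁻¹ ∈ H then 1 else 0) (Nat.card H * (Nat.card H * (gens v).card)) := by
  intro η a b ⟨z, z1, z2⟩
  obtain ⟨u, c, d⟩ := exists_ne_zero_of_sum_ne_zero z1
  rw [sum_gens_wt H v fun d i a => by rw [b d i]]
  gcongr
  exact a.card_gens_le c (by rwa [← b _ (by simpa using d : z * u⁻¹ ∈ H), inv_mul_cancel_right])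

variable {X : Type*} [Group X] [Finite X] (f : A →* X) {V : Subgroup X} [V.Normal] {H : Subgroup A}

theorem KB.descend (hV : IsMulCommutative V) (hc : (Nat.card H).Coprime (Nat.card V))
    (hf : ∀ a ∈ H, f a ∈ centralizer (V : Set X) → a = 1) (h0 : ∀ a, 0 ≤ W a) (hi : ∀ d ∈ H, ∀ a, W (d * a) = W a)
    (D : Subgroup A) : D ≤ H → KB D (fun a => (centralizer {f a}).relIndex (V ⊓ centralizer (D.map f)) * W a) c →
      KB ⊥ (fun a => (centralizer {f a}).relIndex V * W a) c := by
  induction D using WellFoundedLT.induction with | _ D ih =>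
  intro a b
  rcases eq_or_ne D ⊥ with rfl | d
  · simpa [centralizer_eq_top_iff_subset.mpr (Set.singleton_subset_iff.mpr (one_mem (center X)))] using b
  have z : ∀ S : Set A, f.range ≤ centralizer (f '' S) := by
    rintro S _ ⟨x, rfl⟩ _ ⟨y, -, rfl⟩
    rw [← map_mul, mul_comm, map_mul]
  have n : f.range ≤ normalizer (D.map f : Set X) := (z D).trans (centralizer_le_normalizer _)
  obtain ⟨U, u1, u2, u3, u4⟩ := Core.exists_minimal_invariant_le f.range ⁅V, D.map f⁆
    (Core.le_normalizer_commutator norm_top n) fun e => d (eq_bot_iff.mpr fun x i => hf x (a i)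
      (Core.le_centralizer_iff_commutator_eq_bot.mpr e (mem_map_of_mem f i)))
  have u5 : U ≤ V := u3.trans (commutator_le_left _ _)
  set C := V ⊓ centralizer (D.map f)
  have c1 : Disjoint C U := (disjoint_iff.mpr (Core.centralizer_inf_commutator_eq_bot _ V hV norm_top
    (hc.coprime_dvd_left ((card_map_dvd D f).trans (card_dvd_of_le a))))).mono_right u3
  have c2 : f.range ≤ normalizer (C : Set X) := Core.le_normalizer_inf norm_top (Core.le_normalizer_centralizer n)
  set K := (centralizer (U : Set X)).comap f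
  have k1 : ∀ x, x ∉ K → ∀ u ∈ U, u * f x = f x * u → u = 1 := fun x i u j k => ((u4 (U ⊓ centralizer {f x})
    (Core.le_normalizer_inf u1 (Core.le_normalizer_centralizer ((Set.image_singleton ▸ z {x}).trans
      (centralizer_le_normalizer _)))) inf_le_left).resolve_right fun l => i fun u j =>
        mem_centralizer_singleton_iff.mp (l.ge j).2).le ⟨j, mem_centralizer_singleton_iff.mpr k⟩
  have k2 : K.index + 1 ≤ Nat.card U := by
    obtain ⟨⟨u, i⟩, j⟩ := ne_bot_iff_exists_ne_one.mp u2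
    have := Fintype.ofFinite U
    have := Fintype.ofFinite (A ⧸ K)
    rw [index, Nat.card_eq_fintype_card, Nat.card_eq_fintype_card]
    refine Fintype.card_lt_of_injective_of_notMem (fun q => ⟨_, conj_mem u1 ⟨q.out, rfl⟩ i⟩) (fun q r e => ?_) (b := 1)
      fun ⟨q, e⟩ => j (by simpa using e)
    rw [← q.out_eq, ← r.out_eq]
    refine QuotientGroup.eq.mpr (not_not.mp fun k => j (Subtype.ext (k1 _ k u i ?_)))
    rw [map_mul, map_inv, ← mul_assoc, eq_comm, mul_assoc, inv_mul_eq_iff_eq_mul, ← mul_assoc, ← mul_assoc,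
      Subtype.mk.inj e, inv_mul_cancel_right]
  have l : D ⊓ K < D := inf_lt_left.mpr fun i => u2 (c1.eq_bot_of_ge
    (le_inf u5 (le_centralizer_iff.mp (map_le_iff_le_comap.mpr i))))
  refine ih _ l (l.le.trans a) ((b.step (K := K) (fun x => mul_nonneg (Nat.cast_nonneg _) (h0 x)) fun y i x => ?_).mono
    (fun x => ?_) fun x i => mul_ne_zero (by split_ifs <;> positivity) (mul_ne_zero
      (Nat.cast_ne_zero.mpr index_ne_zero_of_finite) (right_ne_zero_of_mul i)))
  · rw [hi y (a i), ← inf_relIndex_right, ← inf_relIndex_right (centralizer {f x})]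
    congr 3
    refine Subgroup.ext fun w => and_congr_left fun j => ?_
    simp [mem_centralizer_singleton_iff, ← mul_assoc, ← j.2 _ (mem_map_of_mem f i)]
    simp [mul_assoc]
  rw [← mul_assoc]
  refine mul_le_mul_of_nonneg_right ?_ (h0 x)
  have m : C ⊔ U ≤ V ⊓ centralizer ((D ⊓ K).map f) := sup_le (inf_le_inf_left _ (centralizer_le (map_mono inf_le_left)))
    (le_inf u5 (le_centralizer_iff.mp (map_le_iff_le_comap.mpr inf_le_right)))
  split_ifs with i
  · rw [one_mul]
    exact_mod_cast relIndex_le_of_le_right (le_sup_left.trans m) index_ne_zero_of_finite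
  have cu : U ≤ normalizer (C : Set X) := (u5.trans (le_centralizer_iff_isMulCommutative.mpr hV)).trans
    ((centralizer_le (inf_le_left : C ≤ V)).trans (centralizer_le_normalizer _))
  have e : centralizer {f x} ⊓ (C ⊔ U) = centralizer {f x} ⊓ C := le_antisymm (fun w ⟨j, k⟩ => ⟨j, by
    obtain ⟨y, o, t, q, rfl⟩ := (Core.mem_sup_of_le_normalizer cu).mp k
    have := k1 x i t q (mul_inv_eq_iff_eq_mul.mp (mul_inv_eq_one.mp (disjoint_def.mp c1 ?_
      (mul_mem (conj_mem u1 ⟨x, rfl⟩ q) (inv_mem q))))).symm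
    · rwa [this, mul_one]
    rw [show f x * t * (f x)⁻¹ * t⁻¹ = (f x * y * (f x)⁻¹)⁻¹ * (f x * (y * t) * (f x)⁻¹ * t⁻¹) by group,
      ← mem_centralizer_singleton_iff.mp j]
    simpa using mul_mem (inv_mem (conj_mem c2 ⟨x, rfl⟩ o)) o⟩) (inf_le_inf_left _ le_sup_left)
  have := relIndex_le_of_le_right (H := centralizer {f x}) m index_ne_zero_of_finite
  rw [← inf_relIndex_right, e, ← relIndex_mul_relIndex _ C _ inf_le_right le_sup_left, inf_relIndex_right,
    Core.relIndex_sup_of_le_normalizer cu, ← inf_relIndex_right C, c1.eq_bot, relIndex_bot_left, mul_comm] at this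
  exact_mod_cast (Nat.mul_le_mul_right _ k2).trans this
end

variable {X : Type*} [Group X] [Finite X] {V G : Subgroup X} [V.Normal] {p : ℕ} {v : X}

theorem relIndex_cent_le (h : IsComplement' V G) (hv : V ≤ centralizer {v}) :
    V.relIndex (centralizer {v}) ≤ Nat.card ↥(G ⊓ centralizer {v}) := by
  refine (relIndex_le_of_le_right (L := V ⊔ G ⊓ centralizer {v}) (fun x i => ?_) index_ne_zero_of_finite).trans
    (Nat.le_of_dvd Nat.card_pos ((relIndex_sup_left _ V).dvd.trans (Core.relIndex_dvd_card' _ _)))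
  obtain ⟨⟨u, g⟩, rfl⟩ := h.2 x
  exact mul_mem_sup u.2 ⟨g.2, (Subgroup.mul_mem_cancel_left _ (hv u.2)).mp i⟩

theorem irr_ne_zero_of_ab (hp : p.Prime) (hP : IsPGroup p V) (hi : ¬ p ∣ V.index) (hV : ∀ a ∈ V, ∀ b ∈ V, a * b = b * a)
    (hv : v ∈ V) (χ : IrrCharacter X) : χ.1 v ≠ 0 := by
  have a := irr_top.mpr χ.2
  obtain ⟨d, -, b⟩ := a.deg
  obtain ⟨k, c⟩ := hP ⟨v, hv⟩
  exact ne_zero_of_not_dvd hp (chr_top.mp a.chr) (congrArg Subtype.val c) b fun e =>
    hi (e.trans (relIndex_top_right V ▸ a.deg_dvd_of_comm norm_top le_top hV b))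

theorem k_add_le (hp : p.Prime) (hP : IsPGroup p V) (hi : ¬ p ∣ V.index) (hV : ∀ a ∈ V, ∀ b ∈ V, a * b = b * a)
    (h : IsComplement' V G) (hv : v ∈ V) : Nat.card (ConjClasses X) + Nat.card G ≤
      Nat.card ↥(G ⊓ centralizer {v}) * Nat.card V + Nat.card (ConjClasses G) := by
  have a : V ≤ centralizer {v} := fun x i => mem_centralizer_singleton_iff.mpr (hV x i v hv)
  have b := Nat.mul_le_mul_left (Nat.card V) (relIndex_cent_le h a)
  rw [Core.card_mul_relIndex a, mul_comm] at b
  have c := sum_irr_quotient V fun χ => ‖χ 1‖ ^ 2 - 1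
  simp only [QuotientGroup.mk_one] at c
  rw [sum_sub_distrib, sum_irr_norm_sq, sum_const, card_univ, ← Nat.card_eq_fintype_card, card_irr_eq_card_conjClasses,
    k_congr h.symm.QuotientMulEquiv, centralizer_eq_top_iff_subset.mpr (Set.singleton_subset_iff.mpr (one_mem (center _))),
    card_top, Nat.card_congr h.symm.QuotientMulEquiv.toEquiv, sum_filter] at c
  have d : ∑ χ : IrrCharacter X, (1 + if V ≤ charKer χ.1 then ‖χ.1 1‖ ^ 2 - 1 else 0) * ((gens v).card : ℝ) ≤
      ∑ χ : IrrCharacter X, ∑ u ∈ gens v, ‖χ.1 u‖ ^ 2 := sum_le_sum fun χ _ => by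
    split_ifs with i
    · rw [sum_congr rfl fun u j => by rw [apply_eq_of_mem_charKer (i (zpowers_le.mpr hv (mem_gens.mp j ▸ mem_zpowers u)))]]
      simp [mul_comm]
    · simpa using (irr_top.mpr χ.2).gen.card_gens_le (self_mem_gens v) (irr_ne_zero_of_ab hp hP hi hV hv χ)
  rw [← sum_mul, sum_add_distrib, ← c, sum_comm, sum_congr (s₁ := gens v) rfl (g := fun _ => (Nat.card (centralizer {v}) : ℝ))
    fun u j => by rw [sum_irr_norm_sq, ← centralizer_closure, ← zpowers_eq_closure, mem_gens.mp j, zpowers_eq_closure,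
      centralizer_closure], sum_const, sum_const, card_univ, ← Nat.card_eq_fintype_card, card_irr_eq_card_conjClasses] at d
  simp only [nsmul_eq_mul, mul_one, mul_comm ((gens v).card : ℝ)] at d
  have := le_of_mul_le_mul_right d (Nat.cast_pos.mpr (card_gens_pos v))
  have b' : (Nat.card (centralizer {v}) : ℝ) ≤ _ := Nat.cast_le.mpr b
  rw [← Nat.cast_le (α := ℝ)]
  push_cast at b' ⊢
  linarith

open scoped IsMulCommutative in
theorem knorr_ab (hp : p.Prime) (hP : IsPGroup p V) (hi : ¬ p ∣ V.index) (hs : centralizer (V : Set X) = V)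
    (h : IsComplement' V G) (hv : v ∈ V)
    (hab : ∀ a ∈ G ⊓ centralizer {v}, ∀ b ∈ G ⊓ centralizer {v}, a * b = b * a) :
    Nat.card (ConjClasses X) ≤ Nat.card V := by
  have := Fact.mk hp
  have hV := le_centralizer_iff_isMulCommutative.mp hs.ge
  have a : V ≤ centralizer {v} := hs.ge.trans (centralizer_le (Set.singleton_subset_iff.mpr hv))
  have b := relIndex_cent_le h a
  set H := G ⊓ centralizer {v}
  have c : zpowers v ≤ centralizer (H : Set X) := zpowers_le.mpr fun x i => mem_centralizer_singleton_iff.mp i.2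
  have : IsMulCommutative ↥(H ⊔ zpowers v) := le_centralizer_iff_isMulCommutative.mp (sup_le (le_centralizer_iff.mpr
    (sup_le (fun x i y j => hab y j x i) c)) (le_centralizer_iff.mpr (sup_le (le_centralizer_iff.mp c)
      (le_centralizer_iff_isMulCommutative.mpr inferInstance))))
  set A := H ⊔ zpowers v
  have := Fintype.ofFinite A
  obtain ⟨k, e⟩ := hP.exists_card_eq
  have d : (Nat.card H).Coprime (Nat.card V) := e ▸ ((hp.coprime_iff_not_dvd.mpr hi).symm.coprime_dvd_left
    (h.symm.index_eq_card ▸ card_dvd_of_le inf_le_left)).pow_right k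
  have f := Core.card_subgroupOf_of_le (le_sup_left : H ≤ A)
  let w : A := ⟨v, mem_sup_right (mem_zpowers v)⟩
  have n : ∀ a : A, (0 : ℝ) ≤ ∑ u ∈ gens w, if a * u⁻¹ ∈ H.subgroupOf A then 1 else 0 := fun a => by positivity
  have g := KB.descend A.subtype hV (f ▸ d) (fun x i j => Subtype.ext (disjoint_def.mp h.disjoint (hs.le j) (i : x.1 ∈ G ⊓ _).1)) n
    (fun x i y => by simp only [mul_assoc, Subgroup.mul_mem_cancel_left _ i]) _ le_rfl ((kb_base (H.subgroupOf A) w).mono
      (fun x => le_mul_of_one_le_left (n x) (Nat.one_le_cast.mpr (Nat.pos_of_ne_zero index_ne_zero_of_finite)))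
      fun _ => right_ne_zero_of_mul)
  have := sum_le_sum fun (χ : IrrCharacter X) (_ : χ ∈ univ) => g (fun x => χ.1 x) (gen_top.mpr ((irr_top.mpr χ.2).gen.res le_top))
    (fun d i _ => by rw [mem_bot.mp i, one_mul]) ⟨w, mul_ne_zero (Nat.cast_ne_zero.mpr index_ne_zero_of_finite)
      (sum_pos' (fun _ _ => by positivity) ⟨w, self_mem_gens w, by simp⟩).ne',
      irr_ne_zero_of_ab hp hP hi (fun x i y j => (hs.ge j : y ∈ centralizer _) x i) hv χ⟩
  simp only [card_bot, Nat.cast_one, one_mul] at this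
  rw [sum_comm, sum_const, card_univ, ← Nat.card_eq_fintype_card, card_irr_eq_card_conjClasses, nsmul_eq_mul] at this
  replace this := this.trans (sum_le_sum (g := fun x => (∑ u ∈ gens w, if x * u⁻¹ ∈ H.subgroupOf A then 1 else 0) *
    ((Nat.card H : ℝ) * Nat.card V)) fun x _ => ?_)
  · rw [sum_gens_wt _ _ fun _ _ _ => rfl, sum_const, f, nsmul_eq_mul] at this
    have i : (0 : ℝ) < Nat.card H := Nat.cast_pos.mpr Nat.card_pos
    exact Nat.cast_le.mp (le_of_mul_le_mul_right (this.trans_eq (by ring))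
      (mul_pos i (mul_pos i (Nat.cast_pos.mpr (card_gens_pos w)))))
  rw [← mul_sum, sum_irr_norm_sq, mul_comm (Nat.cast _), mul_assoc]
  rcases (n x).eq_or_lt with i | i
  · rw [← i, zero_mul, zero_mul]
  obtain ⟨u, j, l⟩ := exists_ne_zero_of_sum_ne_zero i.ne'
  have m : w ∈ zpowers x := by
    have := BG.Amb.mem_zpowers_mul_of_coprime' (Commute.all (x * u⁻¹) u) ((f ▸ d).coprime_dvd_left
      (orderOf_dvd_natCard _ (by simpa using l)) |>.coprime_dvd_right (by
        rw [← Nat.card_zpowers, mem_gens.mp j, Nat.card_zpowers, ← orderOf_coe]; exact orderOf_dvd_natCard _ hv))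
    rw [inv_mul_cancel_right] at this
    exact zpowers_le.mpr this (mem_gens.mp j ▸ mem_zpowers w)
  have o : centralizer {x.1} ≤ centralizer {v} := by
    obtain ⟨z, m⟩ := m
    exact fun y q => mem_centralizer_singleton_iff.mpr ((show x.1 ^ z = v from congrArg Subtype.val m) ▸
      (Commute.zpow_right (mem_centralizer_singleton_iff.mp q) z).eq)
  refine mul_le_mul_of_nonneg_left ?_ i.le
  rw [← Core.card_inf_mul_relIndex V, inf_comm, ← Core.card_inf_mul_relIndex (centralizer {x.1}) V]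
  rw [coe_subtype]
  exact_mod_cast (by ring : _ = _).trans_le (Nat.mul_le_mul_right _
    ((relIndex_le_of_le_right o index_ne_zero_of_finite).trans b))

end Cfsg.Agent.Isaacs
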