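import Mathlib
import Cfsg.Agent.Perm.Sharp4
import Cfsg.Agent.Perm.PFixed
import Cfsg.Agent.Perm.Homog
import Cfsg.Agent.RankOne.Util

set_option autoImplicit false
set_option linter.unusedSectionVars false

namespace Cfsg.Agent.Isaacs.LW

open MulAction Equiv Cfsg.Agent.Perm

section Grp
variable {G : Type*} [Group G] [Finite G]

theorem inv_of_fpf {L : Subgroup G} {u : G} (hu : u * u = 1) (hn : ∀ l ∈ L, u * l * u⁻¹ ∈ L)
    (hc : ∀ l ∈ L, u * l = l * u → l = 1) : ∀ l ∈ L, u * l * u⁻¹ = l⁻¹ := by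
  let φ : L →* L :=
    { toFun := fun l => ⟨u * l * u⁻¹, hn l l.2⟩
      map_one' := by simp
      map_mul' := fun a b => Subtype.ext (by simp [mul_assoc]) }
  have h1 : MonoidHom.FixedPointFree φ := fun l h =>
    Subtype.ext (hc l l.2 (mul_inv_eq_iff_eq_mul.1 (congrArg Subtype.val h)))
  have h2 : Function.Involutive φ := fun l => Subtype.ext (by
    show u * (u * l * u⁻¹) * u⁻¹ = l
    calc u * (u * l * u⁻¹) * u⁻¹ = (u * u) * l * (u * u)⁻¹ := by group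
      _ = l := by rw [hu]; group)
  intro l hl
  exact congrArg Subtype.val (congrFun (h1.coe_eq_inv_of_involutive h2) ⟨l, hl⟩)

theorem one_of_odd {L : Subgroup G} (ho : Odd (Nat.card L)) {l : G} (hl : l ∈ L) (h : l * l = 1) :
    l = 1 := by
  have h1 : Odd (orderOf l) := ho.of_dvd_nat (L.orderOf_dvd_natCard hl)
  have h2 : orderOf l ∣ 2 := orderOf_dvd_of_pow_eq_one (by rw [pow_two, h])
  rcases (Nat.dvd_prime Nat.prime_two).1 h2 with e | e
  · exact orderOf_eq_one_iff.1 e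
  · rw [e] at h1; exact absurd h1 (by decide)

theorem odd_of_no_invol {L : Subgroup G} (h : ∀ l ∈ L, l * l = 1 → l = 1) : Odd (Nat.card L) := by
  rw [← Nat.not_even_iff_odd, even_iff_two_dvd]
  intro h2
  haveI : Fact (Nat.Prime 2) := ⟨Nat.prime_two⟩
  obtain ⟨s, hs⟩ := exists_prime_orderOf_dvd_card' 2 h2
  have h3 : (s : G) * s = 1 := by
    have := pow_orderOf_eq_one s
    rw [hs, pow_two] at this
    exact congrArg Subtype.val this
  rw [show s = 1 from Subtype.ext (h s s.2 h3)] at hs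
  simp at hs

theorem exists_comm_invol {L : Subgroup G} {z w : G} (hz : z * z = 1)
    (hn : ∀ l ∈ L, z * l * z⁻¹ ∈ L) (hw : w ∈ L) (hw1 : w ≠ 1) (hw2 : w * w = 1) :
    ∃ v ∈ L, v ≠ 1 ∧ v * v = 1 ∧ z * v = v * z := by
  classical
  haveI : Fact (Nat.Prime 2) := ⟨Nat.prime_two⟩
  haveI := Fintype.ofFinite G
  have hL : 2 ∣ Fintype.card L := by
    rw [← Nat.card_eq_fintype_card, ← even_iff_two_dvd, ← Nat.not_odd_iff_even]
    exact fun ho => hw1 (one_of_odd ho hw hw2)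
  let S := {v : G // v ∈ L ∧ v * v = 1}
  have hS : 2 ∣ Fintype.card S := by
    let φ : Function.End L := fun x => x⁻¹
    have h1 := Equiv.Perm.card_fixedPoints_modEq (f := φ) (p := 2) (n := 1)
      (by rw [pow_one, pow_two]; funext x; exact inv_inv x)
    have e : Function.fixedPoints φ ≃ S :=
      { toFun := fun x => ⟨x.1, x.1.2, by
          have : (x.1)⁻¹ = x.1 := x.2
          have h2 : ((x.1 : L) : G)⁻¹ = x.1 := congrArg Subtype.val this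
          exact mul_eq_one_iff_inv_eq.2 h2⟩
        invFun := fun v => ⟨⟨v.1, v.2.1⟩, Subtype.ext (inv_eq_of_mul_eq_one_right v.2.2)⟩
        left_inv := fun x => rfl
        right_inv := fun v => rfl }
    rw [Fintype.card_congr e] at h1
    exact (Nat.modEq_zero_iff_dvd.1 (h1.symm.trans (Nat.modEq_zero_iff_dvd.2 hL)))
  have hzi : z⁻¹ = z := inv_eq_of_mul_eq_one_right hz
  let f : S → S := fun v => ⟨z * v.1 * z⁻¹, hn _ v.2.1, by
    calc z * v.1 * z⁻¹ * (z * v.1 * z⁻¹) = z * (v.1 * v.1) * z⁻¹ := by group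
      _ = 1 := by rw [v.2.2]; group⟩
  have hf : Function.Involutive f := fun v => Subtype.ext (by
    show z * (z * v.1 * z⁻¹) * z⁻¹ = v.1
    calc z * (z * v.1 * z⁻¹) * z⁻¹ = (z * z) * v.1 * (z * z)⁻¹ := by group
      _ = v.1 := by rw [hz]; group)
  obtain ⟨b, hb, hb1⟩ := Equiv.Perm.exists_fixed_point_of_prime' (p := 2) (n := 1) hS
    (σ := hf.toPerm) (by ext x; simp [pow_two, hf x]) (a := ⟨1, L.one_mem, by simp⟩)
    (Subtype.ext (by simp [f]))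
  exact ⟨b.1, b.2.1, fun e => hb1 (Subtype.ext e), b.2.2,
    mul_inv_eq_iff_eq_mul.1 (congrArg Subtype.val hb)⟩

end Grp

variable {G Ω : Type*} [Group G] [Finite G] [MulAction G Ω] [Fintype Ω] [DecidableEq Ω]

/-- `g` acts on `Γ` as `τ`. -/
def Lf (Γ : Finset Ω) (τ : Perm Ω) (g : G) : Prop := ∀ x ∈ Γ, g • x = τ x

abbrev Fx (G : Type*) [Group G] [MulAction G Ω] (Γ : Finset Ω) : Subgroup G :=
  fixingSubgroup G (Γ : Set Ω)

theorem mem_Fx {Γ : Finset Ω} {g : G} : g ∈ Fx G Γ ↔ ∀ x ∈ Γ, g • x = x :=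
  mem_fixingSubgroup_iff G

theorem Lf.mul {Γ : Finset Ω} {τ ρ : Perm Ω} {g h : G} (h1 : Lf Γ τ g) (h2 : Lf Γ ρ h)
    (hρ : ∀ x ∈ Γ, ρ x ∈ Γ) : Lf Γ (τ * ρ) (g * h) := fun x hx => by
  rw [mul_smul, h2 x hx, h1 _ (hρ x hx), Perm.mul_apply]

theorem Lf.congr {Γ : Finset Ω} {τ ρ : Perm Ω} {g : G} (h1 : Lf Γ τ g) (h : ∀ x ∈ Γ, τ x = ρ x) :
    Lf Γ ρ g := fun x hx => (h1 x hx).trans (h x hx)

theorem Lf.mem_of {Γ : Finset Ω} {τ : Perm Ω} {g : G} (h1 : Lf Γ τ g) (hτ : ∀ x ∈ Γ, τ x ∈ Γ)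
    {x : Ω} (hx : g • x ∈ Γ) : x ∈ Γ := by
  have hs : Set.SurjOn τ Γ Γ := Finset.surjOn_of_injOn_of_card_le _ hτ τ.injective.injOn le_rfl
  obtain ⟨y, hy, e⟩ := hs hx
  rw [← h1 y hy] at e
  rwa [← MulAction.injective g e]

theorem Lf.norm {Γ : Finset Ω} {τ : Perm Ω} {g : G} (h1 : Lf Γ τ g) (hτ : ∀ x ∈ Γ, τ x ∈ Γ) :
    ∀ l ∈ Fx G Γ, g * l * g⁻¹ ∈ Fx G Γ := by
  intro l hl
  rw [mem_Fx] at hl ⊢
  intro x hx
  rw [mul_smul, mul_smul, hl _ (h1.mem_of hτ (by rwa [smul_inv_smul])), smul_inv_smul]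

theorem Lf.sq_mem {Γ : Finset Ω} {τ : Perm Ω} {g h : G} (h1 : Lf Γ τ g) (h2 : Lf Γ τ h)
    (hτ : ∀ x ∈ Γ, τ x ∈ Γ) (hτ2 : ∀ x ∈ Γ, τ (τ x) = x) : g * h ∈ Fx G Γ :=
  mem_Fx.2 fun x hx => by rw [(h1.mul h2 hτ) x hx, Perm.mul_apply, hτ2 x hx]

theorem Lf.invol {Γ : Finset Ω} {τ : Perm Ω} {g : G} (h1 : Lf Γ τ g) (hτ : ∀ x ∈ Γ, τ x ∈ Γ)
    (hτ2 : ∀ x ∈ Γ, τ (τ x) = x) (ho : Odd (Nat.card (Fx G Γ))) :
    ∃ m : ℕ, g ^ m * g ^ m = 1 ∧ Lf Γ τ (g ^ m) := by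
  have h2 := h1.sq_mem h1 hτ hτ2
  obtain ⟨j, hj⟩ := ho
  refine ⟨2 * j + 1, ?_, fun x hx => ?_⟩
  · have : (⟨g * g, h2⟩ : Fx G Γ) ^ Nat.card (Fx G Γ) = 1 := pow_card_eq_one'
    have h3 : (g * g) ^ (2 * j + 1) = 1 := by rw [← hj]; exact congrArg Subtype.val this
    rw [← h3, ← pow_two g, ← pow_mul, ← pow_add]; congr 1; ring
  · rw [pow_succ, pow_mul, pow_two, mul_smul, h1 x hx]
    exact mem_Fx.1 (pow_mem h2 j) _ (hτ x hx)

theorem exists_Lf {k : ℕ} (htr : IsMultiplyPretransitive G Ω k) (hn : k ≤ Fintype.card Ω)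
    {Γ : Finset Ω} (hΓ : Γ.card ≤ k) (τ : Perm Ω) : ∃ g : G, Lf Γ τ g :=
  multi_finset htr (by rwa [Nat.card_eq_fintype_card]) Γ hΓ τ τ.injective.injOn

theorem exists_map {k : ℕ} (htr : IsMultiplyPretransitive G Ω k) {s t : Finset Ω} (hs : s.card = k)
    (ht : t.card = k) : ∃ g : G, ∀ y ∈ t, g⁻¹ • y ∈ s := by
  obtain ⟨e⟩ : Nonempty (s ≃ t) := Fintype.card_eq.1 (by simp [hs, ht])
  obtain ⟨g, hg⟩ := multi_exists htr (ι := s) (by simp [hs]) (fun x => (x : Ω)) (fun x => (e x : Ω))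
    Subtype.val_injective (Subtype.val_injective.comp e.injective)
  refine ⟨g, fun y hy => ?_⟩
  obtain ⟨x, hx⟩ := e.surjective ⟨y, hy⟩
  have := hg x
  rw [hx] at this
  rw [← show g • (x : Ω) = y from this, inv_smul_smul]
  exact x.2

theorem V4_triv {Γ : Finset Ω} {τ ρ : Perm Ω} (ho : Odd (Nat.card (Fx G Γ)))
    (hτ : ∀ x ∈ Γ, τ x ∈ Γ) (hτ2 : ∀ x ∈ Γ, τ (τ x) = x)
    (hρ : ∀ x ∈ Γ, ρ x ∈ Γ) (hρ2 : ∀ x ∈ Γ, ρ (ρ x) = x)
    (h2 : ∀ x ∈ Γ, (τ * ρ) ((τ * ρ) x) = x) {g h : G} (hg : Lf Γ τ g) (hh : Lf Γ ρ h)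
    (c1 : ∀ u : G, u * u = 1 → Lf Γ τ u → ∀ l ∈ Fx G Γ, u * l = l * u → l = 1)
    (c2 : ∀ u : G, u * u = 1 → Lf Γ ρ u → ∀ l ∈ Fx G Γ, u * l = l * u → l = 1)
    (c3 : ∀ u : G, u * u = 1 → Lf Γ (τ * ρ) u → ∀ l ∈ Fx G Γ, u * l = l * u → l = 1) :
    ∀ l ∈ Fx G Γ, l = 1 := by
  obtain ⟨m, u1, u2⟩ := hg.invol hτ hτ2 ho
  obtain ⟨m', v1, v2⟩ := hh.invol hρ hρ2 ho
  set u := g ^ m
  set v := h ^ m'
  have i1 := inv_of_fpf u1 (u2.norm hτ) (c1 u u1 u2)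
  have i2 := inv_of_fpf v1 (v2.norm hρ) (c2 v v1 v2)
  obtain ⟨j, w1, w2⟩ := (u2.mul v2 hρ).invol (fun x hx => hτ _ (hρ x hx)) h2 ho
  intro l hl
  refine c3 _ w1 w2 l hl (Commute.pow_left ?_ j)
  have : u * v * l * (u * v)⁻¹ = l := by
    calc u * v * l * (u * v)⁻¹ = u * (v * l * v⁻¹) * u⁻¹ := by group
      _ = l := by rw [i2 l hl, i1 _ (inv_mem hl), inv_inv]
  exact mul_inv_eq_iff_eq_mul.1 this

/-- the setwise stabiliser of `Δ` induces at least the alternating group. -/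
def Alt (G : Type*) [Group G] [MulAction G Ω] (Δ : Finset Ω) : Prop :=
  ∀ σ : Perm Ω, Perm.sign σ = 1 → (∀ x, x ∉ Δ → σ x = x) → ∃ g : G, Lf Δ σ g

theorem mem_of_supp {Δ : Finset Ω} {σ : Perm Ω} (h : ∀ x, x ∉ Δ → σ x = x) (x : Ω) :
    σ x ∈ Δ ↔ x ∈ Δ := by
  constructor
  · intro h1
    by_contra h2
    rw [h x h2] at h1
    exact h2 h1
  · intro h1
    by_contra h2
    have := σ.injective (h _ h2)
    rw [this] at h2
    exact h2 h1

theorem sym_of_swap {Δ : Finset Ω}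
    (h : ∀ a ∈ Δ, ∀ b ∈ Δ, a ≠ b → ∃ g : G, Lf Δ (swap a b) g) (σ : Perm Δ) :
    ∃ g : G, ∀ x : Δ, g • (x : Ω) = σ x := by
  induction σ using Perm.swap_induction_on with
  | one => exact ⟨1, by simp⟩
  | swap_mul f a b hab ih =>
    obtain ⟨g, hg⟩ := ih
    obtain ⟨s, hs⟩ := h a a.2 b b.2 (fun e => hab (Subtype.ext e))
    refine ⟨s * g, fun x => ?_⟩
    rw [mul_smul, hg, hs _ (f x).2, Perm.mul_apply]
    exact (Subtype.val_injective.map_swap a b (f x)).symm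

theorem alt_of_swap {Δ : Finset Ω}
    (h : ∀ a ∈ Δ, ∀ b ∈ Δ, a ≠ b → ∃ g : G, Lf Δ (swap a b) g) : Alt G Δ := by
  intro σ _ hσ
  obtain ⟨g, hg⟩ := sym_of_swap h (σ.subtypePerm (mem_of_supp hσ))
  exact ⟨g, fun x hx => hg ⟨x, hx⟩⟩

theorem Alt.sub {Δ : Finset Ω} (h : Alt G Δ) (σ : Perm Δ) (hσ : Perm.sign σ = 1) :
    ∃ g : G, ∀ x : Δ, g • (x : Ω) = σ x := by
  obtain ⟨g, hg⟩ := h (Perm.ofSubtype σ) (by rw [Perm.sign_ofSubtype, hσ])
    (fun x hx => Perm.ofSubtype_apply_of_not_mem σ hx)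
  exact ⟨g, fun x => by rw [hg x x.2, Perm.ofSubtype_apply_coe]⟩

section Base
variable {k : ℕ} (htr : IsMultiplyPretransitive G Ω k) (hn : k < Fintype.card Ω)
  (H0 : ∀ (g : G) (s : Finset Ω), k < s.card → (∀ x ∈ s, g • x = x) → g = 1)
include htr H0

theorem E1 {z : G} (hz : z * z = 1) (hz1 : z ≠ 1) {Γ : Finset Ω} (hΓ : Γ.card = k)
    (hf : ∀ x ∈ Γ, z • x = x) {x a b : Ω} (hx : z • x ≠ x) (ha : a ∈ Γ) (hb : b ∈ Γ) (hab : a ≠ b) :
    ∃ w : G, w * w = 1 ∧ w ≠ 1 ∧ (insert x (insert (z • x) ((Γ.erase a).erase b))).card = k ∧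
      (∀ y ∈ insert x (insert (z • x) ((Γ.erase a).erase b)), w • y = y) ∧ w • a = b ∧ w • b = a := by
  have hzz : ∀ y : Ω, z • z • y = y := fun y => by rw [← mul_smul, hz, one_smul]
  have hxΓ : x ∉ Γ := fun h => hx (hf x h)
  have hyΓ : z • x ∉ Γ := fun h => hx (by have := hf _ h; rw [hzz] at this; exact this.symm)
  set Γ' := insert x (insert (z • x) ((Γ.erase a).erase b)) with hΓ'
  have hc : Γ'.card = k := by
    have h2 : 2 ≤ k := by
      rw [← hΓ]; exact Finset.one_lt_card.2 ⟨a, ha, b, hb, hab⟩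
    rw [hΓ', Finset.card_insert_of_notMem (by simp [hxΓ, hx.symm]),
      Finset.card_insert_of_notMem (by simp [hyΓ]), Finset.card_erase_of_mem (by simp [hb, hab.symm]),
      Finset.card_erase_of_mem ha, hΓ]
    omega
  obtain ⟨g, hg⟩ := exists_map htr hΓ hc
  have hst : ∀ y ∈ Γ', z • y ∈ Γ' := by
    intro y hy
    simp only [hΓ', Finset.mem_insert] at hy ⊢
    rcases hy with rfl | rfl | hy
    · simp
    · simp [hzz]
    · rw [hf y (Finset.mem_of_mem_erase (Finset.mem_of_mem_erase hy))]; simp [hy]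
  obtain ⟨w, hw, hw1, hw2, hw3⟩ := exists_comm_invol (L := Fx G Γ') (w := g * z * g⁻¹) hz
    (Lf.norm (τ := MulAction.toPerm z) (fun _ _ => rfl) hst)
    (mem_Fx.2 fun y hy => by rw [mul_smul, mul_smul, hf _ (hg y hy), smul_inv_smul])
    (fun e => hz1 (conj_eq_one_iff.1 e))
    (by calc g * z * g⁻¹ * (g * z * g⁻¹) = g * (z * z) * g⁻¹ := by group
          _ = 1 := by rw [hz]; group)
  rw [mem_Fx] at hw
  have h1 : w • a ∈ Γ := by
    by_contra hc'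
    refine hz1 (H0 z (insert (w • a) Γ) (by rw [Finset.card_insert_of_notMem hc']; omega) ?_)
    intro y hy
    rcases Finset.mem_insert.1 hy with rfl | hy
    · rw [← mul_smul, hw3, mul_smul, hf a ha]
    · exact hf y hy
  have haΓ' : a ∉ Γ' := by
    simp only [hΓ', Finset.mem_insert, Finset.mem_erase]
    rintro (e | e | e)
    · exact hxΓ (e ▸ ha)
    · exact hyΓ (e ▸ ha)
    · exact e.2.1 rfl
  have h2 : w • a ≠ a := by
    intro e
    refine hw1 (H0 w (insert a Γ') (by rw [Finset.card_insert_of_notMem haΓ']; omega) ?_)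
    intro y hy
    rcases Finset.mem_insert.1 hy with rfl | hy
    · exact e
    · exact hw y hy
  have h3 : w • a = b := by
    by_contra e
    have : w • a ∈ Γ' := by simp [hΓ', h1, h2, e]
    exact h2 (MulAction.injective w (hw _ this))
  exact ⟨w, hw2, hw1, hc, hw, h3, by rw [← h3, ← mul_smul, hw2, one_smul]⟩

theorem caseE (hk : 3 ≤ k) {z : G} (hz : z * z = 1) (hz1 : z ≠ 1) {Γ : Finset Ω} (hΓ : Γ.card = k)
    (hf : ∀ x ∈ Γ, z • x = x) {x : Ω} (hx : x ∉ Γ) : Alt G (insert x Γ) := by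
  have hzx : z • x ≠ x := by
    intro e
    refine hz1 (H0 z (insert x Γ) (by rw [Finset.card_insert_of_notMem hx]; omega) ?_)
    intro y hy
    rcases Finset.mem_insert.1 hy with rfl | hy
    · exact e
    · exact hf y hy
  have k1 : ∀ d ∈ Γ, ∃ g : G, Lf (insert x Γ) (swap x d) g := by
    intro d hd
    obtain ⟨a, ha, b, hb, hab⟩ := Finset.one_lt_card.1
      (show 1 < (Γ.erase d).card by rw [Finset.card_erase_of_mem hd]; omega)
    rw [Finset.mem_erase] at ha hb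
    obtain ⟨w, w1, w2, w3, w4, w5, w6⟩ := E1 htr H0 hz hz1 hΓ hf hzx ha.2 hb.2 hab
    obtain ⟨v, -, -, -, v4, v5, v6⟩ := E1 htr H0 w1 w2 w3 w4 (x := a) (a := x) (b := d)
      (by rw [w5]; exact hab.symm) (by simp) (by simp [hd, ha.1.symm, hb.1.symm])
      (fun e => hx (e ▸ hd))
    refine ⟨v, fun y hy => ?_⟩
    by_cases e1 : y = x
    · rw [e1, v5, swap_apply_left]
    by_cases e2 : y = d
    · rw [e2, v6, swap_apply_right]
    rw [swap_apply_of_ne_of_ne e1 e2]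
    apply v4
    have : y ∈ Γ := by simpa [e1] using hy
    rw [w5]
    by_cases e3 : y = a
    · simp [e3]
    by_cases e4 : y = b
    · simp [e4]
    simp [e1, e2, e3, e4, this]
  refine alt_of_swap fun a ha b hb hab => ?_
  rcases Finset.mem_insert.1 ha with rfl | ha'
  · exact k1 b (by simpa [hab.symm] using hb)
  rcases Finset.mem_insert.1 hb with rfl | hb
  · rw [swap_comm]; exact k1 a ha'
  replace ha := ha'
  obtain ⟨w, -, -, -, w4, w5, w6⟩ := E1 htr H0 hz hz1 hΓ hf hzx ha hb hab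
  refine ⟨w, fun y hy => ?_⟩
  by_cases e1 : y = a
  · rw [e1, w5, swap_apply_left]
  by_cases e2 : y = b
  · rw [e2, w6, swap_apply_right]
  rw [swap_apply_of_ne_of_ne e1 e2]
  apply w4
  rcases Finset.mem_insert.1 hy with rfl | hy
  · simp
  · simp [e1, e2, hy]

end Base

end Cfsg.Agent.Isaacs.LW
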