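import Mathlib
import Cfsg.Agent.Isaacs.LW1

set_option autoImplicit false
set_option linter.unusedSectionVars false

namespace Cfsg.Agent.Isaacs.LW

open MulAction Equiv Cfsg.Agent.Perm

variable {G Ω : Type*} [Group G] [Finite G] [MulAction G Ω] [Fintype Ω] [DecidableEq Ω]

/-- fixed points as a finset -/
def fixF (t : G) : Finset Ω := Finset.univ.filter fun x => t • x = x

@[simp] theorem mem_fixF {t : G} {x : Ω} : x ∈ fixF t ↔ t • x = x := by simp [fixF]

theorem card_fixF_mod {t : G} (ht : t * t = 1) :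
    Fintype.card Ω % 2 = (fixF t : Finset Ω).card % 2 := by
  haveI : Fact (Nat.Prime 2) := ⟨Nat.prime_two⟩
  have := card_modEq_fixedBy (α := Ω) (p := 2) (g := t) (k := 1) (by rw [pow_one, pow_two, ht])
  rw [Nat.card_eq_fintype_card, show fixedBy Ω t = (fixF t : Finset Ω) by ext x; simp,
    Set.ncard_coe_finset] at this
  exact this

theorem fix_of_sq {l : G} (ho : Odd (orderOf l)) {p : Ω} (h : l • l • p = p) : l • p = p := by
  obtain ⟨j, hj⟩ := ho
  have h1 : l ^ 2 ∈ stabilizer G p := by rw [mem_stabilizer_iff, pow_two, mul_smul, h]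
  have h2 := mem_stabilizer_iff.1 (pow_mem h1 j)
  have h3 := pow_orderOf_eq_one l
  rw [hj, pow_succ', pow_mul] at h3
  calc l • p = l • (l ^ 2) ^ j • p := by rw [h2]
    _ = p := by rw [← mul_smul, h3, one_smul]

theorem fix_of_comm {Γ S : Finset Ω} (ho : Odd (Nat.card (Fx G Γ))) {l u : G} (hl : l ∈ Fx G Γ)
    (hc : u * l = l * u) (hS : S ⊆ Γ) (hu : ∀ x ∈ S, u • x = x) {p : Ω} (hp : p ∉ Γ)
    (hup : u • p = p) (hcard : (fixF u : Finset Ω).card ≤ S.card + 2) : l • p = p := by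
  by_contra h1
  have hl' := mem_Fx.1 hl
  have hn : ∀ q, q ∉ Γ → l • q ∉ Γ := fun q hq h =>
    hq (by rw [← MulAction.injective l (hl' _ h)]; exact h)
  have hf : ∀ q : Ω, u • q = q → u • l • q = l • q := fun q hq => by
    rw [← mul_smul, hc, mul_smul, hq]
  have h2 : l • l • p ≠ p := fun e =>
    h1 (fix_of_sq (ho.of_dvd_nat ((Fx G Γ).orderOf_dvd_natCard hl)) e)
  have h3 : l • l • p ≠ l • p := fun e => h1 (MulAction.injective l e)
  have hsub : insert (l • l • p) (insert (l • p) (insert p S)) ⊆ fixF u := by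
    intro x hx
    simp only [Finset.mem_insert] at hx
    rcases hx with rfl | rfl | rfl | hx
    · exact mem_fixF.2 (hf _ (hf _ hup))
    · exact mem_fixF.2 (hf _ hup)
    · exact mem_fixF.2 hup
    · exact mem_fixF.2 (hu x hx)
  have := Finset.card_le_card hsub
  rw [Finset.card_insert_of_notMem (by
      simp only [Finset.mem_insert, not_or]; exact ⟨h3, h2, fun h => hn _ (hn _ hp) (hS h)⟩),
    Finset.card_insert_of_notMem (by
      simp only [Finset.mem_insert, not_or]; exact ⟨h1, fun h => hn _ hp (hS h)⟩),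
    Finset.card_insert_of_notMem (fun h => hp (hS h))] at this
  omega

theorem swap_mem {Γ : Finset Ω} {a b : Ω} (ha : a ∈ Γ) (hb : b ∈ Γ) : ∀ x ∈ Γ, swap a b x ∈ Γ := by
  intro x hx
  rw [swap_apply_def]
  split_ifs <;> assumption

theorem dbl_mem {Γ : Finset Ω} {a b c d : Ω} (ha : a ∈ Γ) (hb : b ∈ Γ) (hc : c ∈ Γ) (hd : d ∈ Γ) :
    ∀ x ∈ Γ, (swap a b * swap c d) x ∈ Γ := fun x hx => swap_mem ha hb _ (swap_mem hc hd x hx)

/-- four distinct points -/
structure D4 (a b c d : Ω) : Prop where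
  ab : a ≠ b
  ac : a ≠ c
  ad : a ≠ d
  bc : b ≠ c
  bd : b ≠ d
  cd : c ≠ d

theorem D4.p1 {a b c d : Ω} (h : D4 a b c d) : D4 a c b d :=
  ⟨h.ac, h.ab, h.ad, h.bc.symm, h.cd, h.bd⟩
theorem D4.p2 {a b c d : Ω} (h : D4 a b c d) : D4 a d b c :=
  ⟨h.ad, h.ab, h.ac, h.bd.symm, h.cd.symm, h.bc⟩
theorem D4.p3 {a b c d : Ω} (h : D4 a b c d) : D4 c d a b :=
  ⟨h.cd, h.ac.symm, h.bc.symm, h.ad.symm, h.bd.symm, h.ab⟩

theorem D4.sq {a b c d : Ω} (h : D4 a b c d) (x : Ω) :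
    (swap a b * swap c d) ((swap a b * swap c d) x) = x := by
  obtain ⟨h1, h2, h3, h4, h5, h6⟩ := h; simp only [Perm.mul_apply, Perm.one_apply, swap_apply_def]; grind

theorem D4.mul {a b c d : Ω} (h : D4 a b c d) :
    (swap a b * swap c d) * (swap a c * swap b d) = swap a d * swap b c := by
  ext x
  obtain ⟨h1, h2, h3, h4, h5, h6⟩ := h; simp only [Perm.mul_apply, Perm.one_apply, swap_apply_def]; grind

theorem exists_D4 {Γ : Finset Ω} (h : 4 ≤ Γ.card) :
    ∃ a b c d, a ∈ Γ ∧ b ∈ Γ ∧ c ∈ Γ ∧ d ∈ Γ ∧ D4 a b c d := by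
  obtain ⟨a, b, c, d, ha, hb, hc, hd, h1, h2, h3, h4, h5, h6⟩ := Finset.three_lt_card_iff.1 h
  exact ⟨a, b, c, d, ha, hb, hc, hd, h1, h2, h3, h4, h5, h6⟩

theorem V4_triv' {Γ : Finset Ω} (ho : Odd (Nat.card (Fx G Γ))) (hex : ∀ τ, ∃ g : G, Lf Γ τ g)
    {a b c d : Ω} (ha : a ∈ Γ) (hb : b ∈ Γ) (hc : c ∈ Γ) (hd : d ∈ Γ) (h : D4 a b c d)
    (c1 : ∀ u : G, u * u = 1 → Lf Γ (swap a b * swap c d) u → ∀ l ∈ Fx G Γ, u * l = l * u → l = 1)
    (c2 : ∀ u : G, u * u = 1 → Lf Γ (swap a c * swap b d) u → ∀ l ∈ Fx G Γ, u * l = l * u → l = 1)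
    (c3 : ∀ u : G, u * u = 1 → Lf Γ (swap a d * swap b c) u → ∀ l ∈ Fx G Γ, u * l = l * u → l = 1) :
    ∀ l ∈ Fx G Γ, l = 1 := by
  obtain ⟨g, hg⟩ := hex (swap a b * swap c d)
  obtain ⟨g', hg'⟩ := hex (swap a c * swap b d)
  exact V4_triv ho (dbl_mem ha hb hc hd) (fun x _ => h.sq x) (dbl_mem ha hc hb hd)
    (fun x _ => h.p1.sq x) (fun x _ => by rw [h.mul]; exact h.p2.sq x) hg hg' c1 c2
    (by rw [h.mul]; exact c3)

theorem sharp_card {k : ℕ} (hk : 4 ≤ k) (htr : IsMultiplyPretransitive G Ω k)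
    (hn : k ≤ Fintype.card Ω) {Γ : Finset Ω} (hΓ : Γ.card = k) (hs : ∀ l ∈ Fx G Γ, l = 1) :
    Fintype.card Ω = k ∨ Fintype.card Ω = k + 1 ∨ Fintype.card Ω = k + 2 ∨
      Fintype.card Ω = k + 7 := by
  have hs' : ∀ Γ' : Finset Ω, Γ'.card = k → ∀ l ∈ Fx G Γ', l = 1 := by
    intro Γ' h' l hl
    obtain ⟨g, hg⟩ := exists_map htr h' hΓ
    refine conj_eq_one_iff.1 (hs (g * l * g⁻¹) (mem_Fx.2 fun y hy => ?_))
    rw [mul_smul, mul_smul, mem_Fx.1 hl _ (hg y hy), smul_inv_smul]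
  obtain ⟨s, -, hsc⟩ := Finset.exists_subset_card_eq (s := Γ) (n := k - 4) (by omega)
  have hcard : Nat.card (SubMulAction.ofFixingSubgroup G (s : Set Ω)) = Fintype.card Ω - (k - 4) := by
    have : Nat.card (SubMulAction.ofFixingSubgroup G (s : Set Ω)) = Nat.card ↥(sᶜ) :=
      Nat.card_congr (Equiv.subtypeEquivRight fun x => by simp [SubMulAction.mem_ofFixingSubgroup_iff])
    rw [this, Nat.card_eq_fintype_card, Fintype.card_coe, Finset.card_compl, hsc]
  haveI := htr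
  have h4 : IsMultiplyPretransitive (fixingSubgroup G (s : Set Ω))
      (SubMulAction.ofFixingSubgroup G (s : Set Ω)) 4 :=
    SubMulAction.ofFixingSubgroup.isMultiplyPretransitive G (s : Set Ω) (n := k)
      (by rw [Set.ncard_coe_finset, hsc]; omega)
  have := sharp4_card h4 (sharp_of_forall fun x hx g hg => Subtype.ext (by
    refine hs' (s ∪ Finset.univ.image fun i => (x i : Ω)) ?_ g (mem_Fx.2 fun y hy => ?_)
    · rw [Finset.card_union_of_disjoint, Finset.card_image_of_injective _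
        (f := fun i => (x i : Ω)) (Subtype.val_injective.comp hx), hsc]
      · simp; omega
      · rw [Finset.disjoint_right]
        intro y hy
        obtain ⟨i, -, rfl⟩ := Finset.mem_image.1 hy
        exact (x i).2
    · rcases Finset.mem_union.1 hy with hy | hy
      · exact mem_Fx.1 g.2 y hy
      · obtain ⟨i, -, rfl⟩ := Finset.mem_image.1 hy
        exact congrArg Subtype.val (hg i))) (by rw [hcard]; omega)
  rw [hcard] at this
  omega

theorem multi_range {k : ℕ} (h : IsMultiplyPretransitive G Ω k) :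
    IsMultiplyPretransitive (toPermHom G Ω).range Ω k := by
  rw [multi_iff] at h ⊢
  intro x y hx hy
  obtain ⟨g, hg⟩ := h x y hx hy
  exact ⟨⟨_, g, rfl⟩, hg⟩

theorem alt_of_multi (h : IsMultiplyPretransitive G Ω (Fintype.card Ω - 2)) (Δ : Finset Ω) :
    Alt G Δ := by
  intro σ hσ _
  rw [← Nat.card_eq_fintype_card] at h
  obtain ⟨g, hg⟩ := IsMultiplyPretransitive.alternatingGroup_le _ _ (multi_range h) (Perm.mem_alternatingGroup.2 hσ)
  exact ⟨g, fun x _ => by rw [← hg]; rfl⟩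

theorem conj_lifts {Γ : Finset Ω} (ho : Odd (Nat.card (Fx G Γ))) {τ : Perm Ω} {u v : G}
    (hτ : ∀ x ∈ Γ, τ x ∈ Γ) (hτ2 : ∀ x ∈ Γ, τ (τ x) = x) (hu : u * u = 1) (hv : v * v = 1)
    (h1 : Lf Γ τ u) (h2 : Lf Γ τ v) : ∃ l ∈ Fx G Γ, l * u * l⁻¹ = v := by
  have h := h1.sq_mem h2 hτ hτ2
  obtain ⟨j, hj⟩ := RankOne.exists_conj_of_odd hu hv
    (ho.of_dvd_nat ((Fx G Γ).orderOf_dvd_natCard h))
  exact ⟨_, inv_mem (pow_mem h j), by rw [inv_inv]; exact hj⟩

theorem notMem_smul {Γ : Finset Ω} {τ : Perm Ω} {g : G} (h1 : Lf Γ τ g) (hτ : ∀ x ∈ Γ, τ x ∈ Γ)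
    {x : Ω} (hx : x ∉ Γ) : g • x ∉ Γ := fun h => hx (h1.mem_of hτ h)

theorem Fx_Lf {Γ : Finset Ω} {l : G} (hl : l ∈ Fx G Γ) : Lf Γ 1 l := mem_Fx.1 hl

section Base
variable {k : ℕ} (hk : 4 ≤ k) (htr : IsMultiplyPretransitive G Ω k) (hn : k < Fintype.card Ω)
  (H0 : ∀ (g : G) (s : Finset Ω), k < s.card → (∀ x ∈ s, g • x = x) → g = 1)
  (HI : ∀ (z : G), z * z = 1 → z ≠ 1 → (fixF z : Finset Ω).card < k)

include HI in
theorem odd_Fx {Γ : Finset Ω} (hΓ : Γ.card = k) : Odd (Nat.card (Fx G Γ)) := by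
  refine odd_of_no_invol fun l hl h2 => ?_
  by_contra h1
  have := HI l h2 h1
  have h3 : Γ ⊆ fixF l := fun x hx => mem_fixF.2 (mem_Fx.1 hl x hx)
  have := Finset.card_le_card h3
  omega

include H0 in
theorem one_of_fix {Γ : Finset Ω} (hΓ : Γ.card = k) {l : G} (hl : l ∈ Fx G Γ) {p : Ω} (hp : p ∉ Γ)
    (h : l • p = p) : l = 1 := by
  refine H0 l (insert p Γ) (by rw [Finset.card_insert_of_notMem hp]; omega) fun x hx => ?_
  rcases Finset.mem_insert.1 hx with rfl | hx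
  · exact h
  · exact mem_Fx.1 hl x hx

include hk htr hn H0 HI in
theorem caseOE (hpar : Fintype.card Ω % 2 = k % 2) (Δ : Finset Ω) : Alt G Δ := by
  have HI2 : ∀ (z : G), z * z = 1 → z ≠ 1 → (fixF z : Finset Ω).card + 2 ≤ k := by
    intro z h1 h2
    have := HI z h1 h2
    have := card_fixF_mod (Ω := Ω) h1
    omega
  obtain ⟨Γ, -, hΓ⟩ := Finset.exists_subset_card_eq (s := (Finset.univ : Finset Ω)) (n := k)
    (by simpa using hn.le)
  have ho := odd_Fx HI hΓ
  have hex : ∀ τ, ∃ g : G, Lf Γ τ g := exists_Lf htr hn.le hΓ.le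
  have key : ∀ a b c d, a ∈ Γ → b ∈ Γ → c ∈ Γ → d ∈ Γ → D4 a b c d → ∀ u : G, u * u = 1 →
      Lf Γ (swap a b * swap c d) u → ∀ l ∈ Fx G Γ, u * l = l * u → l = 1 := by
    intro a b c d ha hb hc hd h u hu hu' l hl hlu
    obtain ⟨t0, ht0⟩ := hex (swap a b)
    obtain ⟨m, t1, t2⟩ := ht0.invol (swap_mem ha hb) (fun x _ => swap_apply_self a b x) ho
    set t := t0 ^ m
    have hta : t • a = b := by rw [t2 a ha, swap_apply_left]
    have ht1 : t ≠ 1 := fun e => h.ab (by rw [← hta, e, one_smul])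
    obtain ⟨x, hx⟩ := exists_notMem_of_card_lt Γ (by rw [Nat.card_eq_fintype_card]; omega)
    have hy : t • x ∉ Γ := notMem_smul t2 (swap_mem ha hb) hx
    have hxy : t • x ≠ x := by
      intro e
      have hsub : insert x ((Γ.erase a).erase b) ⊆ fixF t := by
        intro y hy
        rcases Finset.mem_insert.1 hy with rfl | hy
        · exact mem_fixF.2 e
        · simp only [Finset.mem_erase] at hy
          exact mem_fixF.2 (by rw [t2 y hy.2.2, swap_apply_of_ne_of_ne hy.2.1 hy.1])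
      have h1 := Finset.card_le_card hsub
      rw [Finset.card_insert_of_notMem (by simp [hx]),
        Finset.card_erase_of_mem (by simp [hb, h.ab.symm]), Finset.card_erase_of_mem ha] at h1
      have := HI2 t t1 ht1
      omega
    have htt : t • t • x = x := by rw [← mul_smul, t1, one_smul]
    obtain ⟨g, hg⟩ := hex (swap c x * swap d (t • x))
    have hne : ∀ y ∈ Γ, y ≠ x ∧ y ≠ t • x := fun y hy' => ⟨fun e => hx (e ▸ hy'), fun e => hy (e ▸ hy')⟩
    have gc : g • c = x := by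
      rw [hg c hc, Perm.mul_apply, swap_apply_of_ne_of_ne h.cd (hne c hc).2, swap_apply_left]
    have gd : g • d = t • x := by
      rw [hg d hd, Perm.mul_apply, swap_apply_left,
        swap_apply_of_ne_of_ne (hne c hc).2.symm hxy]
    have go : ∀ y ∈ Γ, y ≠ c → y ≠ d → g • y = y := fun y hy' e1 e2 => by
      rw [hg y hy', Perm.mul_apply, swap_apply_of_ne_of_ne e2 (hne y hy').2,
        swap_apply_of_ne_of_ne e1 (hne y hy').1]
    have hu0 : Lf Γ (swap a b * swap c d) (g⁻¹ * t * g) := by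
      intro y hy'
      rw [mul_smul, mul_smul, inv_smul_eq_iff, Perm.mul_apply]
      by_cases e1 : y = c
      · rw [e1, gc, swap_apply_left, swap_apply_of_ne_of_ne h.ad.symm h.bd.symm, gd]
      by_cases e2 : y = d
      · rw [e2, gd, swap_apply_right, swap_apply_of_ne_of_ne h.ac.symm h.bc.symm, gc, htt]
      rw [go y hy' e1 e2, t2 y hy', swap_apply_of_ne_of_ne e1 e2, go _ (swap_mem ha hb y hy')]
      · obtain ⟨h1, h2, h3, h4, h5, h6⟩ := h; simp only [Perm.mul_apply, Perm.one_apply, swap_apply_def]; grind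
      · obtain ⟨h1, h2, h3, h4, h5, h6⟩ := h; simp only [Perm.mul_apply, Perm.one_apply, swap_apply_def]; grind
    obtain ⟨l0, hl0, e0⟩ := conj_lifts ho (dbl_mem ha hb hc hd) (fun x _ => h.sq x)
      (show (g⁻¹ * t * g) * (g⁻¹ * t * g) = 1 by
        calc (g⁻¹ * t * g) * (g⁻¹ * t * g) = g⁻¹ * (t * t) * g := by group
          _ = 1 := by rw [t1]; group) hu hu0 hu'
    have hp0 : g⁻¹ • c ∉ Γ := by
      intro hm
      have e : g • g⁻¹ • c = c := smul_inv_smul g c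
      by_cases e1 : g⁻¹ • c = c
      · rw [e1, gc] at e; exact (hne c hc).1 e.symm
      by_cases e2 : g⁻¹ • c = d
      · rw [e2, gd] at e; exact (hne c hc).2 e.symm
      rw [go _ hm e1 e2] at e
      exact e1 e
    have hp : l0 • g⁻¹ • c ∉ Γ := notMem_smul (Fx_Lf hl0) (fun x hx => hx) hp0
    have hup : u • l0 • g⁻¹ • c = l0 • g⁻¹ • c := by
      rw [← e0]
      simp only [mul_smul, inv_smul_smul, smul_inv_smul]
      rw [t2 c hc, swap_apply_of_ne_of_ne h.ac.symm h.bc.symm]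
    have hu1 : u ≠ 1 := fun e => h.ab (by
      have := hu' a ha
      rw [e, one_smul, Perm.mul_apply, swap_apply_of_ne_of_ne h.ac h.ad, swap_apply_left] at this
      exact this)
    refine one_of_fix H0 hΓ hl hp (fix_of_comm ho hl hlu
      (S := (((Γ.erase a).erase b).erase c).erase d) (fun y hy => ?_) (fun y hy => ?_) hp hup ?_)
    · simp only [Finset.mem_erase] at hy; exact hy.2.2.2.2
    · simp only [Finset.mem_erase] at hy
      rw [hu' y hy.2.2.2.2, Perm.mul_apply, swap_apply_of_ne_of_ne hy.2.1 hy.1,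
        swap_apply_of_ne_of_ne hy.2.2.2.1 hy.2.2.1]
    · rw [Finset.card_erase_of_mem (by simp [hd, h.ad.symm, h.bd.symm, h.cd.symm]),
        Finset.card_erase_of_mem (by simp [hc, h.ac.symm, h.bc.symm]),
        Finset.card_erase_of_mem (by simp [hb, h.ab.symm]), Finset.card_erase_of_mem ha]
      have := HI2 u hu hu1
      omega
  obtain ⟨a, b, c, d, ha, hb, hc, hd, h⟩ := exists_D4 (Γ := Γ) (by omega)
  have := sharp_card hk htr hn.le hΓ (V4_triv' ho hex ha hb hc hd h (key _ _ _ _ ha hb hc hd h)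
    (key _ _ _ _ ha hc hb hd h.p1) (key _ _ _ _ ha hd hb hc h.p2))
  refine alt_of_multi ?_ Δ
  rwa [show Fintype.card Ω - 2 = k by omega]

end Base

end Cfsg.Agent.Isaacs.LW
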