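import Mathlib
import Cfsg.Agent.Isaacs.LW2

set_option autoImplicit false
set_option linter.unusedSectionVars false

namespace Cfsg.Agent.Isaacs.LW

open MulAction Equiv Cfsg.Agent.Perm

variable {G Ω : Type*} [Group G] [Finite G] [MulAction G Ω] [Fintype Ω] [DecidableEq Ω]

theorem D4.ext {a b c d : Ω} {σ ρ : Perm Ω} (h1 : σ a = ρ a) (h2 : σ b = ρ b) (h3 : σ c = ρ c)
    (h4 : σ d = ρ d) (h5 : ∀ x, x ≠ a → x ≠ b → x ≠ c → x ≠ d → σ x = ρ x) : σ = ρ := by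
  ext x
  by_cases e1 : x = a
  · rw [e1, h1]
  by_cases e2 : x = b
  · rw [e2, h2]
  by_cases e3 : x = c
  · rw [e3, h3]
  by_cases e4 : x = d
  · rw [e4, h4]
  exact h5 x e1 e2 e3 e4

theorem D4.m13 {a b c d : Ω} (h : D4 a b c d) :
    (swap a b * swap c d) * (swap a d * swap b c) = swap a c * swap b d := by
  obtain ⟨h1, h2, h3, h4, h5, h6⟩ := h
  refine D4.ext (a := a) (b := b) (c := c) (d := d) ?_ ?_ ?_ ?_ (fun x e1 e2 e3 e4 => ?_) <;>
    simp [swap_apply_def, *, h1.symm, h2.symm, h3.symm, h4.symm, h5.symm, h6.symm]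

theorem D4.m23 {a b c d : Ω} (h : D4 a b c d) :
    (swap a c * swap b d) * (swap a d * swap b c) = swap a b * swap c d := by
  obtain ⟨h1, h2, h3, h4, h5, h6⟩ := h
  refine D4.ext (a := a) (b := b) (c := c) (d := d) ?_ ?_ ?_ ?_ (fun x e1 e2 e3 e4 => ?_) <;>
    simp [swap_apply_def, *, h1.symm, h2.symm, h3.symm, h4.symm, h5.symm, h6.symm]

theorem D4.t2 {a b c d : Ω} (h : D4 a b c d) :
    swap a b * (swap a c * swap b d) * (swap a b * (swap a c * swap b d)) = swap a b * swap c d := by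
  obtain ⟨h1, h2, h3, h4, h5, h6⟩ := h
  refine D4.ext (a := a) (b := b) (c := c) (d := d) ?_ ?_ ?_ ?_ (fun x e1 e2 e3 e4 => ?_) <;>
    simp [swap_apply_def, *, h1.symm, h2.symm, h3.symm, h4.symm, h5.symm, h6.symm]

theorem D4.t3 {a b c d : Ω} (h : D4 a b c d) :
    swap a b * (swap a d * swap b c) * (swap a b * (swap a d * swap b c)) = swap a b * swap c d := by
  obtain ⟨h1, h2, h3, h4, h5, h6⟩ := h
  refine D4.ext (a := a) (b := b) (c := c) (d := d) ?_ ?_ ?_ ?_ (fun x e1 e2 e3 e4 => ?_) <;>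
    simp [swap_apply_def, *, h1.symm, h2.symm, h3.symm, h4.symm, h5.symm, h6.symm]

/-- points outside `Γ` fixed by a lift of `τ` -/
def Ob (G : Type*) [Group G] [MulAction G Ω] (Γ : Finset Ω) (τ : Perm Ω) : Set Ω :=
  {x | x ∉ Γ ∧ ∃ g : G, Lf Γ τ g ∧ g • x = x}

theorem Ob.map {Γ : Finset Ω} {τ ρ : Perm Ω} {g : G} (hg : Lf Γ ρ g) (hρ : ∀ x ∈ Γ, ρ x ∈ Γ)
    (hτ : ∀ x ∈ Γ, τ x ∈ Γ) {x : Ω} (hx : x ∈ Ob G Γ τ) : g • x ∈ Ob G Γ (ρ * τ * ρ⁻¹) := by
  obtain ⟨h1, t, h2, h3⟩ := hx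
  refine ⟨notMem_smul hg hρ h1, g * t * g⁻¹, fun y hy => ?_, by simp [mul_smul, h3]⟩
  have h4 : g⁻¹ • y ∈ Γ := hg.mem_of hρ (by rwa [smul_inv_smul])
  have h5 : ρ⁻¹ y = g⁻¹ • y := by
    rw [Perm.inv_eq_iff_eq, ← hg _ h4, smul_inv_smul]
  rw [mul_smul, mul_smul, h2 _ h4, hg _ (hτ _ h4), Perm.mul_apply, Perm.mul_apply, h5]

theorem Ob.map_swap {Γ : Finset Ω} {ρ : Perm Ω} {g : G} (hg : Lf Γ ρ g) (hρ : ∀ x ∈ Γ, ρ x ∈ Γ)
    {a b : Ω} (ha : a ∈ Γ) (hb : b ∈ Γ) {x : Ω} (hx : x ∈ Ob G Γ (swap a b)) :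
    g • x ∈ Ob G Γ (swap (ρ a) (ρ b)) := by
  rw [swap_apply_apply]
  exact Ob.map hg hρ (swap_mem ha hb) hx

theorem pow_fix {g : G} {x : Ω} (h : g • x = x) (m : ℕ) : g ^ m • x = x :=
  mem_stabilizer_iff.1 (pow_mem (mem_stabilizer_iff.2 h) m)

section Base
variable {k : ℕ} (hk : 4 ≤ k) (htr : IsMultiplyPretransitive G Ω k) (hn : k < Fintype.card Ω)
  (H0 : ∀ (g : G) (s : Finset Ω), k < s.card → (∀ x ∈ s, g • x = x) → g = 1)
  (HI : ∀ (z : G), z * z = 1 → z ≠ 1 → (fixF z : Finset Ω).card < k)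
  (hpar : Fintype.card Ω % 2 ≠ k % 2) {Γ : Finset Ω} (hΓ : Γ.card = k)

include hk hpar hΓ in
theorem O1 {a b : Ω} (ha : a ∈ Γ) (hb : b ∈ Γ) (hab : a ≠ b) {t : G} (ht : t * t = 1)
    (h : Lf Γ (swap a b) t) : ∃ x, x ∉ Γ ∧ t • x = x := by
  by_contra hc
  push Not at hc
  have h1 : (fixF t : Finset Ω) = (Γ.erase a).erase b := by
    ext y
    simp only [mem_fixF, Finset.mem_erase]
    constructor
    · intro hy
      have h2 : y ∈ Γ := by by_contra e; exact hc y e hy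
      rw [h y h2] at hy
      refine ⟨?_, ?_, h2⟩
      · rintro rfl; rw [swap_apply_right] at hy; exact hab hy
      · rintro rfl; rw [swap_apply_left] at hy; exact hab hy.symm
    · rintro ⟨e1, e2, e3⟩
      rw [h y e3, swap_apply_of_ne_of_ne e2 e1]
  have := card_fixF_mod (Ω := Ω) ht
  rw [h1, Finset.card_erase_of_mem (by simp [hb, hab.symm]), Finset.card_erase_of_mem ha] at this
  omega

include hk HI hΓ in
theorem O2 {a b : Ω} (ha : a ∈ Γ) (hb : b ∈ Γ) (hab : a ≠ b) {t : G} (ht : t * t = 1)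
    (h : Lf Γ (swap a b) t) {x y : Ω} (hx : x ∉ Γ) (hy : y ∉ Γ) (h1 : t • x = x) (h2 : t • y = y) :
    x = y := by
  by_contra hxy
  have ht1 : t ≠ 1 := fun e => hab (by
    have := h a ha
    rwa [e, one_smul, swap_apply_left] at this)
  have hsub : insert x (insert y ((Γ.erase a).erase b)) ⊆ fixF t := by
    intro z hz
    simp only [Finset.mem_insert, Finset.mem_erase] at hz
    rcases hz with rfl | rfl | hz
    · exact mem_fixF.2 h1
    · exact mem_fixF.2 h2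
    · exact mem_fixF.2 (by rw [h z hz.2.2, swap_apply_of_ne_of_ne hz.2.1 hz.1])
  have h3 := Finset.card_le_card hsub
  rw [Finset.card_insert_of_notMem (by simp [hx, hxy]), Finset.card_insert_of_notMem (by simp [hy]),
    Finset.card_erase_of_mem (by simp [hb, hab.symm]), Finset.card_erase_of_mem ha] at h3
  have := HI t ht ht1
  omega

include hk HI hΓ in
theorem O3 {a b : Ω} (ha : a ∈ Γ) (hb : b ∈ Γ) (hab : a ≠ b) {x : Ω} (hx : x ∈ Ob G Γ (swap a b)) :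
    Ob G Γ (swap a b) = orbit (Fx G Γ) x := by
  have ho := odd_Fx HI hΓ
  ext y
  constructor
  · rintro ⟨h1, t, h2, h3⟩
    obtain ⟨k1, s, k2, k3⟩ := hx
    obtain ⟨m, t1, t2⟩ := h2.invol (swap_mem ha hb) (fun x _ => swap_apply_self a b x) ho
    obtain ⟨m', s1, s2⟩ := k2.invol (swap_mem ha hb) (fun x _ => swap_apply_self a b x) ho
    obtain ⟨l, hl, e⟩ := conj_lifts ho (swap_mem ha hb) (fun x _ => swap_apply_self a b x) s1 t1 s2 t2
    refine ⟨⟨l, hl⟩, O2 hk HI hΓ ha hb hab t1 t2 (notMem_smul (Fx_Lf hl) (fun x hx => hx) k1) h1 ?_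
      (pow_fix h3 m)⟩
    show t ^ m • l • x = l • x
    rw [← e, mul_smul, mul_smul, inv_smul_smul, pow_fix k3]
  · rintro ⟨l, rfl⟩
    have := Ob.map (Fx_Lf l.2) (fun x hx => hx) (swap_mem ha hb) hx
    rwa [one_mul, inv_one, mul_one] at this

include hk htr hn HI hpar hΓ in
theorem O0 {a b : Ω} (ha : a ∈ Γ) (hb : b ∈ Γ) (hab : a ≠ b) : (Ob G Γ (swap a b)).Nonempty := by
  obtain ⟨t, h2⟩ := exists_Lf htr hn.le hΓ.le (swap a b)
  obtain ⟨m, t1, t2⟩ := h2.invol (swap_mem ha hb) (fun x _ => swap_apply_self a b x) (odd_Fx HI hΓ)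
  obtain ⟨x, h1, h3⟩ := O1 hk hpar hΓ ha hb hab t1 t2
  exact ⟨x, h1, _, t2, h3⟩

include hk htr hn HI hpar hΓ in
theorem O4 {a b : Ω} (ha : a ∈ Γ) (hb : b ∈ Γ) (hab : a ≠ b) {v : G} (hv : v * v = 1)
    (h : ∀ x ∈ Ob G Γ (swap a b), v • x ∈ Ob G Γ (swap a b)) :
    ∃ x ∈ Ob G Γ (swap a b), v • x = x := by
  haveI : Fact (Nat.Prime 2) := ⟨Nat.prime_two⟩
  obtain ⟨x, hx⟩ := O0 hk htr hn HI hpar hΓ ha hb hab
  have h1 := ncard_modEq_fixedBy (p := 2) (g := v) (k := 1) (by rw [pow_one, pow_two, hv]) _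
    (Set.toFinite _) h
  have h2 : Odd (Ob G Γ (swap a b)).ncard := by
    rw [O3 hk HI hΓ ha hb hab hx]
    refine (odd_Fx HI hΓ).of_dvd_nat ?_
    rw [← index_stabilizer]
    exact Subgroup.index_dvd_card _
  by_contra hc
  rw [show {x | x ∈ Ob G Γ (swap a b) ∧ v • x = x} = ∅ from
    Set.eq_empty_of_forall_notMem fun y hy => hc ⟨y, hy.1, hy.2⟩, Set.ncard_empty] at h1
  exact (Nat.not_even_iff_odd.2 h2) (even_iff_two_dvd.2 (Nat.modEq_zero_iff_dvd.1 h1))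

include hk htr hn HI hpar hΓ in
theorem O5 {a b c d : Ω} (ha : a ∈ Γ) (hb : b ∈ Γ) (hc : c ∈ Γ) (hd : d ∈ Γ) (h : D4 a b c d) :
    Ob G Γ (swap a b) = Ob G Γ (swap c d) := by
  obtain ⟨t, h2⟩ := exists_Lf htr hn.le hΓ.le (swap a b)
  obtain ⟨m, t1, t2⟩ := h2.invol (swap_mem ha hb) (fun x _ => swap_apply_self a b x) (odd_Fx HI hΓ)
  obtain ⟨x, h1, h3⟩ := O4 hk htr hn HI hpar hΓ hc hd h.cd t1 (fun x hx => by
    have := Ob.map_swap t2 (swap_mem ha hb) hc hd hx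
    rwa [swap_apply_of_ne_of_ne h.ac.symm h.bc.symm, swap_apply_of_ne_of_ne h.ad.symm h.bd.symm] at this)
  rw [O3 hk HI hΓ hc hd h.cd h1, O3 hk HI hΓ ha hb h.ab ⟨h1.1, _, t2, h3⟩]

include hk htr hn H0 HI hpar hΓ in
theorem O6four (hk4 : k = 4) {a b c d : Ω} (ha : a ∈ Γ) (hb : b ∈ Γ) (hc : c ∈ Γ) (hd : d ∈ Γ)
    (h : D4 a b c d) : Ob G Γ (swap a b) = Ob G Γ (swap a c) := by
  have ho := odd_Fx HI hΓ
  have hex : ∀ τ, ∃ g : G, Lf Γ τ g := exists_Lf htr hn.le hΓ.le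
  have eA := O5 hk htr hn HI hpar hΓ ha hb hc hd h
  have eB := O5 hk htr hn HI hpar hΓ ha hc hb hd h.p1
  have eC := O5 hk htr hn HI hpar hΓ ha hd hb hc h.p2
  set A := Ob G Γ (swap a b) with hA
  set B := Ob G Γ (swap a c) with hB
  set C := Ob G Γ (swap a d) with hC
  by_contra hne
  have dAB : ∀ x ∈ A, x ∉ B := fun x h1 h2 =>
    hne (by rw [hA, hB, O3 hk HI hΓ ha hb h.ab h1, O3 hk HI hΓ ha hc h.ac h2])
  have dAC : ∀ x ∈ A, x ∉ C := by
    intro x h1 h2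
    obtain ⟨g, hg⟩ := hex (swap c d)
    have k1 := Ob.map_swap hg (swap_mem hc hd) ha hb h1
    have k2 := Ob.map_swap hg (swap_mem hc hd) ha hd h2
    rw [swap_apply_of_ne_of_ne h.ac h.ad] at k1 k2
    rw [swap_apply_of_ne_of_ne h.bc h.bd] at k1
    rw [swap_apply_right] at k2
    exact dAB _ k1 k2
  have dBC : ∀ x ∈ B, x ∉ C := by
    intro x h1 h2
    obtain ⟨g, hg⟩ := hex (swap b d)
    have k1 := Ob.map_swap hg (swap_mem hb hd) ha hc h1
    have k2 := Ob.map_swap hg (swap_mem hb hd) ha hd h2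
    rw [swap_apply_of_ne_of_ne h.ab h.ad] at k1 k2
    rw [swap_apply_of_ne_of_ne h.bc.symm h.cd] at k1
    rw [swap_apply_right] at k2
    exact dAB _ k2 k1
  -- the double transpositions
  let V : Perm Ω → Prop := fun τ =>
    τ = swap a b * swap c d ∨ τ = swap a c * swap b d ∨ τ = swap a d * swap b c
  have V1 : ∀ τ, V τ → ∀ x ∈ Γ, τ x ∈ Γ := by
    rintro τ (rfl | rfl | rfl)
    exacts [dbl_mem ha hb hc hd, dbl_mem ha hc hb hd, dbl_mem ha hd hb hc]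
  have V2 : ∀ τ, V τ → ∀ x ∈ Γ, τ (τ x) = x := by
    rintro τ (rfl | rfl | rfl) x -
    exacts [h.sq x, h.p1.sq x, h.p2.sq x]
  have V3 : ∀ τ, V τ → τ a ≠ a ∧ (swap (τ a) (τ b) = swap a b ∨ swap (τ a) (τ b) = swap c d) ∧
      (swap (τ a) (τ c) = swap a c ∨ swap (τ a) (τ c) = swap b d) ∧
      (swap (τ a) (τ d) = swap a d ∨ swap (τ a) (τ d) = swap b c) := by
    obtain ⟨h1, h2, h3, h4, h5, h6⟩ := h
    rintro τ (rfl | rfl | rfl) <;>
      simp [swap_apply_def, h1, h2, h3, h4, h5, h6, h1.symm, h2.symm, h3.symm, h4.symm, h5.symm,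
        h6.symm, swap_comm]
  have V4 : ∀ τ, V τ → ∀ u : G, Lf Γ τ u →
      (∀ x ∈ A, u • x ∈ A) ∧ (∀ x ∈ B, u • x ∈ B) ∧ (∀ x ∈ C, u • x ∈ C) := by
    intro τ hτ u hu
    obtain ⟨-, k1, k2, k3⟩ := V3 τ hτ
    refine ⟨fun x hx => ?_, fun x hx => ?_, fun x hx => ?_⟩
    · have := Ob.map_swap hu (V1 τ hτ) ha hb hx
      rcases k1 with e | e <;> rw [e] at this
      exacts [this, eA ▸ this]
    · have := Ob.map_swap hu (V1 τ hτ) ha hc hx
      rcases k2 with e | e <;> rw [e] at this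
      exacts [this, eB ▸ this]
    · have := Ob.map_swap hu (V1 τ hτ) ha hd hx
      rcases k3 with e | e <;> rw [e] at this
      exacts [this, eC ▸ this]
  have V5 : ∀ τ, V τ → ∀ u : G, u * u = 1 → Lf Γ τ u → ∃ p ∈ A, ∃ q ∈ B, ∃ r ∈ C,
      u • p = p ∧ ∀ y : Ω, u • y = y → y = p ∨ y = q ∨ y = r := by
    intro τ hτ u h1 h2
    obtain ⟨k1, k2, k3⟩ := V4 τ hτ u h2
    obtain ⟨p, p1, p2⟩ := O4 hk htr hn HI hpar hΓ ha hb h.ab h1 k1
    obtain ⟨q, q1, q2⟩ := O4 hk htr hn HI hpar hΓ ha hc h.ac h1 k2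
    obtain ⟨r, r1, r2⟩ := O4 hk htr hn HI hpar hΓ ha hd h.ad h1 k3
    refine ⟨p, p1, q, q1, r, r1, p2, fun y hy => ?_⟩
    by_contra hcon
    push Not at hcon
    have hu1 : u ≠ 1 := fun e => (V3 τ hτ).1 (by rw [← h2 a ha, e, one_smul])
    have hsub : ({y, p, q, r} : Finset Ω) ⊆ fixF u := by
      intro z hz
      simp only [Finset.mem_insert, Finset.mem_singleton] at hz
      rcases hz with rfl | rfl | rfl | rfl <;> exact mem_fixF.2 ‹_›
    have h3 := Finset.card_le_card hsub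
    have pq : p ≠ q := fun e => dAB p p1 (e ▸ q1)
    have pr : p ≠ r := fun e => dAC p p1 (e ▸ r1)
    have qr : q ≠ r := fun e => dBC q q1 (e ▸ r1)
    rw [Finset.card_insert_of_notMem (by simp [hcon]), Finset.card_insert_of_notMem (by simp [pq, pr]),
      Finset.card_pair qr] at h3
    have := HI u h1 hu1
    omega
  have V6 : ∀ τ, V τ → ∀ u : G, u * u = 1 → Lf Γ τ u → ∀ l ∈ Fx G Γ, u * l = l * u → l = 1 := by
    intro τ hτ u h1 h2 l hl hlu
    obtain ⟨p, p1, q, q1, r, r1, p2, h3⟩ := V5 τ hτ u h1 h2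
    have h4 : l • p ∈ A := by
      rw [hA, O3 hk HI hΓ ha hb h.ab p1]; exact ⟨⟨l, hl⟩, rfl⟩
    rcases h3 (l • p) (by rw [← mul_smul, hlu, mul_smul, p2]) with e | e | e
    · exact one_of_fix H0 hΓ hl p1.1 e
    · exact absurd (e ▸ q1) (dAB _ h4)
    · exact absurd (e ▸ r1) (dAC _ h4)
  have hL := V4_triv' ho hex ha hb hc hd h (V6 _ (Or.inl rfl)) (V6 _ (Or.inr (Or.inl rfl)))
    (V6 _ (Or.inr (Or.inr rfl)))
  have hcard := sharp_card hk htr hn.le hΓ hL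
  obtain ⟨p, p1⟩ := O0 hk htr hn HI hpar hΓ ha hb h.ab
  obtain ⟨q, q1⟩ := O0 hk htr hn HI hpar hΓ ha hc h.ac
  obtain ⟨r, r1⟩ := O0 hk htr hn HI hpar hΓ ha hd h.ad
  have sg : ∀ {e f : Ω}, e ∈ Γ → f ∈ Γ → e ≠ f → ∀ x ∈ Ob G Γ (swap e f), ∀ y ∈ Ob G Γ (swap e f),
      y = x := by
    intro e f he hf hef x hx y hy
    rw [O3 hk HI hΓ he hf hef hx] at hy
    obtain ⟨l, rfl⟩ := hy
    show (l : G) • x = x
    rw [hL l l.2, one_smul]
  have pq : p ≠ q := fun e => dAB p p1 (e ▸ q1)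
  have pr : p ≠ r := fun e => dAC p p1 (e ▸ r1)
  have qr : q ≠ r := fun e => dBC q q1 (e ▸ r1)
  set S : Finset Ω := insert p (insert q (insert r Γ)) with hS
  have hSc : S.card = 7 := by
    rw [hS, Finset.card_insert_of_notMem (by simp [pq, pr, p1.1]),
      Finset.card_insert_of_notMem (by simp [qr, q1.1]), Finset.card_insert_of_notMem r1.1]
    omega
  have hS' : ∀ y, y ∈ S ↔ y ∈ Γ ∨ y ∈ A ∨ y ∈ B ∨ y ∈ C := by
    intro y
    simp only [hS, Finset.mem_insert]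
    constructor
    · rintro (rfl | rfl | rfl | e)
      exacts [Or.inr (Or.inl p1), Or.inr (Or.inr (Or.inl q1)), Or.inr (Or.inr (Or.inr r1)), Or.inl e]
    · rintro (e | e | e | e)
      · simp [e]
      · simp [sg ha hb h.ab p p1 y e]
      · simp [sg ha hc h.ac q q1 y e]
      · simp [sg ha hd h.ad r r1 y e]
  have h11 : Fintype.card Ω = 11 := by
    have := Finset.card_le_univ S
    omega
  obtain ⟨y, hy⟩ := exists_notMem_of_card_lt S (by rw [Nat.card_eq_fintype_card]; omega)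
  have inv : ∀ τ, (∀ x ∈ Γ, τ x ∈ Γ) → (∀ x ∈ Γ, τ (τ x) = x) → ∀ u : G, Lf Γ τ u → u * u = 1 :=
    fun τ h1 h2 u hu => hL _ (hu.sq_mem hu h1 h2)
  have nV : ∀ τ, V τ → ∀ u : G, Lf Γ τ u → u • y ≠ y := by
    intro τ hτ u hu e
    obtain ⟨p', p1, q', q1, r', r1, -, h3⟩ := V5 τ hτ u (inv τ (V1 τ hτ) (V2 τ hτ) u hu) hu
    apply hy
    rw [hS']
    rcases h3 y e with rfl | rfl | rfl
    exacts [Or.inr (Or.inl p1), Or.inr (Or.inr (Or.inl q1)), Or.inr (Or.inr (Or.inr r1))]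
  have cV : ∀ τ, V τ → ∀ u : G, Lf Γ τ u → u • y ∉ S := by
    intro τ hτ u hu e
    have h1 : u • u • y = y := by rw [← mul_smul, inv τ (V1 τ hτ) (V2 τ hτ) u hu, one_smul]
    obtain ⟨k1, k2, k3⟩ := V4 τ hτ u hu
    apply hy
    rw [hS'] at e ⊢
    rw [← h1]
    rcases e with e | e | e | e
    · left; rw [hu _ e]; exact V1 τ hτ _ e
    · exact Or.inr (Or.inl (k1 _ e))
    · exact Or.inr (Or.inr (Or.inl (k2 _ e)))
    · exact Or.inr (Or.inr (Or.inr (k3 _ e)))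
  obtain ⟨u1, hu1⟩ := hex (swap a b * swap c d)
  obtain ⟨u2, hu2⟩ := hex (swap a c * swap b d)
  obtain ⟨u3, hu3⟩ := hex (swap a d * swap b c)
  obtain ⟨t, ht⟩ := hex (swap a b)
  have tt : t * t = 1 := inv _ (swap_mem ha hb) (fun x _ => swap_apply_self a b x) t ht
  have ct : t • y ∉ S := by
    intro e
    have h1 : t • t • y = y := by rw [← mul_smul, tt, one_smul]
    apply hy
    rw [hS'] at e ⊢
    rw [← h1]
    rcases e with e | e | e | e
    · left; rw [ht _ e]; exact swap_mem ha hb _ e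
    · have := Ob.map_swap ht (swap_mem ha hb) ha hb e
      rw [swap_apply_left, swap_apply_right, swap_comm] at this
      exact Or.inr (Or.inl this)
    · have := Ob.map_swap ht (swap_mem ha hb) ha hc e
      rw [swap_apply_left, swap_apply_of_ne_of_ne h.ac.symm h.bc.symm, ← eC] at this
      exact Or.inr (Or.inr (Or.inr this))
    · have := Ob.map_swap ht (swap_mem ha hb) ha hd e
      rw [swap_apply_left, swap_apply_of_ne_of_ne h.ad.symm h.bd.symm, ← eB] at this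
      exact Or.inr (Or.inr (Or.inl this))
  have hyΓ : y ∉ Γ := fun e => hy ((hS' y).2 (Or.inl e))
  have hyA : y ∉ A := fun e => hy ((hS' y).2 (Or.inr (Or.inl e)))
  have v1 : V (swap a b * swap c d) := Or.inl rfl
  have v2 : V (swap a c * swap b d) := Or.inr (Or.inl rfl)
  have v3 : V (swap a d * swap b c) := Or.inr (Or.inr rfl)
  have i1 := inv _ (V1 _ v1) (V2 _ v1) u1 hu1
  have i2 := inv _ (V1 _ v2) (V2 _ v2) u2 hu2
  have i3 := inv _ (V1 _ v3) (V2 _ v3) u3 hu3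
  have hfix : ∀ {u w : G}, u * u = 1 → u • y = w • y → (u * w) • y = y := by
    intro u w h1 h2
    rw [mul_smul, ← h2, ← mul_smul, h1, one_smul]
  have n12 : u1 • y ≠ u2 • y := fun e =>
    nV _ v3 _ (by rw [← h.mul]; exact hu1.mul hu2 (V1 _ v2)) (hfix i1 e)
  have n13 : u1 • y ≠ u3 • y := fun e =>
    nV _ v2 _ ((hu1.mul hu3 (V1 _ v3)).congr fun x _ => by rw [h.m13]) (hfix i1 e)
  have n23 : u2 • y ≠ u3 • y := fun e =>
    nV _ v1 _ ((hu2.mul hu3 (V1 _ v3)).congr fun x _ => by rw [h.m23]) (hfix i2 e)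
  have nt0 : t • y ≠ y := fun e => hyA ⟨hyΓ, t, ht, e⟩
  have nt1 : t • y ≠ u1 • y := fun e => hyA (eA ▸ ⟨hyΓ, t * u1,
    (ht.mul hu1 (V1 _ v1)).congr fun x _ => by simp, hfix tt e⟩)
  have nt2 : t • y ≠ u2 • y := fun e =>
    nV _ v1 (t * u2 * (t * u2)) (((ht.mul hu2 (V1 _ v2)).mul (ht.mul hu2 (V1 _ v2))
      fun x hx => swap_mem ha hb _ (V1 _ v2 x hx)).congr fun x _ => by rw [h.t2])
      (by rw [mul_smul, hfix tt e, hfix tt e])
  have nt3 : t • y ≠ u3 • y := fun e =>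
    nV _ v1 (t * u3 * (t * u3)) (((ht.mul hu3 (V1 _ v3)).mul (ht.mul hu3 (V1 _ v3))
      fun x hx => swap_mem ha hb _ (V1 _ v3 x hx)).congr fun x _ => by rw [h.t3])
      (by rw [mul_smul, hfix tt e, hfix tt e])
  have m1 := nV _ v1 _ hu1
  have m2 := nV _ v2 _ hu2
  have m3 := nV _ v3 _ hu3
  have := Finset.card_le_univ (insert (t • y) (insert (u1 • y) (insert (u2 • y) (insert (u3 • y)
    (insert y S)))))
  rw [Finset.card_insert_of_notMem (by simp [nt0, nt1, nt2, nt3, ct]),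
    Finset.card_insert_of_notMem (by simp [n12, n13, m1, cV _ v1 _ hu1]),
    Finset.card_insert_of_notMem (by simp [n23, m2, cV _ v2 _ hu2]),
    Finset.card_insert_of_notMem (by simp [m3, cV _ v3 _ hu3]),
    Finset.card_insert_of_notMem hy] at this
  omega

include hk htr hn H0 HI hpar hΓ in
theorem O6 {a b c : Ω} (ha : a ∈ Γ) (hb : b ∈ Γ) (hc : c ∈ Γ) (hab : a ≠ b) (hac : a ≠ c) :
    Ob G Γ (swap a b) = Ob G Γ (swap a c) := by
  by_cases hbc : b = c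
  · rw [hbc]
  have h3 : (((Γ.erase a).erase b).erase c).card = k - 3 := by
    rw [Finset.card_erase_of_mem (by simp [hc, hac.symm, Ne.symm hbc]),
      Finset.card_erase_of_mem (by simp [hb, hab.symm]), Finset.card_erase_of_mem ha]
    omega
  rcases hk.eq_or_lt with h4 | h4
  · obtain ⟨d, hd⟩ := Finset.card_pos.1 (show 0 < (((Γ.erase a).erase b).erase c).card by omega)
    simp only [Finset.mem_erase] at hd
    exact O6four hk htr hn H0 HI hpar hΓ h4.symm ha hb hc hd.2.2.2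
      ⟨hab, hac, hd.2.2.1.symm, hbc, hd.2.1.symm, hd.1.symm⟩
  · obtain ⟨d, hd, e, he, hde⟩ :=
      Finset.one_lt_card.1 (show 1 < (((Γ.erase a).erase b).erase c).card by omega)
    simp only [Finset.mem_erase] at hd he
    rw [O5 hk htr hn HI hpar hΓ ha hb hd.2.2.2 he.2.2.2
        ⟨hab, hd.2.2.1.symm, he.2.2.1.symm, hd.2.1.symm, he.2.1.symm, hde⟩,
      O5 hk htr hn HI hpar hΓ ha hc hd.2.2.2 he.2.2.2
        ⟨hac, hd.2.2.1.symm, he.2.2.1.symm, hd.1.symm, he.1.symm, hde⟩]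

include hk htr hn H0 HI hpar hΓ in
theorem O7 {a b c d : Ω} (ha : a ∈ Γ) (hb : b ∈ Γ) (hc : c ∈ Γ) (hd : d ∈ Γ) (hab : a ≠ b)
    (hcd : c ≠ d) : Ob G Γ (swap a b) = Ob G Γ (swap c d) := by
  by_cases h : a = c
  · subst h; exact O6 hk htr hn H0 HI hpar hΓ ha hb hd hab hcd
  · rw [O6 hk htr hn H0 HI hpar hΓ ha hb hc hab h, swap_comm,
      O6 hk htr hn H0 HI hpar hΓ hc ha hd (Ne.symm h) hcd]

include hk htr hn H0 HI hpar in
theorem caseOO : ∃ Δ : Finset Ω, Δ.card = k + 1 ∧ Alt G Δ := by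
  obtain ⟨Γ, -, hΓ⟩ := Finset.exists_subset_card_eq (s := (Finset.univ : Finset Ω)) (n := k)
    (by simpa using hn.le)
  obtain ⟨a0, ha0, b0, hb0, hab0⟩ := Finset.one_lt_card.1 (show 1 < Γ.card by omega)
  obtain ⟨x, hx⟩ := O0 hk htr hn HI hpar hΓ ha0 hb0 hab0
  have k0 : ∀ a ∈ Γ, ∀ b ∈ Γ, a ≠ b → ∃ g : G, Lf (insert x Γ) (swap a b) g := by
    intro a ha b hb hab
    rw [O7 hk htr hn H0 HI hpar hΓ ha0 hb0 ha hb hab0 hab] at hx
    obtain ⟨h1, g, h2, h3⟩ := hx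
    refine ⟨g, fun y hy => ?_⟩
    rcases Finset.mem_insert.1 hy with rfl | hy
    · rw [h3, swap_apply_of_ne_of_ne (fun e : y = a => h1 (e ▸ ha)) (fun e : y = b => h1 (e ▸ hb))]
    · exact h2 y hy
  have k1 : ∀ d ∈ Γ, ∃ g : G, Lf (insert x Γ) (swap x d) g := by
    intro d hd
    obtain ⟨e, he, b, hb, heb⟩ := Finset.one_lt_card.1
      (show 1 < (Γ.erase d).card by rw [Finset.card_erase_of_mem hd]; omega)
    rw [Finset.mem_erase] at he hb
    obtain ⟨t, ht⟩ := k0 d hd b hb.2 hb.1.symm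
    have hxe : x ≠ e := fun h => hx.1 (h ▸ he.2)
    have hc : ((insert x Γ).erase e).card = k := by
      rw [Finset.card_erase_of_mem (by simp [he.2]), Finset.card_insert_of_notMem hx.1]; omega
    have h1 : e ∈ Ob G ((insert x Γ).erase e) (swap d b) :=
      ⟨by simp, t, fun y hy => ht y (Finset.mem_of_mem_erase hy), by
        rw [ht e (by simp [he.2]), swap_apply_of_ne_of_ne he.1 heb]⟩
    rw [O7 hk htr hn H0 HI hpar hc (c := x) (d := d) (by simp [hd, he.1.symm]) (by simp [hb.2, heb.symm])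
      (by simp [hxe]) (by simp [hd, he.1.symm]) hb.1.symm (fun h => hx.1 (h ▸ hd))] at h1
    obtain ⟨-, g, h2, h3⟩ := h1
    refine ⟨g, fun y hy => ?_⟩
    by_cases e1 : y = e
    · rw [e1, h3, swap_apply_of_ne_of_ne hxe.symm he.1]
    · exact h2 y (Finset.mem_erase.2 ⟨e1, hy⟩)
  refine ⟨insert x Γ, by rw [Finset.card_insert_of_notMem hx.1, hΓ], alt_of_swap ?_⟩
  intro a ha b hb hab
  rcases Finset.mem_insert.1 ha with rfl | ha'
  · exact k1 b (by simpa [hab.symm] using hb)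
  rcases Finset.mem_insert.1 hb with rfl | hb'
  · rw [swap_comm]; exact k1 a ha'
  exact k0 a ha' b hb' hab

include hk htr hn H0 in
theorem base : ∃ Δ : Finset Ω, Δ.card = k + 1 ∧ Alt G Δ := by
  by_cases HI : ∀ (z : G), z * z = 1 → z ≠ 1 → (fixF z : Finset Ω).card < k
  · by_cases hpar : Fintype.card Ω % 2 = k % 2
    · obtain ⟨Δ, -, hΔ⟩ := Finset.exists_subset_card_eq (s := (Finset.univ : Finset Ω)) (n := k + 1)
        (by simpa using hn)
      exact ⟨Δ, hΔ, caseOE hk htr hn H0 HI hpar Δ⟩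
    · exact caseOO hk htr hn H0 HI hpar
  · push Not at HI
    obtain ⟨z, h1, h2, h3⟩ := HI
    obtain ⟨Γ, h4, hΓ⟩ := Finset.exists_subset_card_eq h3
    obtain ⟨x, hx⟩ := exists_notMem_of_card_lt Γ (by rw [Nat.card_eq_fintype_card]; omega)
    exact ⟨insert x Γ, by rw [Finset.card_insert_of_notMem hx, hΓ],
      caseE htr H0 (by omega) h1 h2 hΓ (fun y hy => mem_fixF.1 (h4 hy)) hx⟩

end Base

end Cfsg.Agent.Isaacs.LW
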