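import Mathlib
import Cfsg.Agent.Isaacs.LW3
import Cfsg.Agent.Core.SylowOf
import Cfsg.Agent.S0743

set_option autoImplicit false
set_option linter.unusedSectionVars false

namespace Cfsg.Agent.Isaacs.LW

open MulAction Equiv Cfsg.Agent.Perm Cfsg.Agent.Core
open scoped Pointwise

variable {G Ω : Type*} [Group G] [Finite G] [MulAction G Ω] [Fintype Ω] [DecidableEq Ω]

/-- The fixed points of `Q` as a set acted on by the normaliser of `Q`. -/
def fixSub (Ω : Type*) [MulAction G Ω] (Q : Subgroup G) :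
    SubMulAction (Subgroup.normalizer (Q : Set G)) Ω where
  carrier := {x | ∀ q ∈ Q, q • x = x}
  smul_mem' := by
    intro n x hx q hq
    show q • (n : G) • x = (n : G) • x
    have := hx _ ((Subgroup.mem_normalizer_iff''.1 n.2 q).1 hq)
    rw [mul_smul, mul_smul, inv_smul_eq_iff] at this
    exact this

theorem mem_fixSub {Q : Subgroup G} {x : Ω} : x ∈ fixSub Ω Q ↔ ∀ q ∈ Q, q • x = x := Iff.rfl

theorem card_Fx_eq {k : ℕ} (htr : IsMultiplyPretransitive G Ω k) {s t : Finset Ω} (hs : s.card = k)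
    (ht : t.card = k) : Nat.card (Fx G s) = Nat.card (Fx G t) := by
  have key : ∀ {s t : Finset Ω}, s.card = k → t.card = k → Nat.card (Fx G s) ≤ Nat.card (Fx G t) := by
    intro s t hs ht
    obtain ⟨g, hg⟩ := exists_map htr hs ht
    refine Nat.card_le_card_of_injective (fun l => ⟨g * l * g⁻¹, mem_Fx.2 fun y hy => ?_⟩) ?_
    · rw [mul_smul, mul_smul, mem_Fx.1 l.2 _ (hg y hy), smul_inv_smul]
    · intro l l' e
      have := congrArg Subtype.val e
      exact Subtype.ext (by simpa using this)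
  exact le_antisymm (key hs ht) (key ht hs)

theorem multi_fixSub {k p : ℕ} [hp : Fact p.Prime] (hk : 1 ≤ k) (htr : IsMultiplyPretransitive G Ω k)
    {Q : Subgroup G} (hQ : IsPGroup p Q) [Fintype (fixSub Ω Q)] (hF : k < Fintype.card (fixSub Ω Q))
    (hmax : ∀ R : Subgroup G, IsPGroup p R → k < Nat.card (fixSub Ω R) → Nat.card R ≤ Nat.card Q) :
    IsMultiplyPretransitive (toPermHom (Subgroup.normalizer (Q : Set G)) (fixSub Ω Q)).range
      (fixSub Ω Q) k := by
  have hle : ∀ s : Finset (fixSub Ω Q), Q ≤ Fx G (s.map (Function.Embedding.subtype _)) := by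
    intro s q hq
    rw [mem_Fx]
    intro y hy
    obtain ⟨z, -, rfl⟩ := Finset.mem_map.1 hy
    exact z.2 q hq
  by_cases hW : ∃ Γ : Finset Ω, Γ.card = k ∧ IsSylowOf p Q (Fx G Γ)
  · obtain ⟨Γ, hΓ, hS⟩ := hW
    apply multi_range
    rw [multi_iff]
    intro x y hx hy
    obtain ⟨g, hg⟩ := (multi_iff k).1 htr (fun i => (x i : Ω)) (fun i => (y i : Ω))
      (Subtype.val_injective.comp hx) (Subtype.val_injective.comp hy)
    set Γ' := (Finset.univ.image y).map (Function.Embedding.subtype (· ∈ fixSub Ω Q)) with hΓ'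
    have hc : Γ'.card = k := by
      rw [hΓ', Finset.card_map, Finset.card_image_of_injective _ hy]; simp
    have h1 : IsSylowOf p Q (Fx G Γ') :=
      isSylowOf_of_card (hle _) (by rw [hS.card_eq_pow, card_Fx_eq htr hΓ hc])
    have h2 : IsSylowOf p (MulAut.conj g • Q) (Fx G Γ') := by
      refine h1.of_card_le (hQ.map _) ?_ (le_of_eq ?_)
      · rintro _ ⟨q, hq, rfl⟩
        rw [mem_Fx]
        intro z hz
        obtain ⟨z, hz', rfl⟩ := Finset.mem_map.1 hz
        obtain ⟨i, -, rfl⟩ := Finset.mem_image.1 hz'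
        show (g * q * g⁻¹) • (y i : Ω) = y i
        rw [← hg i, mul_smul, mul_smul, inv_smul_smul, (x i).2 q hq]
      · exact Nat.card_congr (Subgroup.equivSMul _ Q).toEquiv
    obtain ⟨c, hc, e⟩ := h2.exists_conj_eq h1
    rw [← mul_smul, ← map_mul] at e
    refine ⟨⟨c * g, conj_smul_eq_iff_mem_normalizer.1 e⟩, fun i => Subtype.ext ?_⟩
    show (c * g) • (x i : Ω) = y i
    rw [mul_smul, hg i]
    exact mem_Fx.1 hc _ (Finset.mem_map_of_mem _ (Finset.mem_image_of_mem _ (Finset.mem_univ i)))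
  · refine S0743.result _ hp.out hk hF fun s hs => ?_
    set Γ := s.map (Function.Embedding.subtype (· ∈ fixSub Ω Q)) with hΓ
    obtain ⟨P, hP, hQP⟩ := exists_isSylowOf_ge hQ (hle s)
    have hlt : Q < P := lt_of_le_of_ne hQP fun e =>
      hW ⟨Γ, by rw [hΓ, Finset.card_map, hs], by rw [e]; exact hP⟩
    have hlt' := lt_inf_normalizer_of_nilpotent hP.isPGroup.isNilpotent hlt
    set R := P ⊓ Subgroup.normalizer (Q : Set G) with hR
    have hRp : IsPGroup p R := hP.isPGroup.to_le inf_le_left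
    refine ⟨(R.subgroupOf _).map (toPermHom (Subgroup.normalizer (Q : Set G))
      (fixSub Ω Q)).rangeRestrict, (hRp.comap_subtype).map _, ?_⟩
    ext z
    rw [mem_fixedPoints]
    constructor
    · intro hz
      by_contra hzs
      have h1 : ((insert z s).map (Function.Embedding.subtype (· ∈ fixSub Ω Q)) : Set Ω) ⊆
          fixSub Ω R := by
        intro y hy
        obtain ⟨w, hw, rfl⟩ := Finset.mem_map.1 hy
        intro r hr
        rcases Finset.mem_insert.1 hw with rfl | hw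
        · exact congrArg Subtype.val (hz ⟨_, ⟨⟨r, hr.2⟩, hr, rfl⟩⟩)
        · exact mem_Fx.1 (hP.le hr.1) _ (Finset.mem_map_of_mem _ hw)
      have h2 := Set.ncard_le_ncard h1
      rw [Set.ncard_coe_finset, Finset.card_map, Finset.card_insert_of_notMem hzs] at h2
      have h3 := hmax R hRp (by rw [← hs]; exact h2)
      exact hlt'.ne (Subgroup.eq_of_le_of_card_ge hlt'.le h3)
    · rintro hz ⟨_, r, hr, rfl⟩
      exact Subtype.ext (mem_Fx.1 (hP.le hr.1) _ (Finset.mem_map_of_mem _ hz))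

theorem exists_alt {k : ℕ} (hk : 4 ≤ k) (n : ℕ) : ∀ {Ω : Type*} [Fintype Ω] [DecidableEq Ω]
    (G : Subgroup (Perm Ω)), Fintype.card Ω = n → k < n → IsMultiplyPretransitive G Ω k →
      ∃ Δ : Finset Ω, Δ.card = k + 1 ∧ Alt G Δ := by
  induction n using Nat.strong_induction_on with
  | _ n ih =>
  intro Ω _ _ G hn hkn htr
  by_cases H0 : ∀ (g : G) (s : Finset Ω), k < s.card → (∀ x ∈ s, g • x = x) → g = 1
  · exact base hk htr (by omega) H0
  push Not at H0
  obtain ⟨g, s, hs, hg, hg1⟩ := H0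
  obtain ⟨p, hp, hpd⟩ := Nat.exists_prime_and_dvd (fun e => hg1 (orderOf_eq_one_iff.1 e))
  haveI : Fact p.Prime := ⟨hp⟩
  classical
  have ho : orderOf (g ^ (orderOf g / p)) = p := orderOf_pow_orderOf_div (orderOf_pos g).ne' hpd
  have h0 : IsPGroup p (Subgroup.zpowers (g ^ (orderOf g / p))) ∧
      k < Nat.card (fixSub Ω (Subgroup.zpowers (g ^ (orderOf g / p)))) := by
    refine ⟨IsPGroup.of_card (n := 1) (by rw [Nat.card_zpowers, ho, pow_one]), ?_⟩
    have h1 : (s : Set Ω) ⊆ fixSub Ω (Subgroup.zpowers (g ^ (orderOf g / p))) := fun x hx =>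
      (zpowers_fix_iff _ x).2 (pow_fix (hg x hx) _)
    have h2 := Set.ncard_le_ncard h1
    rw [Set.ncard_coe_finset] at h2
    exact lt_of_lt_of_le hs h2
  obtain ⟨Q, hQ, hmax⟩ := Finset.exists_max_image
    (Finset.univ.filter fun R : Subgroup G => IsPGroup p R ∧ k < Nat.card (fixSub Ω R))
    (fun R => Nat.card R) ⟨_, by simpa using h0⟩
  simp only [Finset.mem_filter, Finset.mem_univ, true_and, and_imp] at hQ hmax
  have hlt : Fintype.card (fixSub Ω Q) < n := by
    have h1 := hmax _ h0.1 h0.2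
    rw [Nat.card_zpowers, ho] at h1
    have h2 : Q ≠ ⊥ := by
      rintro rfl
      rw [Subgroup.card_bot] at h1
      exact absurd hp.two_le (by omega)
    obtain ⟨q, hq⟩ := Subgroup.ne_bot_iff_exists_ne_one.1 h2
    rw [← hn]
    by_contra hc
    apply hq
    ext x
    by_contra hx
    exact hc (Fintype.card_subtype_lt (x := x) fun h => hx (h q q.2))
  have hF : k < Fintype.card (fixSub Ω Q) := by rw [← Nat.card_eq_fintype_card]; exact hQ.2
  obtain ⟨Δ, hΔ, hA⟩ := ih _ hlt _ rfl hF (multi_fixSub (by omega) htr hQ.1 hF hmax)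
  refine ⟨Δ.map (Function.Embedding.subtype _), by rw [Finset.card_map, hΔ], fun σ h1 h2 => ?_⟩
  have h3 : ∀ x, σ x ≠ x → x ∈ fixSub Ω Q := by
    intro x hx
    by_contra hc
    refine hx (h2 x fun h => hc ?_)
    obtain ⟨z, -, rfl⟩ := Finset.mem_map.1 h
    exact z.2
  have h4 : ∀ x, σ x ∈ fixSub Ω Q ↔ x ∈ fixSub Ω Q := by
    intro x
    by_cases e : σ x = x
    · rw [e]
    · exact iff_of_true (h3 _ fun e' => e (σ.injective e')) (h3 x e)
  obtain ⟨⟨_, m, rfl⟩, hm⟩ := hA (σ.subtypePerm h4) (by rw [Perm.sign_subtypePerm _ _ h3, h1])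
    (fun x hx => Subtype.ext (h2 x fun h => hx (by
      obtain ⟨z, hz, e⟩ := Finset.mem_map.1 h
      rwa [← Subtype.ext e])))
  refine ⟨m, fun x hx => ?_⟩
  obtain ⟨z, hz, rfl⟩ := Finset.mem_map.1 hx
  exact congrArg Subtype.val (hm z hz)

end Cfsg.Agent.Isaacs.LW
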