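import Mathlib
import Cfsg.Agent.Isaacs.LW4
import Cfsg.Agent.Core.CoprimeGen

set_option autoImplicit false
set_option linter.unusedSectionVars false

namespace Cfsg.Agent.Isaacs.LW

open MulAction Equiv Cfsg.Agent.Perm Cfsg.Agent.Core
open scoped Pointwise

variable {G Ω : Type*} [Group G] [Finite G] [MulAction G Ω] [Fintype Ω] [DecidableEq Ω]

/-- the four-group on two commuting involutions -/
def V4 {H : Type*} [Group H] {a b : H} (ha : a * a = 1) (hb : b * b = 1) (hab : a * b = b * a) :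
    Subgroup H where
  carrier := {g | g = 1 ∨ g = a ∨ g = b ∨ g = a * b}
  one_mem' := Or.inl rfl
  mul_mem' := by
    have h1 : a * (a * b) = b := by rw [← mul_assoc, ha, one_mul]
    have h2 : b * (a * b) = a := by rw [hab, ← mul_assoc, hb, one_mul]
    have h3 : a * b * a = b := by rw [hab, mul_assoc, ha, mul_one]
    have h4 : a * b * b = a := by rw [mul_assoc, hb, mul_one]
    have h5 : a * b * (a * b) = 1 := by rw [mul_assoc, h2, ha]
    rintro _ _ (rfl | rfl | rfl | rfl) (rfl | rfl | rfl | rfl) <;>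
      simp [ha, hb, h1, h2, h3, h4, h5, ← hab]
  inv_mem' := by
    have h5 : a * b * (a * b) = 1 := by rw [mul_assoc, hab, ← mul_assoc b, hb, one_mul, ha]
    rintro _ (rfl | rfl | rfl | rfl)
    · simp
    · simp [inv_eq_of_mul_eq_one_right ha]
    · simp [inv_eq_of_mul_eq_one_right hb]
    · simp [inv_eq_of_mul_eq_one_right h5]

theorem V4_pgroup {H : Type*} [Group H] {a b : H} (ha : a * a = 1) (hb : b * b = 1)
    (hab : a * b = b * a) : IsPGroup 2 (V4 ha hb hab) := by
  rintro ⟨_, rfl | rfl | rfl | rfl⟩ <;> refine ⟨1, Subtype.ext ?_⟩ <;> simp [pow_two, ha, hb]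
  rw [mul_assoc, hab, ← mul_assoc b, hb, one_mul, ha]

theorem V4_card {H : Type*} [Group H] {a b : H} (ha : a * a = 1) (hb : b * b = 1)
    (hab : a * b = b * a) (h1 : a ≠ 1) (h2 : b ≠ 1) (h3 : a ≠ b) : Nat.card (V4 ha hb hab) = 4 := by
  have h4 : a * b ≠ 1 := fun e => h3 (by rw [← inv_eq_of_mul_eq_one_right e,
    inv_eq_of_mul_eq_one_right ha])
  show Set.ncard ({1, a, b, a * b} : Set H) = 4
  rw [Set.ncard_insert_of_notMem (by simp [h1.symm, h2.symm, h4.symm]),
    Set.ncard_insert_of_notMem (by simp [h3, h2]), Set.ncard_pair (by simp [h1])]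

/-- `m`-homogeneity -/
def Hom (G : Type*) (Ω : Type*) [Group G] [MulAction G Ω] [DecidableEq Ω] (m : ℕ) : Prop :=
  ∀ s t : Finset Ω, s.card = m → t.card = m → ∃ g : G, g • s = t

theorem Alt.smul {Δ : Finset Ω} (h : Alt G Δ) (g : G) : Alt G (g • Δ) := by
  intro σ h1 h2
  obtain ⟨t, ht⟩ := h ((toPerm g)⁻¹ * σ * toPerm g) (by simp [h1]) (fun x hx => by
    have := h2 (g • x) (by rwa [Finset.smul_mem_smul_finset_iff])
    simp [this, Perm.inv_eq_iff_eq])
  refine ⟨g * t * g⁻¹, fun x hx => ?_⟩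
  obtain ⟨y, hy, rfl⟩ := Finset.mem_smul_finset.1 hx
  rw [mul_smul, mul_smul, inv_smul_smul, ht y hy, Perm.mul_apply, Perm.mul_apply]
  exact (toPerm g).apply_symm_apply _

theorem exists_equiv {m : ℕ} {Δ : Finset Ω} (hΔ : Δ.card = m) (hh : Hom G Ω m) (x : Fin m → Ω)
    (hx : Function.Injective x) : ∃ (g : G) (e : Fin m ≃ Δ), ∀ i, g • x i = e i := by
  obtain ⟨g, hg⟩ := hh (Finset.univ.image x) Δ
    (by rw [Finset.card_image_of_injective _ hx]; simp) hΔ
  let f : Fin m → Δ := fun i => ⟨g • x i, by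
    rw [← hg]; exact Finset.smul_mem_smul_finset (Finset.mem_image_of_mem _ (Finset.mem_univ i))⟩
  have hf : Function.Bijective f := (Fintype.bijective_iff_injective_and_card f).2
    ⟨fun i j e => hx (MulAction.injective g (congrArg Subtype.val e)), by simp [hΔ]⟩
  exact ⟨g, Equiv.ofBijective f hf, fun i => rfl⟩

theorem multi_of_swap {m : ℕ} (hh : Hom G Ω m) {Δ : Finset Ω} (hΔ : Δ.card = m) (hA : Alt G Δ)
    {a b : Ω} (ha : a ∈ Δ) (hb : b ∈ Δ) (hab : a ≠ b) {g : G} (hg : Lf Δ (swap a b) g) :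
    IsMultiplyPretransitive G Ω m := by
  have hs : ∀ c ∈ Δ, ∀ d ∈ Δ, c ≠ d → ∃ g : G, Lf Δ (swap c d) g := by
    intro c hc d hd hcd
    obtain ⟨t, ht⟩ := hA (swap a b * swap c d) (by simp [hab, hcd]) (fun x hx => by
      rw [Perm.mul_apply, swap_apply_of_ne_of_ne (fun e : x = c => hx (e ▸ hc))
        (fun e : x = d => hx (e ▸ hd)), swap_apply_of_ne_of_ne (fun e : x = a => hx (e ▸ ha))
        (fun e : x = b => hx (e ▸ hb))])
    exact ⟨g * t, (hg.mul ht (dbl_mem ha hb hc hd)).congr fun x _ => by simp⟩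
  rw [multi_iff]
  intro x y hx hy
  obtain ⟨g1, e1, h1⟩ := exists_equiv hΔ hh x hx
  obtain ⟨g2, e2, h2⟩ := exists_equiv hΔ hh y hy
  obtain ⟨t, ht⟩ := sym_of_swap hs (e1.symm.trans e2)
  refine ⟨g2⁻¹ * t * g1, fun i => ?_⟩
  rw [mul_smul, mul_smul, h1, ht, inv_smul_eq_iff, h2]
  simp

theorem core [FaithfulSMul G Ω] {m : ℕ} (hm : 5 ≤ m) (hn : m ≤ Fintype.card Ω) (hh : Hom G Ω m)
    (hA : ∀ Δ : Finset Ω, Δ.card = m → Alt G Δ) (hnt : ¬ IsMultiplyPretransitive G Ω m) :
    Fintype.card Ω ≤ m + 1 := by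
  have HI : ∀ z : G, z * z = 1 → (∃ a : Ω, z • a ≠ a) → (fixF z : Finset Ω).card + 3 ≤ m := by
    rintro z hz ⟨a, ha⟩
    by_contra hc
    obtain ⟨S, h1, h2⟩ := Finset.exists_subset_card_eq (s := (fixF z : Finset Ω)) (n := m - 2)
      (by omega)
    have hzz : z • z • a = a := by rw [← mul_smul, hz, one_smul]
    have haS : a ∉ S := fun h => ha (mem_fixF.1 (h1 h))
    have hbS : z • a ∉ S := fun h => ha (by have := mem_fixF.1 (h1 h); rw [hzz] at this; exact this.symm)
    have hc : (insert a (insert (z • a) S)).card = m := by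
      rw [Finset.card_insert_of_notMem (by simp [haS, ha.symm]), Finset.card_insert_of_notMem hbS]
      omega
    refine hnt (multi_of_swap hh hc (hA _ hc) (a := a) (b := z • a) (by simp) (by simp) ha.symm
      (g := z) fun x hx => ?_)
    simp only [Finset.mem_insert] at hx
    rcases hx with rfl | rfl | hx
    · rw [swap_apply_left]
    · rw [swap_apply_right, hzz]
    · rw [mem_fixF.1 (h1 hx), swap_apply_of_ne_of_ne (fun e : x = a => haS (e ▸ hx))
        (fun e : x = z • a => hbS (e ▸ hx))]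
  have mv : ∀ z : G, z ≠ 1 → ∃ a : Ω, z • a ≠ a := by
    intro z hz
    by_contra hc
    push Not at hc
    exact hz (eq_of_smul_eq_smul fun a : Ω => by rw [hc a, one_smul])
  have hodd : ∀ T : Finset Ω, m ≤ T.card + 2 → Odd (Nat.card (Fx G T)) := by
    intro T hT
    refine odd_of_no_invol fun l hl h2 => ?_
    by_contra h1
    have := HI l h2 (mv l h1)
    have h3 : T ⊆ fixF l := fun x hx => mem_fixF.2 (mem_Fx.1 hl x hx)
    have := Finset.card_le_card h3
    omega
  obtain ⟨Γ, -, hΓ⟩ := Finset.exists_subset_card_eq (s := (Finset.univ : Finset Ω)) (n := m - 1)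
    (by simp; omega)
  obtain ⟨a, b, c, d, ha, hb, hc, hd, h⟩ := exists_D4 (Γ := Γ) (by omega)
  have hcard : ∀ x, x ∉ Γ → (insert x Γ).card = m := fun x hx => by
    rw [Finset.card_insert_of_notMem hx]; omega
  have hfix : ∀ x, x ∉ Γ → Fx G Γ ≤ stabilizer G x := by
    intro x hx
    have ho := hodd (insert x Γ) (by rw [hcard x hx]; omega)
    have hex : ∀ a b c d, a ∈ Γ → b ∈ Γ → c ∈ Γ → d ∈ Γ → D4 a b c d →
        ∃ u : G, u * u = 1 ∧ Lf (insert x Γ) (swap a b * swap c d) u := by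
      intro a b c d ha hb hc hd h
      obtain ⟨t, ht⟩ := hA _ (hcard x hx) (swap a b * swap c d) (by simp [h.ab, h.cd]) (fun y hy => by
        simp only [Finset.mem_insert, not_or] at hy
        rw [Perm.mul_apply, swap_apply_of_ne_of_ne (fun e : y = c => hy.2 (e ▸ hc))
          (fun e : y = d => hy.2 (e ▸ hd)), swap_apply_of_ne_of_ne (fun e : y = a => hy.2 (e ▸ ha))
          (fun e : y = b => hy.2 (e ▸ hb))])
      obtain ⟨j, h1, h2⟩ := ht.invol (dbl_mem (by simp [ha]) (by simp [hb]) (by simp [hc]) (by simp [hd]))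
        (fun y _ => h.sq y) ho
      exact ⟨_, h1, h2⟩
    have hcent : ∀ a b c d, a ∈ Γ → b ∈ Γ → c ∈ Γ → d ∈ Γ → D4 a b c d → ∀ u : G, u * u = 1 →
        Lf (insert x Γ) (swap a b * swap c d) u →
        Fx G Γ ⊓ Subgroup.centralizer {u} ≤ stabilizer G x := by
      intro a b c d ha hb hc hd h u hu hu' l hl
      have hne : ∀ y ∈ Γ, x ≠ y := fun y hy e => hx (e ▸ hy)
      refine fix_of_comm (hodd Γ (by omega)) hl.1 (Subgroup.mem_centralizer_singleton_iff.1 hl.2).symm
        (S := (((Γ.erase a).erase b).erase c).erase d) (fun y hy => ?_) (fun y hy => ?_) hx ?_ ?_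
      · simp only [Finset.mem_erase] at hy; exact hy.2.2.2.2
      · simp only [Finset.mem_erase] at hy
        rw [hu' y (by simp [hy.2.2.2.2]), Perm.mul_apply, swap_apply_of_ne_of_ne hy.2.1 hy.1,
          swap_apply_of_ne_of_ne hy.2.2.2.1 hy.2.2.1]
      · rw [hu' x (by simp), Perm.mul_apply, swap_apply_of_ne_of_ne (hne c hc) (hne d hd),
          swap_apply_of_ne_of_ne (hne a ha) (hne b hb)]
      · rw [Finset.card_erase_of_mem (by simp [hd, h.ad.symm, h.bd.symm, h.cd.symm]),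
          Finset.card_erase_of_mem (by simp [hc, h.ac.symm, h.bc.symm]),
          Finset.card_erase_of_mem (by simp [hb, h.ab.symm]), Finset.card_erase_of_mem ha]
        have := HI u hu ⟨a, by
          rw [hu' a (by simp [ha]), Perm.mul_apply, swap_apply_of_ne_of_ne h.ac h.ad, swap_apply_left]
          exact h.ab.symm⟩
        omega
    obtain ⟨u, u1, u2⟩ := hex a b c d ha hb hc hd h
    obtain ⟨v, v1, v2⟩ := hex a c b d ha hc hb hd h.p1
    have m1 := dbl_mem (Γ := insert x Γ) (a := a) (b := b) (c := c) (d := d) (by simp [ha])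
      (by simp [hb]) (by simp [hc]) (by simp [hd])
    have m2 := dbl_mem (Γ := insert x Γ) (a := a) (b := c) (c := b) (d := d) (by simp [ha])
      (by simp [hc]) (by simp [hb]) (by simp [hd])
    have m3 := dbl_mem (Γ := insert x Γ) (a := a) (b := d) (c := b) (d := c) (by simp [ha])
      (by simp [hd]) (by simp [hb]) (by simp [hc])
    have w0 := u2.mul v2 m2
    rw [h.mul] at w0
    obtain ⟨j, w1, w2⟩ := w0.invol m3 (fun y _ => h.p2.sq y) ho
    have hc : u * (u * v) ^ j = (u * v) ^ j * u := by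
      have e : u * (u * v) * u⁻¹ = (u * v)⁻¹ := by
        rw [← mul_assoc, u1, one_mul, mul_inv_rev, inv_eq_of_mul_eq_one_right v1]
      have := RankOne.inv_conj_pow e j
      rw [inv_eq_of_mul_eq_one_right w1] at this
      exact mul_inv_eq_iff_eq_mul.1 this
    set w := (u * v) ^ j
    have uw := u2.mul w2 m3
    rw [h.m13] at uw
    have nrm : ∀ τ, (∀ y ∈ Γ, τ y ∈ Γ) → ∀ g : G, Lf (insert x Γ) τ g →
        g ∈ Subgroup.normalizer (Fx G Γ : Set G) := fun τ h1 g hg =>
      Subgroup.mem_normalizer_fintype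
        (Lf.norm (Γ := Γ) (fun y hy => hg y (Finset.mem_insert_of_mem hy)) h1)
    haveI : Fact (Nat.Prime 2) := ⟨Nat.prime_two⟩
    have hp := V4_pgroup u1 w1 hc
    have hcop : Nat.Coprime 2 (Nat.card (Fx G Γ)) := (hodd Γ (by omega)).coprime_two_left
    refine le_of_centralizers_two (A := V4 u1 w1 hc) (q := 2) (a := u) (b := w)
      (by haveI := hp.isNilpotent; infer_instance) ?_ ?_ hcop (Or.inr (Or.inl rfl))
      (Or.inr (Or.inr (Or.inl rfl))) hc (by rw [pow_two, u1]; exact one_mem _)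
      (by rw [pow_two, w1]; exact one_mem _) ?_ ?_
    · rintro _ (rfl | rfl | rfl | rfl)
      · exact one_mem _
      · exact nrm _ (dbl_mem ha hb ‹c ∈ Γ› hd) _ u2
      · exact nrm _ (dbl_mem ha hd hb ‹c ∈ Γ›) _ w2
      · exact nrm _ (dbl_mem ha ‹c ∈ Γ› hb hd) _ uw
    · obtain ⟨n, hn⟩ := hp.exists_card_eq
      rw [hn]; exact hcop.pow_left n
    · intro i hi
      interval_cases i
      · rw [pow_zero, mul_one]; exact hcent _ _ _ _ ha hb ‹c ∈ Γ› hd h u u1 u2
      · rw [pow_one]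
        exact hcent _ _ _ _ ha ‹c ∈ Γ› hb hd h.p1 _
          (by rw [mul_assoc, hc, ← mul_assoc w, w1, one_mul, u1]) uw
    · intro i h0 hi
      interval_cases i
      rw [pow_one]; exact hcent _ _ _ _ ha hd hb ‹c ∈ Γ› h.p2 w w1 w2
  have hrel : ∀ x y, x ∉ Γ → y ∉ Γ → x ≠ y → ∃ g : G, Lf Γ (swap a b) g ∧ g • x = y := by
    intro x y hx hy hxy
    obtain ⟨g, hg⟩ := hh _ _ (hcard x hx) (hcard y hy)
    have hm1 : ∀ z, (swap x y * (toPerm g)⁻¹ : Perm Ω) z ∈ insert y Γ ↔ z ∈ insert y Γ := by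
      intro z
      have e1 : ∀ w, swap x y w ∈ insert y Γ ↔ w ∈ insert x Γ := by
        intro w
        rw [swap_apply_def]
        split_ifs with k1 k2
        · simp [k1]
        · simp [k2, hx, hy, hxy, hxy.symm]
        · simp [k1, k2]
      rw [Perm.mul_apply, e1, ← hg, ← Finset.inv_smul_mem_iff]
      rfl
    set σ := (swap x y * (toPerm g)⁻¹ : Perm Ω).subtypePerm hm1 with hσ
    have hval : ∀ z (hz : z ∈ insert x Γ), ((σ ⟨g • z, hg ▸ Finset.smul_mem_smul_finset hz⟩ : _) : Ω)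
        = swap x y z := by
      intro z hz
      show swap x y ((toPerm g)⁻¹ (toPerm g z)) = _
      simp
    have hsw : ∀ z ∈ Γ, swap x y z = z := fun z hz =>
      swap_apply_of_ne_of_ne (fun e => hx (e ▸ hz)) (fun e => hy (e ▸ hz))
    rcases Int.units_eq_one_or (Perm.sign σ) with e | e
    · obtain ⟨t, ht⟩ := (hA _ (hcard y hy)).sub σ e
      have k : ∀ z ∈ insert x Γ, (t * g) • z = swap x y z := fun z hz => by
        rw [mul_smul, ← hval z hz, ← ht]
      have k1 : t * g ∈ Fx G Γ := mem_Fx.2 fun z hz => by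
        rw [k z (Finset.mem_insert_of_mem hz), hsw z hz]
      have k2 := k x (by simp)
      rw [mem_stabilizer_iff.1 (hfix x hx k1), swap_apply_left] at k2
      exact absurd k2 hxy
    · obtain ⟨t, ht⟩ := (hA _ (hcard y hy)).sub
        (swap ⟨a, Finset.mem_insert_of_mem ha⟩ ⟨b, Finset.mem_insert_of_mem hb⟩ * σ)
        (by rw [map_mul, e, Perm.sign_swap (by simpa using h.ab)]; simp)
      have k : ∀ z ∈ insert x Γ, (t * g) • z = swap a b (swap x y z) := fun z hz => by
        rw [mul_smul, ← hval z hz]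
        refine (ht ⟨g • z, hg ▸ Finset.smul_mem_smul_finset hz⟩).trans ?_
        exact Subtype.val_injective.map_swap _ _ _
      refine ⟨t * g, fun z hz => by rw [k z (Finset.mem_insert_of_mem hz), hsw z hz], ?_⟩
      rw [k x (by simp), swap_apply_left, swap_apply_of_ne_of_ne (fun e : y = a => hy (e ▸ ha))
        (fun e : y = b => hy (e ▸ hb))]
  by_contra hlt
  obtain ⟨x, y, z, hx, hy, hz, hxy, hxz, hyz⟩ := Finset.two_lt_card_iff.1
    (show 2 < Γᶜ.card by rw [Finset.card_compl]; omega)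
  rw [Finset.mem_compl] at hx hy hz
  obtain ⟨g, g1, g2⟩ := hrel y x hy hx hxy.symm
  obtain ⟨g', g1', g2'⟩ := hrel x z hx hz hxz
  have := mem_stabilizer_iff.1 (hfix y hy (g1'.sq_mem g1 (swap_mem ha hb)
    (fun w _ => swap_apply_self a b w)))
  rw [mul_smul, g2, g2'] at this
  exact hyz this.symm

theorem core' {m : ℕ} (G : Subgroup (Perm Ω)) (hm : 5 ≤ m) (hn : m ≤ Fintype.card Ω)
    (hh : Hom G Ω m) (ht : IsMultiplyPretransitive G Ω (m - 1))
    (hnt : ¬ IsMultiplyPretransitive G Ω m) : Fintype.card Ω ≤ m + 1 := by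
  obtain ⟨Δ, h1, h2⟩ := exists_alt (k := m - 1) (by omega) _ G rfl (by omega) ht
  refine core hm hn hh (fun Δ' h' => ?_) hnt
  obtain ⟨g, rfl⟩ := hh Δ Δ' (by omega) h'
  exact h2.smul g

end Cfsg.Agent.Isaacs.LW
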