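import Mathlib
import Cfsg.Agent.Isaacs.LW5

set_option autoImplicit false
set_option linter.unusedSectionVars false

namespace Cfsg.Agent.Isaacs.LW

open MulAction Equiv Cfsg.Agent.Perm Cfsg.Agent.Core Finset
open scoped Pointwise Classical

variable {G Ω : Type*} [Group G] [Finite G] [MulAction G Ω] [Fintype Ω] [DecidableEq Ω]

theorem card_inj (k : ℕ) : (univ.filter fun e : Fin k → Ω => Function.Injective e).card =
    (Fintype.card Ω).descFactorial k := by
  rw [← Fintype.card_subtype, Fintype.card_congr (Equiv.subtypeInjectiveEquivEmbedding _ _),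
    Fintype.card_embedding_eq, Fintype.card_fin]

theorem hom_tuple {k : ℕ} (hh : Hom G Ω k) {x y : Fin k → Ω} (hx : Function.Injective x)
    (hy : Function.Injective y) : ∃ (g : G) (σ : Perm (Fin k)), y = g • (x ∘ σ) := by
  have hc : (univ.image y).card = k := by rw [card_image_of_injective _ hy]; simp
  obtain ⟨g1, e1, h1⟩ := exists_equiv hc hh x hx
  obtain ⟨g2, e2, h2⟩ := exists_equiv hc hh y hy
  refine ⟨g2⁻¹ * g1, e2.trans e1.symm, funext fun i => ?_⟩
  simp [mul_smul, h1, ← h2]

theorem symm_count {k : ℕ} (hh : Hom G Ω k) (P : (Fin k → Ω) → Prop)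
    (hP : ∀ e, P e → Function.Injective e) (hi : ∀ (g : G) e, P e → P (g • e)) {x : Fin k → Ω}
    (hx : Function.Injective x) :
    (Fintype.card Ω).descFactorial k * (univ.filter fun σ : Perm (Fin k) => P (x ∘ σ)).card =
      k.factorial * (univ.filter P).card := by
  have hi' : ∀ (g : G) e, P (g • e) ↔ P e := fun g e =>
    ⟨fun h => by simpa using hi g⁻¹ _ h, hi g e⟩
  have := sum_card_bipartiteAbove_eq_sum_card_bipartiteBelow
    (s := univ.filter fun e : Fin k → Ω => Function.Injective e) (t := (univ : Finset (Perm (Fin k))))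
    (r := fun e (σ : Perm (Fin k)) => P (e ∘ σ))
  rw [sum_const_nat (m := (univ.filter fun σ : Perm (Fin k) => P (x ∘ σ)).card),
    sum_const_nat (m := (univ.filter P).card), card_inj, card_univ, Fintype.card_perm,
    Fintype.card_fin] at this
  · exact this
  · intro σ _
    refine card_bij (fun e _ => e ∘ σ) (fun e he => ?_) (fun e _ e' _ h => ?_) (fun e he => ?_)
    · simpa using (mem_bipartiteBelow _).1 he |>.2
    · exact σ.surjective.injective_comp_right h
    · have he' : P e := by simpa using he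
      have : (e ∘ σ.symm) ∘ σ = e := by funext i; simp
      refine ⟨e ∘ σ.symm, (mem_bipartiteBelow _).2 ⟨?_, by rwa [this]⟩, this⟩
      simpa using hP e he'
  · intro e he
    obtain ⟨g, τ, rfl⟩ := hom_tuple hh hx (by simpa using he)
    refine card_bij (fun σ _ => τ * σ) (fun σ h => ?_) (fun σ _ σ' _ h => mul_left_cancel h)
      (fun σ h => ⟨τ⁻¹ * σ, ?_, by simp⟩)
    · have h1 := ((mem_bipartiteAbove _).1 h).2
      exact mem_filter.2 ⟨mem_univ _, (hi' g _).1 h1⟩
    · refine (mem_bipartiteAbove _).2 ⟨mem_univ _, ?_⟩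
      have h1 := hi g _ (mem_filter.1 h).2
      convert h1 using 1
      funext i; simp

theorem count1 {j d : ℕ} (Q : (Fin (j + 1) → Ω) → Prop) (hQ : ∀ e, Q e → Function.Injective e)
    (hd : ∀ w : Fin j → Ω, Function.Injective w → (univ.filter fun z => Q (Fin.cons z w)).card = d) :
    (univ.filter Q).card = (Fintype.card Ω).descFactorial j * d := by
  rw [card_eq_sum_card_fiberwise (f := fun e : Fin (j + 1) → Ω => Fin.tail e)
    (t := univ.filter fun e : Fin j → Ω => Function.Injective e)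
    (fun e he => by
      have := hQ e (by simpa using he)
      exact mem_filter.2 ⟨mem_univ _, this.comp (Fin.succ_injective j)⟩), sum_const_nat (m := d), card_inj]
  intro w hw
  rw [← hd w (by simpa using hw)]
  refine card_bij (fun e _ => e 0) (fun e he => ?_) (fun e he e' he' h => ?_) (fun z hz => ?_)
  · simp only [mem_filter, mem_univ, true_and] at he ⊢
    rw [← he.2, Fin.cons_self_tail]; exact he.1
  · simp only [mem_filter, mem_univ, true_and] at he he'
    rw [← Fin.cons_self_tail e, ← Fin.cons_self_tail e', he.2, he'.2]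
    exact congrArg (fun z => (Fin.cons z w : Fin (j + 1) → Ω)) h
  · exact ⟨Fin.cons z w, by simpa using hz, rfl⟩

/-- the two-point extension predicate -/
def S2 {j : ℕ} (Q : (Fin (j + 1) → Ω) → Prop) (e : Fin (j + 2) → Ω) : Prop :=
  e 0 ≠ e 1 ∧ Q (Fin.tail e) ∧ Q (Fin.cons (e 0) (Fin.tail (Fin.tail e)))

theorem S2.inj {j : ℕ} {Q : (Fin (j + 1) → Ω) → Prop} (hQ : ∀ e, Q e → Function.Injective e)
    (e : Fin (j + 2) → Ω) (h : S2 Q e) : Function.Injective e := by
  rw [← Fin.cons_self_tail e, Fin.cons_injective_iff]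
  refine ⟨?_, hQ _ h.2.1⟩
  rintro ⟨i, hi⟩
  refine Fin.cases (fun hi => h.1 hi.symm) (fun i hi => ?_) i hi
  exact (Fin.cons_injective_iff.1 (hQ _ h.2.2)).1 ⟨i, hi⟩

theorem count2 {j d : ℕ} (Q : (Fin (j + 1) → Ω) → Prop) (hQ : ∀ e, Q e → Function.Injective e)
    (hd : ∀ w : Fin j → Ω, Function.Injective w → (univ.filter fun z => Q (Fin.cons z w)).card = d) :
    (univ.filter (S2 Q)).card = (Fintype.card Ω).descFactorial j * (d * d - d) := by
  rw [card_eq_sum_card_fiberwise (f := fun e : Fin (j + 2) → Ω => Fin.tail (Fin.tail e))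
    (t := univ.filter fun e : Fin j → Ω => Function.Injective e)
    (fun e he => by
      have := S2.inj hQ e (by simpa using he)
      exact mem_filter.2 ⟨mem_univ _, (this.comp (Fin.succ_injective _)).comp (Fin.succ_injective j)⟩),
    sum_const_nat (m := d * d - d), card_inj]
  intro w hw
  rw [← hd w (by simpa using hw), ← offDiag_card]
  refine card_bij (fun e _ => (e 0, e 1)) (fun e he => ?_) (fun e he e' he' h => ?_) (fun z hz => ?_)
  · simp only [mem_filter, mem_univ, true_and, mem_offDiag] at he ⊢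
    rw [← he.2]
    refine ⟨he.1.2.2, ?_, he.1.1⟩
    have := he.1.2.1
    rwa [← Fin.cons_self_tail (Fin.tail e)] at this
  · simp only [mem_filter, mem_univ, true_and, Prod.mk.injEq] at he he' h
    funext i
    refine Fin.cases h.1 (fun i => Fin.cases h.2 (fun i => ?_) i) i
    exact congrFun (he.2.trans he'.2.symm) i
  · simp only [mem_filter, mem_univ, true_and, mem_offDiag] at hz
    refine ⟨Fin.cons z.1 (Fin.cons z.2 w), ?_, rfl⟩
    simp only [mem_filter, mem_univ, true_and]
    exact ⟨⟨hz.2.2, hz.2.1, hz.1⟩, rfl⟩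

theorem dvd_card_of_inv {H : Type*} [Group H] [Fintype H] (E : Subgroup H) (p : H → Prop)
    (h : ∀ x, p x → ∀ y ∈ E, p (x * y)) : Nat.card E ∣ (univ.filter p).card := by
  have := QuotientGroup.card_preimage_mk E (QuotientGroup.mk '' {x | p x})
  have e : QuotientGroup.mk ⁻¹' (QuotientGroup.mk '' {x | p x} : Set (H ⧸ E)) = {x | p x} := by
    ext x
    constructor
    · rintro ⟨y, hy, e⟩
      have := h y hy _ (QuotientGroup.eq.1 e)
      simpa using this
    · exact fun hx => ⟨x, hx, rfl⟩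
  rw [e] at this
  rw [← Fintype.card_subtype, ← Nat.card_eq_fintype_card]
  exact ⟨_, this⟩

/-- the invariant relation attached to a base tuple and a subgroup of the symmetric group -/
def Qd (G : Type*) [Group G] [MulAction G Ω] {k : ℕ} (x : Fin k → Ω) (M : Subgroup (Perm (Fin k)))
    (e : Fin k → Ω) : Prop := ∃ g : G, ∃ σ ∈ M, e = g • (x ∘ σ)

section Q
variable {k : ℕ} {x : Fin k → Ω} {M : Subgroup (Perm (Fin k))}

theorem Qd.inj (hx : Function.Injective x) (e : Fin k → Ω) (h : Qd G x M e) :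
    Function.Injective e := by
  obtain ⟨g, σ, -, rfl⟩ := h
  exact (MulAction.injective g).comp (hx.comp σ.injective)

theorem Qd.smul (g : G) (e : Fin k → Ω) (h : Qd G x M e) : Qd G x M (g • e) := by
  obtain ⟨g', σ, h, rfl⟩ := h
  exact ⟨g * g', σ, h, by rw [mul_smul]⟩

theorem Qd.comp {e : Fin k → Ω} (h : Qd G x M e) {τ : Perm (Fin k)} (hτ : τ ∈ M) :
    Qd G x M (e ∘ τ) := by
  obtain ⟨g', σ, h, rfl⟩ := h
  exact ⟨g', σ * τ, mul_mem h hτ, rfl⟩

theorem Qd.mem (hT : ∀ (g : G) (σ : Perm (Fin k)), g • x = x ∘ σ → σ ∈ M) {e : Fin k → Ω}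
    {τ : Perm (Fin k)} (h : Qd G x M e) (h' : Qd G x M (e ∘ τ)) : τ ∈ M := by
  obtain ⟨g, σ, h1, rfl⟩ := h
  obtain ⟨g', σ', h2, e⟩ := h'
  have := hT (g⁻¹ * g') (σ * τ * σ'⁻¹) (funext fun i => by
    have := congrFun e (σ'⁻¹ i)
    simp only [Function.comp, Pi.smul_apply, Perm.coe_inv, apply_symm_apply] at this
    simp [mul_smul, ← this])
  simpa [mul_assoc] using mul_mem (mul_mem (inv_mem h1) this) h2

theorem Qd.self : Qd G x M x := ⟨1, 1, one_mem _, by simp⟩

theorem exists_Qd (hh : Hom G Ω k) (hx : Function.Injective x) {e : Fin k → Ω}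
    (he : Function.Injective e) : ∃ τ : Perm (Fin k), Qd G x M (e ∘ τ) := by
  obtain ⟨g, σ, h⟩ := hom_tuple hh hx he
  exact ⟨σ⁻¹, g, 1, one_mem _, by funext i; simp [h]⟩

end Q

theorem numerics {j : ℕ} (hn : j + 2 ≤ Fintype.card Ω) (ht : IsMultiplyPretransitive G Ω j)
    (h1 : Hom G Ω (j + 1)) (h2 : Hom G Ω (j + 2)) {x : Fin (j + 1) → Ω} (hx : Function.Injective x)
    {M : Subgroup (Perm (Fin (j + 1)))} (hT : ∀ (g : G) (σ : Perm (Fin (j + 1))), g • x = x ∘ σ → σ ∈ M)
    (E : Subgroup (Perm (Fin (j + 2))))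
    (hE : ∀ e, S2 (Qd G x M) e → ∀ τ ∈ E, S2 (Qd G x M) (e ∘ τ)) :
    ∃ d s : ℕ, (∀ w : Fin j → Ω, Function.Injective w →
        (univ.filter fun z => Qd G x M (Fin.cons z w)).card = d) ∧
      (Fintype.card Ω - j) * Nat.card M = (j + 1).factorial * d ∧
      (Fintype.card Ω - (j + 1)) * (Fintype.card Ω - j) * s = (j + 2).factorial * (d * d - d) ∧
      Nat.card E ∣ s := by
  have hd : ∀ w : Fin j → Ω, Function.Injective w →
      (univ.filter fun z => Qd G x M (Fin.cons z w)).card =
        (univ.filter fun z => Qd G x M (Fin.cons z (Fin.tail x))).card := by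
    intro w hw
    obtain ⟨g, hg⟩ := (multi_iff j).1 ht w (Fin.tail x) hw (hx.comp (Fin.succ_injective j))
    have e : ∀ z, g • (Fin.cons z w : Fin (j + 1) → Ω) = Fin.cons (g • z) (Fin.tail x) := fun z =>
      funext fun i => Fin.cases rfl (fun i => hg i) i
    refine card_bij (fun z _ => g • z) (fun z hz => ?_) (fun _ _ _ _ h => MulAction.injective g h)
      (fun z hz => ⟨g⁻¹ • z, ?_, smul_inv_smul g z⟩)
    · simp only [mem_filter, mem_univ, true_and] at hz ⊢
      rw [← e]; exact Qd.smul g _ hz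
    · simp only [mem_filter, mem_univ, true_and] at hz ⊢
      have := Qd.smul g⁻¹ _ hz
      rwa [← smul_inv_smul g z, ← e, inv_smul_smul] at this
  obtain ⟨y⟩ := nonempty_embedding_fin (Ω := Ω) (k := j + 2) (by rwa [Nat.card_eq_fintype_card])
  have hpos : 0 < (Fintype.card Ω).descFactorial j := Nat.descFactorial_pos.2 (by omega)
  have c1 := symm_count h1 (Qd G x M) (Qd.inj hx) Qd.smul hx
  have c2 := symm_count h2 (S2 (Qd G x M)) (S2.inj (Qd.inj hx)) (fun g e h =>
    ⟨fun e' => h.1 (MulAction.injective g e'), Qd.smul g _ h.2.1, by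
      have := Qd.smul g _ h.2.2
      convert this using 1
      exact funext fun i => Fin.cases rfl (fun i => rfl) i⟩) y.injective
  rw [count1 _ (Qd.inj hx) hd, Nat.descFactorial_succ] at c1
  rw [count2 _ (Qd.inj hx) hd, Nat.descFactorial_succ, Nat.descFactorial_succ] at c2
  have c3 : (univ.filter fun σ : Perm (Fin (j + 1)) => Qd G x M (x ∘ σ)).card = Nat.card M := by
    rw [← Fintype.card_subtype, ← Nat.card_eq_fintype_card]
    exact Nat.card_congr (Equiv.subtypeEquivRight fun σ => ⟨Qd.mem hT Qd.self, Qd.self.comp⟩)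
  rw [c3] at c1
  refine ⟨_, _, hd, Nat.eq_of_mul_eq_mul_left hpos (by linarith),
    Nat.eq_of_mul_eq_mul_left hpos ?_, dvd_card_of_inv E (fun σ => S2 (Qd G x M) (y ∘ σ))
      fun σ h τ hτ => hE _ h τ hτ⟩
  linarith

end Cfsg.Agent.Isaacs.LW
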