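import Mathlib
import Cfsg.Agent.Isaacs.LW6

set_option autoImplicit false
set_option linter.unusedSectionVars false

namespace Cfsg.Agent.Isaacs.LW

open MulAction Equiv Cfsg.Agent.Perm Cfsg.Agent.Core Finset
open scoped Pointwise Classical

variable {G Ω : Type*} [Group G] [Finite G] [MulAction G Ω] [Fintype Ω] [DecidableEq Ω]

theorem Hom.choose_dvd {m : ℕ} (hh : Hom G Ω m) (hn : m ≤ Fintype.card Ω) :
    (Fintype.card Ω).choose m ∣ Nat.card G := by
  obtain ⟨s, -, hs⟩ := exists_subset_card_eq (s := (univ : Finset Ω)) (n := m) (by simpa using hn)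
  have : orbit G s = (powersetCard m (univ : Finset Ω) : Finset (Finset Ω)) := by
    ext t
    simp only [mem_coe, mem_powersetCard_univ]
    constructor
    · rintro ⟨g, rfl⟩; simp [hs]
    · exact fun h => hh s t hs h
  have h2 := (stabilizer G s).index_dvd_card
  rwa [index_stabilizer, this, Set.ncard_coe_finset, card_powersetCard, card_univ] at h2

theorem Hom.card_Fx {m : ℕ} (hh : Hom G Ω m) {s t : Finset Ω} (hs : s.card = m) (ht : t.card = m) :
    Nat.card (Fx G s) = Nat.card (Fx G t) := by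
  have key : ∀ {s t : Finset Ω}, s.card = m → t.card = m → Nat.card (Fx G s) ≤ Nat.card (Fx G t) := by
    intro s t hs ht
    obtain ⟨g, rfl⟩ := hh s t hs ht
    refine Nat.card_le_card_of_injective (fun l => ⟨g * l * g⁻¹, mem_Fx.2 fun y hy => ?_⟩) ?_
    · rw [mul_smul, mul_smul, mem_Fx.1 l.2 _ (inv_smul_mem_iff.2 hy), smul_inv_smul]
    · intro l l' e
      have := congrArg Subtype.val e
      exact Subtype.ext (by simpa using this)
  exact le_antisymm (key hs ht) (key ht hs)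

theorem card_stab_Fx (Γ : Finset Ω) (z : Ω) :
    Nat.card (stabilizer (Fx G Γ) z) = Nat.card (Fx G (insert z Γ)) :=
  Nat.card_congr
    { toFun := fun l => ⟨l.1.1, mem_Fx.2 fun y hy => by
        rcases mem_insert.1 hy with rfl | hy
        · exact l.2
        · exact mem_Fx.1 l.1.2 y hy⟩
      invFun := fun l => ⟨⟨l.1, mem_Fx.2 fun y hy => mem_Fx.1 l.2 y (mem_insert_of_mem hy)⟩,
        mem_Fx.1 l.2 z (mem_insert_self _ _)⟩
      left_inv := fun _ => rfl
      right_inv := fun _ => rfl }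

theorem idx_dvd {m : ℕ} (hh : Hom G Ω (m + 1)) {Γ Γ' A : Finset Ω} (hΓ : Γ.card = m)
    (hΓ' : Γ'.card = m + 1) (hA : ∀ z ∈ A, z ∉ Γ) (hi : ∀ l ∈ Fx G Γ, ∀ z ∈ A, l • z ∈ A) {t : ℕ}
    (ht : t * Nat.card (Fx G Γ') = Nat.card (Fx G Γ)) : t ∣ A.card := by
  rw [card_eq_sum_card_fiberwise (f := fun z : Ω => orbit (Fx G Γ) z)
    (t := A.image fun z : Ω => orbit (Fx G Γ) z) (fun z hz => mem_image_of_mem _ hz)]
  refine dvd_sum fun O hO => ?_
  obtain ⟨z, hz, rfl⟩ := mem_image.1 hO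
  have h1 : ((A.filter fun y => orbit (Fx G Γ) y = orbit (Fx G Γ) z : Finset Ω) : Set Ω) =
      orbit (Fx G Γ) z := by
    ext y
    simp only [coe_filter, Set.mem_ofPred_eq, orbit_eq_iff]
    exact ⟨fun h => h.2, fun h => ⟨by obtain ⟨l, rfl⟩ := h; exact hi l l.2 z hz, h⟩⟩
  have h2 := (stabilizer (Fx G Γ) z).index_mul_card
  rw [index_stabilizer, card_stab_Fx, hh.card_Fx (by rw [card_insert_of_notMem (hA z hz), hΓ]) hΓ',
    ← ht, ← h1, Set.ncard_coe_finset] at h2
  exact dvd_of_eq (Nat.eq_of_mul_eq_mul_right Nat.card_pos h2).symm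

theorem struct [FaithfulSMul G Ω] {j d : ℕ} (ht : IsMultiplyPretransitive G Ω j)
    (h1 : Hom G Ω (j + 1)) (h2 : Hom G Ω (j + 2)) (hn : j + 2 ≤ Fintype.card Ω)
    (Q : (Fin (j + 1) → Ω) → Prop) (hQ : ∀ e, Q e → Function.Injective e)
    (hi : ∀ (g : G) e, Q e → Q (g • e))
    (hd : ∀ w : Fin j → Ω, Function.Injective w → (univ.filter fun z => Q (Fin.cons z w)).card = d)
    (hd0 : 0 < d) (hd1 : d + j < Fintype.card Ω) :
    (∀ (g : G) (s : Finset Ω), j < s.card → (∀ x ∈ s, g • x = x) → g = 1) ∧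
      ∃ l, l ∣ d ∧ Nat.card G = (Fintype.card Ω).descFactorial j * l ∧
        ∀ Γ : Finset Ω, Γ.card = j → Nat.card (Fx G Γ) = l := by
  obtain ⟨w⟩ := nonempty_embedding_fin (Ω := Ω) (k := j) (by rw [Nat.card_eq_fintype_card]; omega)
  set Γ := univ.image w with hΓ
  have hc : Γ.card = j := by rw [hΓ, card_image_of_injective _ w.injective]; simp
  set D := univ.filter fun z => Q (Fin.cons z w) with hD
  have hDc : D.card = d := hd w w.injective
  have hDΓ : ∀ z ∈ D, z ∉ Γ := by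
    intro z hz h
    obtain ⟨i, -, rfl⟩ := mem_image.1 h
    exact (Fin.cons_injective_iff.1 (hQ _ (mem_filter.1 hz).2)).1 ⟨i, rfl⟩
  have hDi : ∀ l ∈ Fx G Γ, ∀ z ∈ D, l • z ∈ D := by
    intro l hl z hz
    refine mem_filter.2 ⟨mem_univ _, ?_⟩
    convert hi l _ (mem_filter.1 hz).2 using 1
    exact funext fun i => Fin.cases rfl
      (fun i => (mem_Fx.1 hl _ (mem_image_of_mem _ (mem_univ i))).symm) i
  obtain ⟨z, hz⟩ := card_pos.1 (hDc ▸ hd0)
  obtain ⟨z', hz'⟩ := exists_notMem_of_card_lt (Γ ∪ D)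
    (by have := card_union_le Γ D; rw [Nat.card_eq_fintype_card]; omega)
  rw [mem_union, not_or] at hz'
  have c1 : (insert z Γ).card = j + 1 := by rw [card_insert_of_notMem (hDΓ z hz), hc]
  have c2 : (insert z' Γ).card = j + 1 := by rw [card_insert_of_notMem hz'.1, hc]
  have hzz : z' ≠ z := fun e => hz'.2 (e ▸ hz)
  have c3 : (insert z' (insert z Γ)).card = j + 2 := by
    rw [card_insert_of_notMem (by simp [hz'.1, hzz]), c1]
  have hle : ∀ (y : Ω) (s : Finset Ω), Fx G (insert y s) ≤ Fx G s := fun y s l hl =>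
    mem_Fx.2 fun x hx => mem_Fx.1 hl x (mem_insert_of_mem hx)
  obtain ⟨t, ht'⟩ := Subgroup.card_dvd_of_le (hle z' (insert z Γ))
  rw [mul_comm] at ht'
  have d1 := idx_dvd h2 c1 c3 (A := D.erase z) (fun y hy => by
      rw [mem_erase] at hy; simp [hy.1, hDΓ y hy.2])
    (fun l hl y hy => by
      rw [mem_erase] at hy ⊢
      refine ⟨fun e => hy.1 (MulAction.injective l ?_), hDi l (hle _ _ hl) y hy.2⟩
      show l • y = l • z
      rw [e, mem_Fx.1 hl z (mem_insert_self _ _)]) ht'.symm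
  have d2 := idx_dvd h2 c2 c3 (A := D) (fun y hy => by
      rw [mem_insert, not_or]; exact ⟨fun e => hz'.2 (e ▸ hy), hDΓ y hy⟩)
    (fun l hl y hy => hDi l (hle _ _ hl) y hy) (ht'.symm.trans (h1.card_Fx c1 c2))
  rw [card_erase_of_mem hz, hDc] at d1
  rw [hDc] at d2
  have t1 : t = 1 := by
    have := (Nat.dvd_sub d2 d1)
    rw [show d - (d - 1) = 1 by omega] at this
    exact Nat.dvd_one.1 this
  rw [t1, one_mul] at ht'
  have H1 : ∀ s : Finset Ω, s.card = j + 1 → ∀ g ∈ Fx G s, g = 1 := by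
    intro s hs g hg
    refine eq_of_smul_eq_smul fun y : Ω => ?_
    rw [one_smul]
    by_cases hy : y ∈ s
    · exact mem_Fx.1 hg y hy
    · have := Subgroup.eq_of_le_of_card_ge (hle y s) (le_of_eq (by
        rw [h1.card_Fx hs c1, ht', h2.card_Fx c3 (by rw [card_insert_of_notMem hy, hs])]))
      rw [← this] at hg
      exact mem_Fx.1 hg y (mem_insert_self _ _)
  refine ⟨fun g s hs hg => ?_, Nat.card (Fx G Γ), ?_, ?_, fun Γ' h' => card_Fx_eq ht h' hc⟩
  · obtain ⟨s', k1, k2⟩ := exists_subset_card_eq (n := j + 1) hs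
    exact H1 s' k2 g (mem_Fx.2 fun x hx => hg x (k1 hx))
  · rw [← hDc]
    refine idx_dvd h1 hc c1 hDΓ hDi ?_
    rw [show Fx G (insert z Γ) = ⊥ from (Subgroup.eq_bot_iff_forall _).2 (H1 _ c1), Subgroup.card_bot,
      mul_one]
  · rw [card_eq_descFactorial_mul ht w, Nat.card_eq_fintype_card]
    congr 1
    refine congrArg (fun H : Subgroup G => Nat.card H) ?_
    ext g
    rw [mem_stabilizer_iff, mem_Fx]
    constructor
    · intro h y hy
      obtain ⟨i, -, rfl⟩ := mem_image.1 hy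
      exact congrArg (fun e : Fin j ↪ Ω => e i) h
    · intro h
      exact Function.Embedding.ext fun i => h _ (mem_image_of_mem _ (mem_univ i))

theorem sylow_num {p : ℕ} [hp : Fact p.Prime] (h5 : 5 ≤ p) (hn : Fintype.card Ω < 2 * p)
    (H0 : ∀ (g : G) (s : Finset Ω), 3 < s.card → (∀ x ∈ s, g • x = x) → g = 1)
    (hn' : 3 < Fintype.card Ω) (h1 : p ∣ Nat.card G) (h2 : ¬ p ^ 2 ∣ Nat.card G) :
    ∃ e a, e ∣ p - 1 ∧ a % p = 1 ∧ Nat.card G = a * (p * e) := by
  obtain ⟨P⟩ : Nonempty (Sylow p G) := inferInstance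
  have hP : Nat.card P = p := by
    have e1 : (Nat.card G).factorization p = 1 := by
      have := (hp.out.pow_dvd_iff_le_factorization (Nat.card_pos (α := G)).ne' (k := 1)).1
        (by rwa [pow_one])
      have := (hp.out.pow_dvd_iff_le_factorization (Nat.card_pos (α := G)).ne' (k := 2)).not.1 h2
      omega
    rw [P.card_eq_multiplicity, e1, pow_one]
  haveI : IsCyclic P := isCyclic_of_prime_card hP
  obtain ⟨y, hy⟩ := exists_prime_orderOf_dvd_card' (G := P) p (by rw [hP])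
  have hyo : orderOf (y : G) = p := by rw [Subgroup.orderOf_coe, hy]
  have hyp : (y : G) ^ p ^ 1 = 1 := by
    rw [pow_one]; exact orderOf_dvd_iff_pow_eq_one.1 (dvd_of_eq hyo)
  have hy1 : (y : G) ≠ 1 := fun e => by rw [e, orderOf_one] at hyo; omega
  set S : Set Ω := {z | (y : G) • z ≠ z} with hS
  have hSy : ∀ z ∈ S, (y : G) • z ∈ S := fun z hz e => hz (MulAction.injective _ e)
  have hSc : S.ncard = p := by
    have k1 := ncard_modEq_fixedBy hyp S (Set.toFinite _) hSy
    rw [show {x | x ∈ S ∧ (y : G) • x = x} = ∅ from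
      Set.eq_empty_of_forall_notMem fun z hz => hz.1 hz.2, Set.ncard_empty] at k1
    obtain ⟨c, hc⟩ := Nat.modEq_zero_iff_dvd.1 k1
    have k2 : S.ncard ≤ Fintype.card Ω := by
      rw [← Nat.card_eq_fintype_card]; exact Set.ncard_le_card S
    have k3 : S.ncard ≠ 0 := by
      intro e
      rw [Set.ncard_eq_zero] at e
      refine hy1 (H0 y univ (by simpa using hn') fun z _ => ?_)
      by_contra hz
      exact Set.notMem_empty z (e ▸ (hz : z ∈ S))
    have k4 : c < 2 := by
      by_contra k5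
      have : p * 2 ≤ p * c := Nat.mul_le_mul_left p (by omega)
      omega
    interval_cases c <;> omega
  have hC : IsPGroup p (Subgroup.centralizer (P : Set G)) := by
    rw [IsPGroup.iff_card]
    refine ⟨_, Nat.eq_prime_pow_of_unique_prime_dvd Nat.card_pos.ne' fun {r} hr hd => ?_⟩
    by_contra hrp
    haveI : Fact r.Prime := ⟨hr⟩
    obtain ⟨w, hw⟩ := exists_prime_orderOf_dvd_card' r hd
    have hwy : (y : G) * w = w * y := w.2 y y.2
    have hwr : (w : G) ^ r ^ 1 = 1 := by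
      rw [pow_one, ← hw]; exact congrArg Subtype.val (pow_orderOf_eq_one w)
    have k1 := ncard_modEq_fixedBy hwr S (Set.toFinite _) fun z hz e => hz (by
      rw [← mul_smul, hwy, mul_smul] at e; exact MulAction.injective _ e)
    obtain ⟨c, hc⟩ : {x | x ∈ S ∧ (w : G) • x = x}.Nonempty := by
      by_contra hne
      rw [Set.not_nonempty_iff_eq_empty.1 hne, Set.ncard_empty, hSc] at k1
      exact hrp ((Nat.prime_dvd_prime_iff_eq hr hp.out).1 (Nat.modEq_zero_iff_dvd.1 k1))
    have k2 : ∀ i : ℕ, 0 < i → i < p → (y : G) ^ i • c ≠ c := by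
      intro i h0 hi e
      obtain ⟨m, hm⟩ := exists_pow_eq_self_of_coprime (x := (y : G)) (n := i)
        (by rw [hyo]; exact ((Nat.coprime_of_lt_prime h0.ne' hi hp.out)).symm)
      exact hc.1 (by rw [← hm]; exact pow_fix e m)
    have k3 : ∀ i j : ℕ, i < j → j < p → (y : G) ^ i • c ≠ (y : G) ^ j • c := by
      intro i j hij hj e
      obtain ⟨m, rfl⟩ := Nat.exists_eq_add_of_lt hij
      rw [add_assoc, pow_add, mul_smul] at e
      exact k2 (m + 1) (by omega) (by omega) (MulAction.injective _ e).symm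
    have k4 : (w : G) = 1 := by
      refine H0 w ((range 4).image fun i => (y : G) ^ i • c) ?_ fun z hz => ?_
      · rw [card_image_of_injOn, card_range]
        · omega
        · intro i hi j hj e
          simp only [coe_range, Set.mem_Iio] at hi hj
          rcases lt_trichotomy i j with h | h | h
          · exact absurd e (k3 i j h (by omega))
          · exact h
          · exact absurd e.symm (k3 j i h (by omega))
      · obtain ⟨i, -, rfl⟩ := mem_image.1 hz
        rw [← mul_smul, ← (show Commute (y : G) w from hwy).pow_left i, mul_smul, hc.2]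
    rw [show w = 1 from Subtype.ext k4, orderOf_one] at hw
    exact hr.one_lt.ne hw
  have hCP : Subgroup.centralizer ((P : Subgroup G) : Set G) = P :=
    P.is_maximal' hC (Subgroup.le_centralizer (P : Subgroup G))
  have k1 := (P : Subgroup G).normalizerMonoidHom.ker.index_mul_card
  have k2 : (P : Subgroup G).normalizerMonoidHom.ker.index ∣ p - 1 := by
    rw [Subgroup.index_ker]
    have := Subgroup.card_subgroup_dvd_card (P : Subgroup G).normalizerMonoidHom.range
    rwa [IsCyclic.card_mulAut, hP, Nat.totient_prime hp.out] at this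
  have k3 : Nat.card (P : Subgroup G).normalizerMonoidHom.ker = p := by
    rw [Subgroup.normalizerMonoidHom_ker, hCP,
      Nat.card_congr (Subgroup.subgroupOfEquivOfLe Subgroup.le_normalizer).toEquiv, hP]
  refine ⟨_, Nat.card (Sylow p G), k2, ?_, ?_⟩
  · have := card_sylow_modEq_one p G
    rwa [Nat.ModEq, Nat.mod_eq_of_lt hp.out.one_lt] at this
  · rw [k3] at k1
    rw [mul_comm p, k1, P.card_eq_index_normalizer]
    exact (Subgroup.index_mul_card _).symm

theorem T2 (T : Subgroup (Perm (Fin 2))) (h : T ≠ ⊤) : T ≤ alternatingGroup (Fin 2) := by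
  have h1 := T.index_mul_card
  rw [Nat.card_perm, Nat.card_fin] at h1
  have h2 : T.index ≠ 1 := fun e => h (Subgroup.index_eq_one.1 e)
  have h3 : T.index ∣ 2 := ⟨_, h1.symm⟩
  rw [Perm.eq_alternatingGroup_of_index_eq_two (((Nat.dvd_prime Nat.prime_two).1 h3).resolve_left h2)]

theorem T3 (T : Subgroup (Perm (Fin 3))) (h : T ≠ ⊤) :
    T ≤ alternatingGroup (Fin 3) ∨ ∃ i, ∀ σ ∈ T, σ i = i := by
  have h1 := T.index_mul_card
  rw [Nat.card_perm, Nat.card_fin] at h1
  have h2 : T.index ≠ 1 := fun e => h (Subgroup.index_eq_one.1 e)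
  by_cases h3 : T.index = 2
  · left; rw [Perm.eq_alternatingGroup_of_index_eq_two h3]
  · right
    haveI : Fact (Nat.Prime 2) := ⟨Nat.prime_two⟩
    have h4 : T.index ≤ 6 := Nat.le_of_dvd (by decide) ⟨_, h1.symm⟩
    have h5 : Nat.card T ∣ 2 ^ 1 := by
      have : Nat.factorial 3 = 6 := rfl
      have : Nat.card T = 1 ∨ Nat.card T = 2 := by interval_cases T.index <;> omega
      rcases this with e | e <;> rw [e] <;> decide
    obtain ⟨i, hi⟩ := (IsPGroup.of_card_dvd_pow h5).nonempty_fixed_point_of_prime_not_dvd_card (Fin 3)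
      (by simp)
    exact ⟨i, fun σ hσ => hi ⟨σ, hσ⟩⟩

/-- a dihedral Sylow subgroup of `S₄` -/
def D8 : Subgroup (Perm (Fin 4)) := Subgroup.centralizer {swap 0 1 * swap 2 3}

theorem mem_D8 {σ : Perm (Fin 4)} : σ ∈ D8 ↔ σ * (swap 0 1 * swap 2 3) = swap 0 1 * swap 2 3 * σ :=
  Subgroup.mem_centralizer_singleton_iff

theorem card_D8 : Nat.card D8 = 8 := by
  rw [Nat.card_congr (Equiv.subtypeEquivRight fun σ => mem_D8), Nat.card_eq_fintype_card]
  decide +kernel

theorem T4 (T : Subgroup (Perm (Fin 4))) (h : T ≠ ⊤) :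
    T ≤ alternatingGroup (Fin 4) ∨ (∃ i, ∀ σ ∈ T, σ i = i) ∨
      ∃ τ : Perm (Fin 4), ∀ σ ∈ T, τ * σ * τ⁻¹ ∈ D8 := by
  have h1 := T.index_mul_card
  rw [Nat.card_perm, Nat.card_fin] at h1
  have h2 : T.index ≠ 1 := fun e => h (Subgroup.index_eq_one.1 e)
  have h24 : Nat.factorial 4 = 24 := rfl
  by_cases h3 : 3 ∣ Nat.card T
  · haveI : Fact (Nat.Prime 3) := ⟨Nat.prime_three⟩
    obtain ⟨c, hc⟩ := exists_prime_orderOf_dvd_card' 3 h3
    have c3 : (c : Perm (Fin 4)) ^ 3 = 1 := by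
      have := pow_orderOf_eq_one c
      rw [hc] at this
      exact congrArg Subtype.val this
    have c1 : (c : Perm (Fin 4)) ≠ 1 := fun e => by
      rw [show c = 1 from Subtype.ext e] at hc; simp at hc
    obtain ⟨i, hi⟩ := (show ∀ c : Perm (Fin 4), c ^ 3 = 1 → ∃ i, c i = i by decide +kernel) _ c3
    by_cases h4 : ∀ σ ∈ T, σ i = i
    · exact Or.inr (Or.inl ⟨i, h4⟩)
    left
    push Not at h4
    obtain ⟨g, hg, hgi⟩ := h4
    have h5 : orbit T i = Set.univ := by
      refine Set.eq_univ_of_forall fun j => ?_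
      by_cases e : j = i
      · rw [e]; exact mem_orbit_self i
      rcases (show ∀ c : Perm (Fin 4), c ^ 3 = 1 → c ≠ 1 → ∀ i, c i = i → ∀ j j', j ≠ i → j' ≠ i →
        j' = j ∨ j' = c j ∨ j' = c (c j) by decide +kernel) _ c3 c1 i hi _ _ hgi e with e | e | e
      · exact ⟨⟨g, hg⟩, e.symm⟩
      · exact ⟨c * ⟨g, hg⟩, e.symm⟩
      · exact ⟨c * (c * ⟨g, hg⟩), e.symm⟩
    have h6 := (stabilizer T i).index_dvd_card
    rw [index_stabilizer, h5, Set.ncard_univ, Nat.card_eq_fintype_card, Fintype.card_fin] at h6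
    have h7 : T.index = 2 := by
      obtain ⟨k, hk⟩ := Nat.Coprime.mul_dvd_of_dvd_of_dvd (by decide) h3 h6
      rw [hk, h24] at h1
      have : T.index * k = 2 := by linarith
      exact ((Nat.dvd_prime Nat.prime_two).1 ⟨_, this.symm⟩).resolve_left h2
    rw [Perm.eq_alternatingGroup_of_index_eq_two h7]
  · right; right
    haveI : Fact (Nat.Prime 2) := ⟨Nat.prime_two⟩
    have h5 : Nat.card T ∣ 2 ^ 3 := by
      refine Nat.Coprime.dvd_of_dvd_mul_right (m := 2 ^ 3) (n := 3)
        ((Nat.Prime.coprime_iff_not_dvd Nat.prime_three).2 h3).symm ⟨T.index, ?_⟩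
      rw [mul_comm (Nat.card T), h1]; rfl
    have hS : IsSylowOf 2 D8 ⊤ := ⟨le_top, IsPGroup.of_card (n := 3) card_D8, by
      have := D8.index_mul_card
      rw [card_D8, Nat.card_perm, Nat.card_fin] at this
      rw [Subgroup.relIndex_top_right]; omega⟩
    obtain ⟨τ, -, hτ⟩ := hS.exists_conj_le (IsPGroup.of_card_dvd_pow h5) le_top
    exact ⟨τ, fun σ hσ => hτ ⟨σ, hσ, rfl⟩⟩

end Cfsg.Agent.Isaacs.LW
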