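import Mathlib
import Cfsg.Agent.Isaacs.LW7

set_option autoImplicit false
set_option linter.unusedSectionVars false

namespace Cfsg.Agent.Isaacs.LW

open MulAction Equiv Cfsg.Agent.Perm Cfsg.Agent.Core Finset
open scoped Pointwise Classical

variable {G Ω : Type*} [Group G] [Finite G] [MulAction G Ω] [Fintype Ω] [DecidableEq Ω]

/-- permutations of the positions of `x` induced by `G` -/
def Tx (G : Type*) [Group G] [MulAction G Ω] {k : ℕ} (x : Fin k → Ω) : Subgroup (Perm (Fin k)) where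
  carrier := {σ | ∃ g : G, g • x = x ∘ σ}
  one_mem' := ⟨1, by simp⟩
  mul_mem' := by
    rintro σ τ ⟨g, hg⟩ ⟨h, hh⟩
    refine ⟨g * h, ?_⟩
    rw [mul_smul, hh]
    exact congrArg (· ∘ τ) hg
  inv_mem' := by
    rintro σ ⟨g, hg⟩
    refine ⟨g⁻¹, funext fun i => ?_⟩
    have := congrFun hg (σ⁻¹ i)
    simp only [Function.comp, Pi.smul_apply, Perm.coe_inv, apply_symm_apply] at this
    simp [← this]

theorem Tx_ne_top {k : ℕ} (hh : Hom G Ω k) (hnt : ¬ IsMultiplyPretransitive G Ω k) {x : Fin k → Ω}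
    (hx : Function.Injective x) : Tx G x ≠ ⊤ := by
  intro h
  apply hnt
  have key : ∀ y : Fin k → Ω, Function.Injective y → ∃ g : G, y = g • x := by
    intro y hy
    obtain ⟨g, σ, rfl⟩ := hom_tuple hh hx hy
    obtain ⟨g', e⟩ : σ ∈ Tx G x := by rw [h]; trivial
    exact ⟨g * g', by rw [mul_smul, e]⟩
  rw [multi_iff]
  intro y z hy hz
  obtain ⟨g, rfl⟩ := key y hy
  obtain ⟨g', rfl⟩ := key z hz
  exact ⟨g' * g⁻¹, fun i => by simp [mul_smul]⟩

theorem hT_of {k : ℕ} {x : Fin k → Ω} {M : Subgroup (Perm (Fin k))} {τ : Perm (Fin k)}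
    (h : ∀ σ ∈ Tx G x, τ * σ * τ⁻¹ ∈ M) (g : G) (σ : Perm (Fin k))
    (e : g • (x ∘ τ.symm) = (x ∘ τ.symm) ∘ σ) : σ ∈ M := by
  have := h (τ⁻¹ * σ * τ) ⟨g, funext fun i => by simpa using congrFun e (τ i)⟩
  simpa [mul_assoc] using this

theorem S2_swap {j : ℕ} {Q : (Fin (j + 1) → Ω) → Prop} (e : Fin (j + 2) → Ω) (h : S2 Q e) :
    S2 Q (e ∘ swap 0 1) := by
  have k : ∀ i : Fin j, swap (0 : Fin (j + 2)) 1 i.succ.succ = i.succ.succ := fun i =>
    swap_apply_of_ne_of_ne (Fin.succ_ne_zero _) (Fin.succ_succ_ne_one i)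
  refine ⟨by simpa using h.1.symm, ?_, ?_⟩
  · convert h.2.2 using 1
    exact funext fun i => Fin.cases (by simp [Fin.tail]) (fun i => by simp [Fin.tail, k]) i
  · convert h.2.1 using 1
    exact funext fun i => Fin.cases (by simp [Fin.tail]) (fun i => by simp [Fin.tail, k]) i

theorem S2_comp {j : ℕ} {x : Fin (j + 1) → Ω} {M : Subgroup (Perm (Fin (j + 1)))}
    {τ : Perm (Fin (j + 2))} {ρ : Perm (Fin (j + 1))} (h0 : τ 0 = 0) (h1 : ρ 0 = 0)
    (h2 : ∀ i, τ i.succ = (ρ i).succ) (hρ : ρ ∈ M) (e : Fin (j + 2) → Ω) (h : S2 (Qd G x M) e) :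
    S2 (Qd G x M) (e ∘ τ) := by
  have h3 : τ 1 = 1 := by simpa [h1] using h2 0
  refine ⟨by simpa [h0, h3] using h.1, ?_, ?_⟩
  · convert h.2.1.comp hρ using 1
    exact funext fun i => by simp [Fin.tail, h2]
  · convert h.2.2.comp hρ using 1
    refine funext fun i => Fin.cases (by simp [h0, h1]) (fun i => ?_) i
    obtain ⟨i', e'⟩ := Fin.exists_succ_eq.2
      (show ρ i.succ ≠ 0 from fun e => Fin.succ_ne_zero i (ρ.injective (e.trans h1.symm)))
    simp [Fin.tail, h2, ← e']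

theorem hE_zpowers {k : ℕ} {P : (Fin k → Ω) → Prop} {τ : Perm (Fin k)}
    (h : ∀ e, P e → P (e ∘ τ)) : ∀ e, P e → ∀ σ ∈ Subgroup.zpowers τ, P (e ∘ σ) := by
  intro e he σ hσ
  obtain ⟨n, rfl⟩ := (mem_powers_iff_mem_zpowers.2 hσ)
  clear hσ
  induction n with
  | zero => exact he
  | succ n ih => simp only [pow_succ]; exact h _ ih

theorem hE_V4 {k : ℕ} {P : (Fin k → Ω) → Prop} {a b : Perm (Fin k)} (ha : a * a = 1) (hb : b * b = 1)
    (hab : a * b = b * a) (h1 : ∀ e, P e → P (e ∘ a)) (h2 : ∀ e, P e → P (e ∘ b)) :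
    ∀ e, P e → ∀ σ ∈ V4 ha hb hab, P (e ∘ σ) := by
  rintro e he _ (rfl | rfl | rfl | rfl)
  exacts [he, h1 e he, h2 e he, h2 _ (h1 e he)]

theorem exists_inj {k : ℕ} (hn : k ≤ Fintype.card Ω) : ∃ x : Fin k → Ω, Function.Injective x := by
  obtain ⟨y⟩ := nonempty_embedding_fin (Ω := Ω) (k := k) (by rwa [Nat.card_eq_fintype_card])
  exact ⟨y, y.injective⟩

theorem ar {n j r d s F : ℕ} (hn : j + 2 ≤ n) (hv : n - j = (r + 1) * d)
    (h : (n - (j + 1)) * (n - j) * s = F * (d * d - d)) :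
    ∃ c, d = c + 1 ∧ ((r + 1) * c + r) * ((r + 1) * s) = F * c := by
  obtain ⟨c, rfl⟩ : ∃ c, d = c + 1 := ⟨d - 1, by
    rcases Nat.eq_zero_or_pos d with rfl | h <;> omega⟩
  refine ⟨c, rfl, Nat.eq_of_mul_eq_mul_left (show 0 < c + 1 by omega) ?_⟩
  have e : (r + 1) * (c + 1) = (r + 1) * c + r + 1 := by ring
  rw [show n - (j + 1) = (r + 1) * c + r by omega, hv,
    show (c + 1) * (c + 1) - (c + 1) = (c + 1) * c by
      rw [Nat.sub_eq_iff_eq_add (by nlinarith)]; ring] at h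
  linarith

theorem card_A2 : Nat.card (alternatingGroup (Fin 2)) = 1 := by
  rw [nat_card_alternatingGroup, Nat.card_fin]; rfl

theorem card_A3 : Nat.card (alternatingGroup (Fin 3)) = 3 := by
  rw [nat_card_alternatingGroup, Nat.card_fin]; rfl

theorem card_A4 : Nat.card (alternatingGroup (Fin 4)) = 12 := by
  rw [nat_card_alternatingGroup, Nat.card_fin]; rfl

theorem small2 (hn : 3 ≤ Fintype.card Ω) (ht : IsMultiplyPretransitive G Ω 1) (h1 : Hom G Ω 2)
    (h2 : Hom G Ω 3) (hnt : ¬ IsMultiplyPretransitive G Ω 2) : Fintype.card Ω = 3 := by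
  obtain ⟨x, hx⟩ := exists_inj (Ω := Ω) (k := 2) (by omega)
  obtain ⟨d, s, -, e1, e2, e3⟩ := numerics (j := 1) hn ht h1 h2 hx
    (fun g σ e => T2 _ (Tx_ne_top h1 hnt hx) ⟨g, e⟩) _ (hE_zpowers S2_swap)
  rw [card_A2] at e1
  rw [Nat.card_zpowers, (Perm.IsSwap.orderOf ⟨_, _, by decide, rfl⟩)] at e3
  obtain ⟨s, rfl⟩ := e3
  simp only [Nat.factorial] at e1 e2
  obtain ⟨c, rfl, e4⟩ := ar (r := 1) hn (by omega) e2
  have : s < 1 := by nlinarith
  interval_cases s
  omega

theorem card_stab3 : Nat.card (stabilizer (Perm (Fin 3)) (0 : Fin 3)) = 2 := by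
  rw [Nat.card_congr (Equiv.subtypeEquivRight fun σ => mem_stabilizer_iff), Nat.card_eq_fintype_card]
  decide +kernel

theorem card_stab4 : Nat.card (stabilizer (Perm (Fin 4)) (0 : Fin 4)) = 6 := by
  rw [Nat.card_congr (Equiv.subtypeEquivRight fun σ => mem_stabilizer_iff), Nat.card_eq_fintype_card]
  decide +kernel

theorem hT_fix {k : ℕ} {x : Fin (k + 1) → Ω} {i : Fin (k + 1)} (h : ∀ σ ∈ Tx G x, σ i = i) :
    ∀ σ ∈ Tx G x, swap 0 i * σ * (swap 0 i)⁻¹ ∈ stabilizer (Perm (Fin (k + 1))) (0 : Fin (k + 1)) := by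
  intro σ hσ
  simp [h σ hσ]

theorem small3 [FaithfulSMul G Ω] (hn : 4 ≤ Fintype.card Ω) (ht : IsMultiplyPretransitive G Ω 2)
    (h1 : Hom G Ω 3) (h2 : Hom G Ω 4) (hnt : ¬ IsMultiplyPretransitive G Ω 3) :
    Fintype.card Ω = 4 ∨ (Fintype.card Ω = 5 ∧ Nat.card G = 20) := by
  obtain ⟨x, hx⟩ := exists_inj (Ω := Ω) (k := 3) (by omega)
  rcases T3 _ (Tx_ne_top h1 hnt hx) with hT | ⟨i, hT⟩
  · have hT' : ∀ (g : G) (σ : Perm (Fin 3)), g • x = x ∘ σ → σ ∈ alternatingGroup (Fin 3) :=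
      fun g σ e => hT ⟨g, e⟩
    obtain ⟨d, s, hd, e1, e2, -⟩ := numerics (j := 2) hn ht h1 h2 hx hT' ⊥
      (fun e he τ hτ => by rw [Subgroup.mem_bot.1 hτ]; exact he)
    rw [card_A3] at e1
    simp only [Nat.factorial] at e1 e2
    obtain ⟨c, rfl, e4⟩ := ar (r := 1) hn (by omega) e2
    have : s < 6 := by nlinarith
    have hc : c = 0 ∨ c = 1 := by interval_cases s <;> omega
    rcases hc with rfl | rfl
    · omega
    exfalso
    have n6 : Fintype.card Ω = 6 := by omega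
    obtain ⟨H0, l, l1, l2, l3⟩ := struct ht h1 h2 hn _ (Qd.inj hx) Qd.smul hd (by omega) (by omega)
    have k1 := h1.choose_dvd (by omega)
    rw [l2, n6] at k1
    have k2 : l = 2 := by
      rcases (Nat.dvd_prime Nat.prime_two).1 l1 with rfl | rfl
      · exact absurd k1 (by decide)
      · rfl
    have k3 : ¬ Odd (Nat.card (Fx G {x 0, x 1})) := by
      rw [l3 _ (card_pair (hx.ne (by decide))), k2]; decide
    refine k3 (odd_of_no_invol fun t ht1 ht2 => ?_)
    refine eq_of_smul_eq_smul fun z : Ω => ?_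
    rw [one_smul]
    by_contra hz
    have a1 : t • x 0 = x 0 := mem_Fx.1 ht1 _ (by simp)
    have a2 : t • t • z = z := by rw [← mul_smul, ht2, one_smul]
    have a3 : Function.Injective ![z, t • z, x 0] := inj3 (Ne.symm hz)
      (fun e => hz (by rw [e, a1])) (fun e => hz (by rw [← a2, e, a1, a1]))
    obtain ⟨τ, hτ⟩ := exists_Qd (M := alternatingGroup (Fin 3)) h1 hx a3
    have a4 : t • (![z, t • z, x 0] ∘ τ) = (![z, t • z, x 0] ∘ τ) ∘ (τ⁻¹ * swap 0 1 * τ : Perm _) := by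
      have : t • ![z, t • z, x 0] = ![z, t • z, x 0] ∘ swap (0 : Fin 3) 1 := by
        funext i; fin_cases i <;> simp [a1, a2, swap_apply_def]
      funext i
      simpa using congrFun this (τ i)
    have a5 := Qd.mem hT' hτ (a4 ▸ Qd.smul t _ hτ)
    simp at a5
  · have hx' := hx.comp (swap 0 i).symm.injective
    obtain ⟨d, s, hd, e1, e2, e3⟩ := numerics (j := 2) hn ht h1 h2 hx' (hT_of (hT_fix hT)) _
      (hE_V4 (a := swap 0 1) (b := swap 2 3) (by decide) (by decide) (by decide) S2_swap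
        (S2_comp (ρ := swap 1 2) (by decide) (by decide) (by decide) (by decide)))
    rw [card_stab3] at e1
    rw [V4_card _ _ _ (by decide) (by decide) (by decide)] at e3
    obtain ⟨s, rfl⟩ := e3
    simp only [Nat.factorial] at e1 e2
    obtain ⟨c, rfl, e4⟩ := ar (r := 2) hn (by omega) e2
    have : s < 1 := by nlinarith
    have hc : c = 0 := by interval_cases s; omega
    subst hc
    have n5 : Fintype.card Ω = 5 := by omega
    obtain ⟨H0, l, l1, l2, l3⟩ := struct ht h1 h2 hn _ (Qd.inj hx') Qd.smul hd (by omega) (by omega)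
    rw [Nat.dvd_one.1 l1, n5] at l2
    exact Or.inr ⟨n5, l2⟩

theorem small4 [FaithfulSMul G Ω] (hn : 5 ≤ Fintype.card Ω) (ht : IsMultiplyPretransitive G Ω 3)
    (h1 : Hom G Ω 4) (h2 : Hom G Ω 5) (hnt : ¬ IsMultiplyPretransitive G Ω 4) :
    Fintype.card Ω = 5 ∨ (Fintype.card Ω = 6 ∧ Nat.card G = 120) ∨
      (Fintype.card Ω = 9 ∧ (Nat.card G = 504 ∨ Nat.card G = 1512)) := by
  obtain ⟨x, hx⟩ := exists_inj (Ω := Ω) (k := 4) (by omega)
  rcases T4 _ (Tx_ne_top h1 hnt hx) with hT | ⟨i, hT⟩ | ⟨τ, hT⟩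
  · have hT' : ∀ (g : G) (σ : Perm (Fin 4)), g • x = x ∘ σ → σ ∈ alternatingGroup (Fin 4) :=
      fun g σ e => hT ⟨g, e⟩
    obtain ⟨d, s, hd, e1, e2, e3⟩ := numerics (j := 3) hn ht h1 h2 hx hT' _
      (hE_zpowers (S2_comp (τ := swap 2 3 * swap 3 4) (ρ := swap 1 2 * swap 2 3) (by decide)
        (by decide) (by decide) (Perm.mem_alternatingGroup.2 (by decide))))
    rw [card_A4] at e1
    haveI : Fact (Nat.Prime 3) := ⟨Nat.prime_three⟩
    rw [Nat.card_zpowers, orderOf_eq_prime (p := 3) (by decide) (by decide)] at e3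
    obtain ⟨s, rfl⟩ := e3
    simp only [Nat.factorial] at e1 e2
    obtain ⟨c, rfl, e4⟩ := ar (r := 1) hn (by omega) e2
    have : s < 10 := by nlinarith
    have hc : c = 0 ∨ c = 2 := by interval_cases s <;> omega
    rcases hc with rfl | rfl
    · omega
    have n9 : Fintype.card Ω = 9 := by omega
    obtain ⟨H0, l, l1, l2, l3⟩ := struct ht h1 h2 hn _ (Qd.inj hx) Qd.smul hd (by omega) (by omega)
    rw [n9] at l2
    refine Or.inr (Or.inr ⟨n9, ?_⟩)
    rcases (Nat.dvd_prime Nat.prime_three).1 l1 with rfl | rfl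
    · exact Or.inl l2
    · exact Or.inr l2
  · exfalso
    have hx' := hx.comp (swap 0 i).symm.injective
    obtain ⟨d, s, hd, e1, e2, e3⟩ := numerics (j := 3) hn ht h1 h2 hx' (hT_of (hT_fix hT)) _
      (hE_V4 (a := swap 0 1) (b := swap 2 3) (by decide) (by decide) (by decide) S2_swap
        (S2_comp (ρ := swap 1 2) (by decide) (by decide) (by decide) (by decide)))
    rw [card_stab4] at e1
    rw [V4_card _ _ _ (by decide) (by decide) (by decide)] at e3
    obtain ⟨s, rfl⟩ := e3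
    simp only [Nat.factorial] at e1 e2
    obtain ⟨c, rfl, e4⟩ := ar (r := 3) hn (by omega) e2
    have : s < 2 := by nlinarith
    have hc : c = 0 := by interval_cases s <;> omega
    subst hc
    have n7 : Fintype.card Ω = 7 := by omega
    obtain ⟨-, l, l1, -, l3⟩ := struct ht h1 h2 hn _ (Qd.inj hx') Qd.smul hd (by omega) (by omega)
    rw [Nat.dvd_one.1 l1] at l3
    have H1 : ∀ (g : G) (s : Finset Ω), 3 ≤ s.card → (∀ x ∈ s, g • x = x) → g = 1 := by
      intro g s hs hg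
      obtain ⟨s', k1, k2⟩ := exists_subset_card_eq hs
      exact (Subgroup.eq_bot_iff_forall _).1 (Subgroup.card_eq_one.1 (l3 s' k2)) g
        (mem_Fx.2 fun x hx => hg x (k1 hx))
    have n01 : x 0 ≠ x 1 := hx.ne (by decide)
    have n02 : x 0 ≠ x 2 := hx.ne (by decide)
    have n12 : x 1 ≠ x 2 := hx.ne (by decide)
    obtain ⟨g, g0, g1, g2⟩ := three_trans ht n01 n02 n12 n01.symm n12 n02
    have gg : g * g = 1 := H1 _ {x 0, x 1, x 2} (by rw [card_eq_three.2 ⟨_, _, _, n01, n02, n12, rfl⟩])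
      (by simp [mul_smul, g0, g1, g2])
    obtain ⟨z, hz⟩ := card_eq_one.1 (hd ![x 0, x 1, x 2] (inj3 n01 n02 n12))
    have z1 : z ∈ univ.filter fun z => Qd G (x ∘ (swap 0 i).symm) (stabilizer (Perm (Fin 4)) (0 : Fin 4))
        (Fin.cons z ![x 0, x 1, x 2]) := by rw [hz]; exact mem_singleton_self z
    have z2 := (mem_filter.1 z1).2
    have z3 : g • z = z := by
      rw [← mem_singleton, ← hz]
      refine mem_filter.2 ⟨mem_univ _, ?_⟩
      convert (Qd.smul g _ z2).comp (τ := swap 1 2) (by decide) using 1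
      funext j; fin_cases j <;> simp [swap_apply_def, g0, g1, g2]
    have z4 : z ≠ x 2 := fun e => (Fin.cons_injective_iff.1 (Qd.inj hx' _ z2)).1 ⟨2, e.symm⟩
    have k1 := card_fixF_mod (Ω := Ω) gg
    have k2 : ({z, x 2} : Finset Ω) ⊆ fixF g := by
      intro y hy
      simp only [mem_insert, mem_singleton] at hy
      rcases hy with rfl | rfl
      exacts [mem_fixF.2 z3, mem_fixF.2 g2]
    have k3 := card_le_card k2
    rw [card_pair z4] at k3
    have := H1 g (fixF g) (by omega) fun y hy => mem_fixF.1 hy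
    rw [this, one_smul] at g0
    exact n01 g0
  · have hx' := hx.comp τ.symm.injective
    obtain ⟨d, s, hd, e1, e2, e3⟩ := numerics (j := 3) hn ht h1 h2 hx' (hT_of hT) _
      (hE_V4 (a := swap 0 1) (b := swap 3 4) (by decide) (by decide) (by decide) S2_swap
        (S2_comp (ρ := swap 2 3) (by decide) (by decide) (by decide) (mem_D8.2 (by decide))))
    rw [card_D8] at e1
    rw [V4_card _ _ _ (by decide) (by decide) (by decide)] at e3
    obtain ⟨s, rfl⟩ := e3
    simp only [Nat.factorial] at e1 e2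
    obtain ⟨c, rfl, e4⟩ := ar (r := 2) hn (by omega) e2
    have : s < 4 := by nlinarith
    have hc : c = 0 ∨ c = 1 ∨ c = 6 := by interval_cases s <;> omega
    obtain ⟨H0, l, l1, l2, -⟩ := struct ht h1 h2 hn _ (Qd.inj hx') Qd.smul hd (by omega) (by omega)
    rcases hc with rfl | rfl | rfl
    · have n6 : Fintype.card Ω = 6 := by omega
      rw [Nat.dvd_one.1 l1, n6] at l2
      exact Or.inr (Or.inl ⟨n6, l2⟩)
    · have n9 : Fintype.card Ω = 9 := by omega
      rw [n9] at l2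
      rcases (Nat.dvd_prime Nat.prime_two).1 l1 with rfl | rfl
      · exact Or.inr (Or.inr ⟨n9, Or.inl l2⟩)
      exfalso
      haveI : Fact (Nat.Prime 7) := ⟨by decide⟩
      replace l2 : Nat.card G = 1008 := l2
      obtain ⟨e, a, k1, k2, k3⟩ := sylow_num (p := 7) (by omega) (by omega) H0 (by omega)
        (by rw [l2]; decide) (by rw [l2]; decide)
      have := Nat.le_of_dvd (by omega) k1
      interval_cases e <;> omega
    · exfalso
      have n24 : Fintype.card Ω = 24 := by omega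
      have k0 := h1.choose_dvd (by omega)
      rw [n24] at l2 k0
      rcases (Nat.dvd_prime (by decide : Nat.Prime 7)).1 l1 with rfl | rfl
      · rw [l2] at k0
        exact absurd k0 (by decide +kernel)
      haveI : Fact (Nat.Prime 23) := ⟨by decide⟩
      replace l2 : Nat.card G = 85008 := l2
      obtain ⟨e, a, k1, k2, k3⟩ := sylow_num (p := 23) (by omega) (by omega) H0 (by omega)
        (by rw [l2]; decide) (by rw [l2]; decide)
      have := Nat.le_of_dvd (by omega) k1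
      interval_cases e <;> omega

theorem eq_alt (G : Subgroup (Perm Ω)) {k : ℕ} (hk : k = Fintype.card Ω)
    (ht : IsMultiplyPretransitive G Ω (k - 2)) (hnt : ¬ IsMultiplyPretransitive G Ω (k - 1)) :
    G = alternatingGroup Ω := by
  have h1 := IsMultiplyPretransitive.alternatingGroup_le _ G
    (by rw [Nat.card_eq_fintype_card, ← hk]; exact ht)
  have h2 : G ≠ ⊤ := by
    rintro rfl
    apply hnt
    rw [multi_iff]
    intro x y hx hy
    obtain ⟨g, hg⟩ := (multi_iff _).1 (Perm.isMultiplyPretransitive Ω (k - 1)) x y hx hy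
    exact ⟨⟨g, trivial⟩, hg⟩
  have h3 := Subgroup.index_dvd_of_le h1
  rcases subsingleton_or_nontrivial Ω with h | h
  · exact absurd (Subsingleton.elim _ _) h2
  rw [alternatingGroup.index_eq_two] at h3
  exact Perm.eq_alternatingGroup_of_index_eq_two
    (((Nat.dvd_prime Nat.prime_two).1 h3).resolve_left fun e => h2 (Subgroup.index_eq_one.1 e))

theorem lw (G : Subgroup (Perm Ω)) {k : ℕ} (hk : 3 ≤ k) (hkn : k ≤ Fintype.card Ω)
    (ht : IsMultiplyPretransitive G Ω (k - 2)) (hnt : ¬ IsMultiplyPretransitive G Ω (k - 1))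
    (h1 : Hom G Ω (k - 1)) (h2 : Hom G Ω k) :
    (k = Fintype.card Ω ∧ G = alternatingGroup Ω) ∨ (Fintype.card Ω = 5 ∧ k = 4 ∧ Nat.card G = 20) ∨
      (Fintype.card Ω = 6 ∧ k = 5 ∧ Nat.card G = 120) ∨
      (Fintype.card Ω = 9 ∧ k = 5 ∧ (Nat.card G = 504 ∨ Nat.card G = 1512)) := by
  by_cases h : k = Fintype.card Ω
  · exact Or.inl ⟨h, eq_alt G h ht hnt⟩
  right
  by_cases h6 : 6 ≤ k
  · have := core' G (m := k - 1) (by omega) (by omega) h1 ht hnt
    omega
  have h5 : k ≤ 5 := by omega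
  interval_cases k
  · exact absurd (small2 hkn ht h1 h2 hnt).symm h
  · rcases small3 hkn ht h1 h2 hnt with e | e
    · exact absurd e.symm h
    · exact Or.inl ⟨e.1, rfl, e.2⟩
  · rcases small4 hkn ht h1 h2 hnt with e | e | e
    · exact absurd e.symm h
    · exact Or.inr (Or.inl ⟨e.1, rfl, e.2⟩)
    · exact Or.inr (Or.inr ⟨e.1, rfl, e.2⟩)

end Cfsg.Agent.Isaacs.LW
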