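import Mathlib
import Cfsg.Agent.Isaacs.OddCorr2

/-! Assembly of the parity correspondence of Isaacs. -/

set_option autoImplicit false

open scoped ComplexConjugate commutatorElement

namespace Cfsg.Agent.Isaacs

open Cfsg Cfsg.Agent.Char Subgroup

variable {G : Type*} [Group G] [Finite G] {A B C D H K L M N P Q S T U V W Z : Subgroup G}
  {θ φ ψ χ η β ξ μ : G → ℂ} {p : ℕ} {X Y X' Y' : (G → ℂ) → Prop}

theorem central_split' (hZ : Z ≤ center G) (hl : Z ≤ K) :
    ∃ L : Subgroup G, L ⊔ Z = K ∧ ∀ q : ℕ, q.Prime → q ∣ Nat.card L → q ∣ Z.relIndex K := by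
  obtain ⟨L, Y, -, a, b, c, -⟩ := central_split (K := ⊤) (Z := Z.subgroupOf K)
    (fun z hz => mem_center_iff.mpr fun g => Subtype.ext (mem_center_iff.mp (hZ hz) g)) le_top
  refine ⟨L.map K.subtype, ?_, fun q hq h => ?_⟩
  · rw [← map_subgroupOf_eq_of_le hl, ← Subgroup.map_sup, eq_top_iff.mpr (b.ge.trans (sup_le_sup_left a _)),
      ← MonoidHom.range_eq_map, range_subtype]
  · rw [card_map_of_injective (subtype_injective _)] at h
    exact (c q hq h).trans (relIndex_top_right _).dvd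

omit [Finite G] in
theorem inv_sup_center (hZ : Z ≤ center G) : Inv (A ⊔ Z) K χ ↔ Inv A K χ :=
  ⟨fun h => h.mono le_sup_left le_rfl, fun h a ha x hx => by
    have := normal_of_le_center' hZ
    obtain ⟨u, hu, z, hz, rfl⟩ := mem_sup_of_normal_right.mp ha
    rw [← h u hu x hx, mul_assoc u, ← mem_center_iff.mp (hZ hz)]; congr 1; group⟩

theorem gd_central [T.Normal] (hZ : Z ≤ center G) (hμ : Chr Z μ) (h1 : μ 1 = 1) (hl : Z ≤ K) (hl' : Z ≤ H)
    (hZA : Z ≤ A) (hab : ⁅K, K⁆ ≤ Z) (hA : A ≤ normalizer (K : Set G)) (hA' : A ≤ normalizer (H : Set G))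
    (hT : K ⊔ H = T) (hn : H ≤ normalizer (K : Set G)) (hH : ⁅H, A⁆ ≤ Z)
    (hc : (Z.relIndex A).Coprime (Z.relIndex T))
    (hf : ∀ x ∈ K, (∀ a ∈ A, a * x * a⁻¹ * x⁻¹ ∈ Z) → x ∈ Z) (ho : Odd (Z.relIndex T)) :
    GD 2 (Ov A Z μ T) (Ov A Z μ H) T H := by
  have h2 : K ≤ T := hT ▸ le_sup_left
  have h3 : H ≤ T := hT ▸ le_sup_right
  obtain ⟨L, Y, a1, a2, a3, a4, a5⟩ := central_split hZ (hl.trans h2)
  obtain ⟨B, rfl, b⟩ := central_split' hZ hZA
  have a6 : Disjoint L Y := disjoint_of_coprime_natCard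
    (Nat.coprime_of_dvd fun q hq h h' => hq.one_lt.ne' (Nat.eq_one_of_dvd_coprimes a5 h' (a4 q hq h)))
  have a7 : (Nat.card B).Coprime (Nat.card L) :=
    Nat.coprime_of_dvd fun q hq h h' => hq.one_lt.ne' (Nat.eq_one_of_dvd_coprimes hc (b q hq h) (a4 q hq h'))
  have hY : ∀ X : Subgroup G, Y ≤ normalizer (X : Set G) := fun _ =>
    (a2.trans hZ).trans (center_le_normalizer _)
  have hs : ∀ {X}, Z ≤ X → X ≤ T → L ⊓ X ⊔ Y = X := fun a b => by
    rw [← Core.sup_inf_of_le_right (hY _) (a2.trans a), a3, inf_eq_right.mpr b]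
  have e : ∀ X, Ov (B ⊔ Z) Z μ X = Ov B Z μ X := fun X => funext fun χ => by
    rw [Ov, Ov, inv_sup_center hZ]
  have c1 : Z ⊓ L ≤ center G := inf_le_left.trans hZ
  rw [e, e]
  refine GD.central_ext hZ hμ h1 a2 a3 a6 hl' h3 norm_top (le_sup_left.trans hA') (gd_central_odd (K := L ⊓ K)
    c1 ((hμ.res inf_le_left).irr_of_one h1) (le_inf inf_le_right (inf_le_left.trans hl))
    (le_inf inf_le_right (inf_le_left.trans hl')) (le_inf ((commutator_mono inf_le_right inf_le_right).trans hab)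
      ((commutator_mono inf_le_left le_top).trans (commutator_le_left _ _)))
    (Core.le_normalizer_inf norm_top (le_sup_left.trans hA)) ?_
    (Core.le_normalizer_inf norm_top (inf_le_right.trans hn))
    (le_centralizer_iff.mp (Core.le_centralizer_of_commutator_le_of_centralizes _ _ (Z ⊓ L)
      (Core.coprime_of_le_right a7 inf_le_right) (fun g _ z hz => (mem_center_iff.mp (c1 hz) g).symm)
      (le_inf ((commutator_mono inf_le_right le_sup_left).trans hH)
        ((commutator_mono inf_le_left le_top).trans (commutator_le_left _ _))))) a7 (fun x hx => ⟨?_, hx.1.1⟩)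
    (Nat.not_even_iff_odd.mp fun h => ho.not_two_dvd_nat (a4 2 Nat.prime_two h.two_dvd)))
  · refine le_antisymm (sup_le inf_le_left inf_le_left) fun x hx => ?_
    have : T ≤ (L ⊓ K ⊔ L ⊓ H) ⊔ Y := hT.ge.trans (sup_le ((hs hl h2).ge.trans (sup_le_sup_right le_sup_left _))
      ((hs hl' h3).ge.trans (sup_le_sup_right le_sup_right _)))
    obtain ⟨u, hu, y, hy, rfl⟩ := (Core.mem_sup_of_le_normalizer (hY _)).mp (this (a3.le (mem_sup_left hx)))
    have h4 : L ⊓ K ⊔ L ⊓ H ≤ L := sup_le inf_le_left inf_le_left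
    rw [show y = 1 from a6.le_bot (mem_inf.mpr ⟨(L.mul_mem_cancel_left (h4 hu)).mp hx, hy⟩), mul_one]; exact hu
  · have : B ⊔ Z ≤ centralizer {x} := sup_le (fun b hb => mem_centralizer_singleton_iff.mpr (hx.2 b hb))
      fun z hz => mem_centralizer_singleton_iff.mpr (mem_center_iff.mp (hZ hz) x).symm
    refine hf x hx.1.2 fun a ha => ?_
    rw [mem_centralizer_singleton_iff.mp (this ha)]; simp

theorem gd_stab (hθ : Irr L θ) (hl : L ≤ K) (hl' : L ≤ H) (hab : ⁅K, K⁆ ≤ L)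
    (hA : S ≤ normalizer (K : Set G)) (hA' : S ≤ normalizer (H : Set G)) (hL : S ≤ normalizer (L : Set G))
    (hT : K ⊔ H = T) (hn : H ≤ normalizer (K : Set G)) (hn' : T ≤ normalizer (L : Set G)) (hH : ⁅H, S⁆ ≤ L)
    (hi : Inv T L θ) (hi' : Inv S L θ) (hc : (Nat.card S).Coprime (Nat.card T))
    (hf : ∀ x ∈ K, (∀ a ∈ S, a * x * a⁻¹ * x⁻¹ ∈ L) → x ∈ L) (ho : Odd (Nat.card T)) :
    GD 2 (Ov S L θ T) (Ov S L θ H) T H := by
  have h2 : K ≤ T := hT ▸ le_sup_left
  have h3 : H ≤ T := hT ▸ le_sup_right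
  have h4 : S ≤ normalizer (T : Set G) := hT ▸ Core.le_normalizer_sup hA hA'
  have h5 : T ⊔ S ≤ normalizer (L : Set G) := sup_le hn' hL
  obtain ⟨Γ, R, _, _, _, _, ⟨t⟩⟩ := hθ.exists_tri h5 (hl.trans (h2.trans le_sup_left))
    ((le_stab h5).mp (sup_le ((le_stab hn').mpr hi) ((le_stab hL).mpr hi')))
  have : (t.bar T).Normal := normalizer_eq_top_iff.mp (eq_top_iff.mpr
    (t.bar_top ▸ t.bar_norm (sup_le le_normalizer h4)))
  refine GD.tri t hθ hl' h3 le_sup_left le_sup_right h4 hA' (gd_central (K := t.bar K) t.central t.lin t.one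
    t.le_bar' t.le_bar' t.le_bar' (t.bar_self ▸ t.bar_comm hab) (t.bar_norm hA) (t.bar_norm hA')
    (by rw [← t.bar_sup (h2.trans le_sup_left) (h3.trans le_sup_left), hT]) (t.bar_norm hn)
    (t.bar_self ▸ t.bar_comm hH) (by
      rw [t.relIndex_Z le_sup_left, t.relIndex_Z le_sup_right]; exact cop_rel hc) ?_ (by
      rw [t.relIndex_Z le_sup_left]; exact ho.of_dvd_nat (Core.relIndex_dvd_card' _ _)))
  rintro _ ⟨γ, hγ, rfl⟩ h
  rw [← t.bar_self, t.mem_bar le_rfl]
  refine hf _ hγ fun a ha => ?_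
  obtain ⟨δ, rfl⟩ := t.exists_pre (mem_sup_right ha)
  have := h _ ⟨δ, ha, rfl⟩
  rw [← map_inv, ← map_inv, ← map_mul, ← map_mul, ← map_mul, ← t.bar_self, t.mem_bar le_rfl] at this
  simpa only [map_mul, map_inv] using this

theorem gd_odd (hS : S ≤ normalizer (M : Set G)) (hc : (Nat.card S).Coprime (Nat.card M))
    (ho : Odd (Nat.card M)) (hl : L ≤ K) (hK : M ≤ normalizer (K : Set G)) (hL : M ≤ normalizer (L : Set G))
    (hK' : S ≤ normalizer (K : Set G)) (hL' : S ≤ normalizer (L : Set G)) (hab : ⁅K, K⁆ ≤ L)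
    (hM : K ⊔ (M ⊓ centralizer (S : Set G)) = M) (hH : H = L ⊔ (M ⊓ centralizer (S : Set G))) :
    GD 2 (fun χ => Irr M χ ∧ Inv S M χ) (fun ξ => Irr H ξ ∧ Inv S H ξ) M H := by
  have h1 : K ≤ M := hM ▸ le_sup_left
  have h2 : L ≤ H := hH ▸ le_sup_left
  have h3 : H ≤ M := hH ▸ sup_le (hl.trans h1) inf_le_left
  have c1 : M ⊓ centralizer (S : Set G) ≤ normalizer (S : Set G) := inf_le_right.trans (centralizer_le_normalizer _)
  have h4 : S ≤ normalizer (H : Set G) := hH ▸ Core.le_normalizer_sup hL'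
    ((le_centralizer_iff.mp inf_le_right).trans (centralizer_le_normalizer _))
  have cp : ∀ {X}, X ≤ M → (Nat.card S).Coprime (Nat.card X) := fun h => Core.coprime_of_le_right hc h
  have un : ∀ {X χ}, L ≤ X → X ≤ M → S ≤ normalizer (X : Set G) → Irr X χ → Inv S X χ →
      ∃ θ, Irr L θ ∧ inn L χ θ ≠ 0 ∧ Inv S L θ := fun a b c d e =>
    d.exists_inv_under e c hL' (b.trans hL) a (cop_rel (cp b))
      ((FGS.solvable_or_of_coprime (cp b)).imp solvMod_of_solv solvMod_of_solv)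
  set U := ⁅K, S⁆ ⊔ L
  have u1 : U ≤ K := sup_le (Core.commutator_le_of_le_normalizer hK') hl
  have u2 : S ≤ normalizer (U : Set G) :=
    Core.le_normalizer_sup (Core.le_normalizer_commutator hK' le_normalizer) hL'
  have u3 : M ⊓ centralizer (S : Set G) ≤ normalizer (U : Set G) :=
    Core.le_normalizer_sup (Core.le_normalizer_commutator (inf_le_left.trans hK) c1) (inf_le_left.trans hL)
  have u4 : U ⊔ (M ⊓ centralizer (S : Set G)) = M := le_antisymm (sup_le (u1.trans h1) inf_le_left)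
    (hM.ge.trans (sup_le ((Core.commutator_sup_centralizer S K hK' (cp h1)
      (FGS.solvable_or_of_coprime (cp h1))).ge.trans (sup_le_sup le_sup_left (inf_le_inf_right _ h1))) le_sup_right))
  have u5 : ∀ {X Y : Subgroup G}, S ≤ normalizer (X : Set G) → M ⊓ centralizer (S : Set G) ≤ normalizer (X : Set G) →
      Y ≤ X ⊔ (M ⊓ centralizer (S : Set G)) → ⁅Y, S⁆ ≤ X := fun a b c => commutator_le.mpr fun y hy s hs => by
    obtain ⟨u, hu, c, hc, rfl⟩ := (Core.mem_sup_of_le_normalizer b).mp (c hy)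
    rw [commutatorElement_def, mul_assoc u c, ← hc.2 s hs]
    simpa [mul_assoc] using mul_mem hu (conj_mem a hs (inv_mem hu))
  refine GD.glue h2 h3 hL hL' (fun _ => un (hl.trans h1) le_rfl hS) (fun _ => un h2 h3 h4)
    (fun θ a b k hk hi => ?_) fun θ a b => GD.clifford h2 h3 hL a hL' hS h4 b ?_
  · obtain ⟨n, hn, e⟩ := Core.exists_mul_mem_centralizer' S (stab L θ ⊓ M)
      (Core.le_normalizer_inf (b.norm_stab hL') hS) (cp inf_le_right)
      (FGS.solvable_or_of_coprime (cp inf_le_right)) k fun s hs => mem_inf.mpr ⟨by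
        simpa only [mul_assoc] using mul_mem ((le_stab hL').mpr b hs) ((mem_stab_cj (hL hk)).mp
          ((le_stab hL').mpr hi (inv_mem hs))), mul_mem (conj_mem hS hs hk) (inv_mem hk)⟩
    exact ⟨n * k, hH ▸ mem_sup_right ⟨mul_mem hn.2 hk, e⟩, cj_cj n k ▸ (hn.1.2.cjg (hL hk)).symm⟩
  have s1 := b.norm_stab hL'
  have s2 := a.inv.le_stab
  have s3 : S ≤ normalizer ((stab L θ ⊓ U : Subgroup G) : Set G) := Core.le_normalizer_inf s1 u2
  have s4 : stab L θ ⊓ U ≤ stab L θ ⊓ M := inf_le_inf_left _ (u1.trans h1)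
  refine gd_stab (K := stab L θ ⊓ U) a (le_inf s2 le_sup_right) (le_inf s2 h2)
    ((commutator_mono (inf_le_right.trans u1) (inf_le_right.trans u1)).trans hab) s3
    (Core.le_normalizer_inf s1 h4) hL' (le_antisymm (sup_le s4 (inf_le_inf_left _ h3)) ?_)
    (Core.le_normalizer_inf (inf_le_left.trans le_normalizer) (inf_le_right.trans (h3.trans
      (u4.ge.trans (sup_le le_normalizer u3))))) (inf_le_right.trans hL)
    (u5 hL' (inf_le_left.trans hL) (inf_le_right.trans hH.le)) (inv_stab.mono inf_le_left le_rfl) b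
    (cp inf_le_right) (fun x hx => mem_of_comm_rel hl (h1.trans hL) hL' hK' hab (cop_rel (cp h1)) hx.2)
    (ho.of_dvd_nat (card_dvd_of_le inf_le_right))
  refine (Core.sup_centralizer_eq_of_commutator_le S _ _ s4 s3 (cp (inf_le_right.trans (u1.trans h1)))
    (FGS.solvable_or_of_coprime (cp (inf_le_right.trans (u1.trans h1)))) (le_inf
      ((Core.commutator_le_of_le_normalizer (Core.le_normalizer_inf s1 hS)).trans inf_le_left)
      (u5 u2 u3 (inf_le_right.trans u4.ge)))).ge.trans (sup_le_sup_left ?_ _)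
  exact fun x hx => ⟨hx.1.1, hH ▸ mem_sup_right ⟨hx.1.2, hx.2⟩⟩

end Cfsg.Agent.Isaacs
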