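import Mathlib
import Cfsg.Agent.Isaacs.Tri
import Cfsg.Agent.Isaacs.McKay
import Cfsg.Agent.PGrp.CyclicOdd
import Cfsg.Agent.PGrp.CyclicTwo
import Cfsg.Agent.FGS.Super

/-! Roquette's reduction for characters of `p`-groups and fields of values. -/

set_option autoImplicit false

open scoped ComplexConjugate

namespace Cfsg.Agent.Isaacs

open Cfsg Cfsg.Agent.Char Subgroup

theorem totient_le_index (Δ : Subgroup (RingAut ℂ)) (hΔ : Δ.index ≠ 0) {ζ : ℂ} {n : ℕ} (hn : n ≠ 0) (hζ : IsPrimitiveRoot ζ n)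
    (S : Finset ℂ) (h : ∀ σ ∈ Δ, σ ζ ∈ S) : n.totient ≤ Δ.index * S.card := by
  have := NeZero.mk hn
  have : Finite (RingAut ℂ ⧸ Δ) := Nat.finite_of_card_ne_zero hΔ
  have e : ∀ η : primitiveRoots n ℂ, ∃ x : (RingAut ℂ ⧸ Δ) × S, x.1.out x.2 = η := fun η => by
    have hη := (mem_primitiveRoots (Nat.pos_of_ne_zero hn)).mp η.2
    obtain ⟨k, -, hk⟩ := hζ.eq_pow_of_pow_eq_one hη.pow_eq_one
    obtain ⟨τ, hτ⟩ := GaloisAut.exists_aut_pow hn ((hζ.pow_iff_coprime (Nat.pos_of_ne_zero hn) k).mp (hk ▸ hη))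
    obtain ⟨δ, hδ⟩ := QuotientGroup.mk_out_eq_mul Δ τ
    refine ⟨⟨QuotientGroup.mk τ, _, h _ (inv_mem δ.2)⟩, ?_⟩
    rw [← hk, ← hτ ζ hζ.pow_eq_one]
    change ((QuotientGroup.mk (s := Δ) τ).out * δ.1⁻¹) ζ = _
    rw [hδ, mul_inv_cancel_right]
  choose f hf using e
  rw [← hζ.card_primitiveRoots, ← Nat.card_eq_finsetCard, ← Nat.card_eq_finsetCard, index_eq_card, ← Nat.card_prod]
  exact Nat.card_le_card_of_injective f fun a b e => Subtype.ext (by rw [← hf, ← hf, e])

variable {G : Type*} [Group G] [Finite G] {χ ψ l : G → ℂ} {Δ : Subgroup (RingAut ℂ)}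

theorem cyc_bound (hΔ : Δ.index ≠ 0) (h : Irr ⊤ χ) (hf : ∀ g, χ g = χ 1 → g = 1) (e : ∀ σ ∈ Δ, ∀ g, σ (χ g) = χ g) (x : G)
    [(zpowers x).Normal] : (orderOf x).totient ≤ Δ.index * (zpowers x).index := by
  classical
  obtain ⟨l, a, b⟩ := h.exists_under (le_top (a := zpowers x))
  have l1 : l 1 = 1 := a.one_of_comm fun _ ⟨i, u⟩ _ ⟨j, v⟩ => by rw [← u, ← v]; exact (Commute.refl x).zpow_zpow i j
  obtain ⟨lam, hl⟩ := a.chr.exists_hom l1
  have hl' : ∀ y : zpowers x, l y = lam y := congrFun hl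
  have pr : IsPrimitiveRoot (l x) (orderOf x) := by
    have c : ∀ k : ℕ, l x ^ k = l (x ^ k) := fun k => by
      rw [hl' ⟨x, mem_zpowers x⟩, ← Units.val_pow_eq_pow_val, ← map_pow, ← hl']; rfl
    refine ⟨by rw [c, pow_orderOf_eq_one, l1], fun k i => orderOf_dvd_of_pow_eq_one (hf _ ?_)⟩
    have := FGS.normal_of_le_zpowers (kerS_le (K := zpowers x) (θ := l))
    refine h.ker_of_inn (L := kerS (zpowers x) l) norm_top le_top ((h.chr.res le_top).over_trans kerS_le a chr_one b ?_) _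
      (a.chr.mem_kerS.mpr ⟨pow_mem (mem_zpowers x) k, by rw [← c, i, l1]⟩)
    rw [a.chr.ker_kerS.inn_one]; exact a.one_ne
  have := Fintype.ofFinite (G ⧸ zpowers x)
  refine (totient_le_index Δ hΔ (orderOf_pos x).ne' pr (Finset.univ.image fun q : G ⧸ zpowers x => cj q.out⁻¹ l x)
    fun σ i => ?_).trans (Nat.mul_le_mul_left _ (Finset.card_image_le.trans (by rw [index_eq_card, Nat.card_eq_fintype_card]; rfl)))
  obtain ⟨g, -, c⟩ := h.exists_cj norm_top le_top a (a.map σ.toRingHom) b (by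
    rw [← (h.gen.res le_top).inn_map σ.toRingHom a.gen] at b
    rwa [show χ = fun g => σ.toRingHom (χ g) from funext fun g => (e σ i g).symm])
  obtain ⟨y, hy⟩ := QuotientGroup.mk_out_eq_mul (zpowers x) g⁻¹
  refine Finset.mem_image.mpr ⟨QuotientGroup.mk g⁻¹, Finset.mem_univ _, Eq.trans ?_ (c x (mem_zpowers x)).symm⟩
  rw [hy, mul_inv_rev, inv_inv, ← cj_cj, cj_apply, cj_apply g]
  exact a.inv _ (inv_mem y.2) _ (Normal.conj_mem inferInstance _ (mem_zpowers x) g)

theorem roquette {p : ℕ} [hp : Fact p.Prime] (h : Irr ⊤ χ) (hf : ∀ g, χ g = χ 1 → g = 1) (hG : IsPGroup p G) {E : Subgroup G}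
    [E.Normal] (hE : IsElementaryAbelian p E) (hc : Nat.card E = p ^ 2) : ∃ ψ, (centralizer (E : Set G)).index = p ∧
      Irr (centralizer (E : Set G)) ψ ∧ Eqv ⊤ (ind (centralizer (E : Set G)) ⊤ ψ) χ ∧
        ∀ σ : RingAut ℂ, (∀ g, σ (χ g) = χ g) → ∀ g ∈ centralizer (E : Set G), σ (ψ g) = ψ g := by
  set M := centralizer (E : Set G)
  have cE : ∀ a ∈ E, ∀ b ∈ E, a * b = b * a := PGrp.isMulCommutative_iff_forall.mp hE.1
  obtain ⟨l, a, b⟩ := h.exists_under (le_top (a := E))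
  have l1 : l 1 = 1 := a.one_of_comm cE
  obtain ⟨lam, hl⟩ := a.chr.exists_hom l1
  have hl' : ∀ y : E, l y = lam y := congrFun hl
  have h1 : M ≤ stab E l := (le_stab norm_top).mpr (inv_of_centralizer le_rfl)
  have h2 : stab E l ≠ ⊤ := fun e => by
    have i := h.res_smul norm_top le_top a ((le_stab norm_top).mp e.ge) b
    have : IsCyclic E := isCyclic_of_injective_ringHom ((Units.coeHom ℂ).comp lam) ((injective_iff_map_eq_one _).mpr
      fun y j => Subtype.ext (hf _ (by rw [i y y.2, i.one, Pi.smul_apply, Pi.smul_apply, hl', l1]; exact congrArg _ j)))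
    obtain ⟨y, j⟩ := IsCyclic.exists_ofOrder_eq_natCard (α := E)
    have := orderOf_dvd_of_pow_eq_one (show y ^ p = 1 from Subtype.ext (hE.2 y y.2))
    rw [j, hc] at this
    nlinarith [Nat.le_of_dvd hp.out.pos this, hp.out.one_lt]
  have h3 : M.index = p := by
    obtain ⟨k, e⟩ := hG.index M
    have := PGrp.index_centralizer_le_of_card_eq_sq hG E hc
    rcases k with _ | _ | k
    · exact absurd (top_le_iff.mp ((index_eq_one.mp e).ge.trans h1)) h2
    · simpa using e
    · have : p ^ 2 ≤ p ^ (k + 1 + 1) := Nat.pow_le_pow_right hp.out.pos (by omega)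
      nlinarith [hp.out.one_lt]
  have h4 : M = stab E l ⊓ ⊤ := by
    have := relIndex_mul_index h1
    rw [h3] at this
    rcases (Nat.dvd_prime hp.out).mp (Dvd.intro_left _ this) with e | e
    · exact absurd (index_eq_one.mp e) h2
    · rw [e, Nat.mul_eq_right hp.out.ne_zero, relIndex_eq_one] at this
      rw [inf_top_eq]; exact h1.antisymm this
  have h5 : E ≤ M := fun x i y j => cE y j x i
  obtain ⟨ψ, c, d, e⟩ := Irr.exists_ind_of_stab norm_top h5 le_top a h4.ge h b
  refine ⟨ψ, h3, c, e, fun σ i => ?_⟩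
  have i' : χ = fun g => σ.toRingHom (χ g) := funext fun g => (i g).symm
  obtain ⟨z, z1, z2, z3⟩ := PGrp.exists_mem_center_orderOf_eq hG E fun e => by
    rw [e, card_bot] at hc; exact (Nat.one_lt_pow two_ne_zero hp.out.one_lt).ne hc
  have r := h.ratio_center a le_top b z2 z1
  rw [l1, mul_one] at r
  have lp : ∀ y ∈ E, l y ^ p = 1 := fun y j => by
    rw [hl' ⟨y, j⟩, ← Units.val_pow_eq_pow_val, ← map_pow, show (⟨y, j⟩ : E) ^ p = 1 from Subtype.ext (hE.2 y j), map_one, Units.val_one]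
  have pr : IsPrimitiveRoot (l z) p := by
    rw [← orderOf_eq_prime (lp z z1) fun e => hp.out.ne_one (by rw [← z3, hf z (by rw [r, e, one_mul]), orderOf_one])]
    exact IsPrimitiveRoot.orderOf _
  have s : σ (l z) = l z := by
    have := i z
    rwa [r, map_mul, i, mul_left_inj' h.one_ne] at this
  have := NeZero.mk hp.out.ne_zero
  have t : Eqv E (fun g => σ.toRingHom (l g)) l := fun y j => by
    obtain ⟨k, -, e⟩ := pr.eq_pow_of_pow_eq_one (lp y j)
    simp only [← e, map_pow]; exact congrArg (· ^ k) s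
  have u : inn M χ ψ ≠ 0 := inn_ne_comm (by rw [← inn_ind_left le_top h.inv, e.inn_left]; exact h.inn_self_ne)
  refine Irr.eqv_of_stab norm_top h5 le_top a h4 (c.map σ.toRingHom) c ?_ d h ?_ u
  · rw [← t.inn_right]; exact ((c.gen.res h5).inn_map σ.toRingHom a.gen).trans_ne d
  · rw [i']; exact ((h.gen.res le_top).inn_map σ.toRingHom c.gen).trans_ne u

theorem order_bound.{u} {p t : ℕ} [hp : Fact p.Prime] (hΔ : Δ.index ≠ 0) (ht : Δ.index ≤ (p - 1) * p ^ t) (G : Type u) [Group G]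
    [Finite G] : IsPGroup p G → ∀ χ : G → ℂ, Irr ⊤ χ → (∀ σ ∈ Δ, ∀ g, σ (χ g) = χ g) → ∀ a f : ℕ, (kerS ⊤ χ).index = p ^ a →
      χ 1 = f → (p - 1) * a + 1 ≤ f + (p - 1) * (t + 1) * f := by
  refine Core.induction_on_card (P := fun G _ _ => IsPGroup p G → ∀ χ : G → ℂ, Irr ⊤ χ → (∀ σ ∈ Δ, ∀ g, σ (χ g) = χ g) →
    ∀ a f : ℕ, (kerS ⊤ χ).index = p ^ a → χ 1 = f → (p - 1) * a + 1 ≤ f + (p - 1) * (t + 1) * f)
    (fun G _ _ ih hG χ h e a f ha hf => ?_) G
  have := Core.normal_of_le_normalizer (h.chr.normalizes_kerS norm_top h.inv)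
  by_cases hk : kerS ⊤ χ = ⊥
  swap
  · have s := QuotientGroup.mk'_surjective (kerS ⊤ χ)
    obtain ⟨φ, u, v⟩ := h.chr.exists_push (QuotientGroup.mk' (kerS ⊤ χ)) (h.chr.ker_kerS.mono (by simp))
    rw [map_top_of_surjective _ s] at u
    refine ih _ (Core.card_quotient_lt _ hk) (hG.to_quotient _) φ (u.irr_of_comap (QuotientGroup.mk' _) (h.congr fun x i => (v x i).symm))
      (fun σ i g => ?_) a f ?_ ((v 1 trivial).trans hf)
    · obtain ⟨g, rfl⟩ := s g
      rw [v g trivial, e σ i]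
    · rw [← ha, ← index_comap_of_surjective _ s]
      congr 1
      ext x
      rw [mem_comap, u.mem_kerS, h.chr.mem_kerS, v x trivial, ← v 1 trivial, map_one]; simp
  have hfa : ∀ g, χ g = χ 1 → g = 1 := fun g i => hk.le (h.chr.mem_kerS.mpr ⟨trivial, i⟩)
  rw [hk, index_bot] at ha
  have f0 : 0 < f := Nat.pos_of_ne_zero fun e => h.one_ne (by simp [hf, e])
  have p1 : 0 < p - 1 := Nat.sub_pos_of_lt hp.out.one_lt
  by_cases hE : ∃ E : Subgroup G, E.Normal ∧ IsElementaryAbelian p E ∧ Nat.card E = p ^ 2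
  · obtain ⟨E, _, u, v⟩ := hE
    obtain ⟨ψ, i, j, k, l⟩ := roquette h hfa hG u v
    set M := centralizer (E : Set G)
    obtain ⟨d, -, hd⟩ := j.deg
    obtain ⟨b, hb⟩ := (hG.to_subgroup M).index (kerS ⊤ fun x : M => ψ x)
    have w := ih M (Core.card_lt_of_ne_top M fun e => hp.out.ne_one (by rw [← i, e, index_top])) (hG.to_subgroup M) _
      (irr_top.mpr j) (fun σ y g => l σ (e σ y) g g.2) b d hb hd
    have fd : f = p * d := by
      have := k.one
      rw [ind_one, hf, hd, relIndex_top_right, i] at this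
      exact_mod_cast this.symm
    have hb' : (kerS M ψ).relIndex M = p ^ b := by
      rw [← hb, relIndex]
      congr 1
      ext x
      rw [mem_subgroupOf, j.chr.mem_kerS, (irr_top.mpr j).chr.mem_kerS]; simp
    have := Fintype.ofFinite (G ⧸ M)
    have y := relIndex_iInf_le (L := M) fun q : G ⧸ M => (kerS M ψ).comap (MulAut.conj q.out⁻¹).toMonoidHom
    rw [show (⨅ q : G ⧸ M, (kerS M ψ).comap (MulAut.conj q.out⁻¹).toMonoidHom) = ⊥ from eq_bot_iff.mpr fun x hx => hfa x
      (((j.chr.ker_kerS.mono (normalCore_le _)).indc ((normalCore_le _).trans kerS_le) le_top norm_top).congr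
        (k.mono le_top) x fun g => ?_), relIndex_bot_left, Finset.prod_congr rfl (g := fun _ => p ^ b) fun q _ => by
          rw [relIndex_comap, ← hb']; congr 1; exact Normal.conj_smul_eq_self _ _,
      Finset.prod_const, Finset.card_univ, ← Nat.card_eq_fintype_card, ← index_eq_card, i, ← pow_mul] at y
    · have z := M.card_mul_index
      rw [i, ha] at z
      have : a ≤ b * p + 1 := (Nat.pow_le_pow_iff_right hp.out.one_lt).mp (by
        rw [← z, pow_succ]; exact Nat.mul_le_mul_right _ y)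
      obtain ⟨q, rfl⟩ : ∃ q, p = q + 1 := ⟨p - 1, by omega⟩
      simp only [Nat.add_sub_cancel] at w ⊢
      rw [fd]
      nlinarith [Nat.mul_le_mul_left q this, Nat.mul_le_mul_left (q + 1) w]
    · obtain ⟨m, hm⟩ := QuotientGroup.mk_out_eq_mul M g⁻¹
      have := conj_mem (j.chr.normalizes_kerS le_normalizer j.inv) m.2 (mem_iInf.mp hx (QuotientGroup.mk g⁻¹))
      rw [hm] at this
      simpa [mul_assoc] using this
  by_cases hc : IsCyclic G
  · obtain ⟨x, hx⟩ := IsCyclic.exists_generator (α := G)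
    have hx' : zpowers x = ⊤ := eq_top_iff.mpr fun y _ => hx y
    have : (zpowers x).Normal := hx' ▸ inferInstance
    have y := cyc_bound hΔ h hfa e x
    rw [hx', index_top, mul_one, orderOf_eq_card_of_forall_mem_zpowers hx, ha] at y
    have : a ≤ t + 1 := by
      rcases a with _ | a
      · omega
      rw [Nat.totient_prime_pow_succ hp.out, mul_comm] at y
      exact Nat.succ_le_succ ((Nat.pow_le_pow_iff_right hp.out.one_lt).mp (Nat.le_of_mul_le_mul_left (y.trans ht) p1))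
    nlinarith [Nat.mul_le_mul_left (p - 1) this, Nat.le_mul_of_pos_right ((p - 1) * (t + 1)) f0]
  obtain rfl : p = 2 := by
    by_contra c
    exact hE ((PGrp.exists_normal_elementary_sq c hG ⊤ (by rwa [PGrp.isCyclic_top_iff])).imp fun E i => i.2)
  have hn : ∀ A : Subgroup G, A.Normal → IsMulCommutative A → IsCyclic A := fun A _ u => by
    by_contra c
    obtain ⟨E, -, i, j⟩ := PGrp.exists_invariant_elementary_sq_of_comm (hG.to_subgroup ⊤) le_top norm_top u c
    exact hE ⟨E, Core.normal_of_le_normalizer i, j⟩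
  obtain ⟨x, b, m, u, v, -, w⟩ := PGrp.exists_gens_of_normal_abelian_cyclic hG hn hc
  have := normal_of_index_eq_two v
  have y := cyc_bound hΔ h hfa e x
  have z := (zpowers x).card_mul_index
  rw [Nat.card_zpowers, u, v, ha, ← pow_succ] at z
  obtain rfl := Nat.pow_right_injective le_rfl z
  rw [u, v, Nat.totient_prime_pow_succ hp.out] at y
  have : m ≤ t + 1 := (Nat.pow_le_pow_iff_right one_lt_two).mp (by rw [pow_succ]; omega)
  have f1 : f ≠ 1 := fun c => hc (PGrp.isCyclic_top_iff.mp (hn ⊤ inferInstance (PGrp.isMulCommutative_iff_forall.mpr fun _ i _ j =>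
    comm_of_commutator_eq_bot (fun x k => hfa x (h.chr.ker_comm (by simp [hf, c]) x k)) i j)))
  have : 1 ≤ m := by omega
  have : 2 ≤ f := by omega
  nlinarith

end Cfsg.Agent.Isaacs
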