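import Mathlib

/-! Invariant bilinear forms on coprime modules. -/

set_option autoImplicit false

namespace Cfsg.Agent.Isaacs

open Submodule LinearMap

variable {F G V : Type*} [Field F] [Group G] [AddCommGroup V] [Module F V] (ρ : Representation F G V)
  {U W X : Submodule F V} {a b : F} {B : LinearMap.BilinForm F V}

/-- an invariant subspace -/
def Iv (U : Submodule F V) : Prop := ∀ g, ∀ u ∈ U, ρ g u ∈ U

/-- an invariant subspace with a nondegenerate invariant form, alternating for `(a, b) = (1, 0)` and symmetric for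
`(a, b) = (0, 1)` -/
def FTyp (a b : F) (U : Submodule F V) : Prop := Iv ρ U ∧ ∃ A : LinearMap.BilinForm F V,
  (∀ x ∈ U, ∀ y ∈ U, a * A x x + b * (A x y - A y x) = 0) ∧ (∀ g, ∀ x ∈ U, ∀ y ∈ U, A (ρ g x) (ρ g y) = A x y) ∧
    ∀ x ∈ U, (∀ y ∈ U, A x y = 0) → x = 0

variable {ρ}

theorem Iv.sup (h : Iv ρ U) (h' : Iv ρ W) : Iv ρ (U ⊔ W) := fun g x i => by
  obtain ⟨u, j, w, k, rfl⟩ := mem_sup.mp i
  exact map_add (ρ g) u w ▸ add_mem_sup (h g u j) (h' g w k)

theorem Iv.exists_compl [Finite G] [NeZero (Nat.card G : F)] (h : Iv ρ U) (h' : Iv ρ X) (hl : U ≤ X) :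
    ∃ T, Iv ρ T ∧ Disjoint U T ∧ U ⊔ T = X := by
  obtain ⟨T, c⟩ := ComplementedLattice.exists_isCompl (⟨U, fun g u => h g u⟩ : Subrepresentation ρ)
  have d : U ⊓ T.toSubmodule = ⊥ := congrArg Subrepresentation.toSubmodule c.inf_eq_bot
  have e : U ⊔ T.toSubmodule = ⊤ := congrArg Subrepresentation.toSubmodule c.sup_eq_top
  exact ⟨T.toSubmodule ⊓ X, fun g u i => ⟨T.2 g i.1, h' g u i.2⟩, (disjoint_iff.mpr d).mono_right inf_le_left, by
    rw [← sup_inf_assoc_of_le _ hl, e, top_inf_eq]⟩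

theorem exists_proj2 (h : Disjoint U W) :
    ∃ f : V →ₗ[F] V, (∀ x, f x ∈ U) ∧ ∀ u ∈ U, ∀ w ∈ W, f (u + w) = u := by
  obtain ⟨T, a, b⟩ := h.symm.exists_isCompl
  exact ⟨U.projection T b.symm, projection_apply_mem _, fun u i w j => by
    rw [map_add, (projection_apply_eq_zero_iff _).mpr (a j), add_zero]
    exact projection_apply_left _ ⟨u, i⟩⟩

theorem ftyp_bot : FTyp ρ a b ⊥ := ⟨by simp [Iv], 0, by simp⟩

theorem FTyp.sup (h : FTyp ρ a b U) (h' : FTyp ρ a b W) (hd : Disjoint U W) : FTyp ρ a b (U ⊔ W) := by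
  obtain ⟨u, A, u1, u2, u3⟩ := h
  obtain ⟨w, C, w1, w2, w3⟩ := h'
  obtain ⟨f, -, i⟩ := exists_proj2 hd
  obtain ⟨g, -, j⟩ := exists_proj2 hd.symm
  have e : ∀ x ∈ U, ∀ y ∈ W, ∀ z ∈ U, ∀ t ∈ W, (A.comp f f + C.comp g g) (x + y) (z + t) = A x z + C y t :=
    fun x k y l z m t n => by
      rw [LinearMap.add_apply, LinearMap.add_apply, BilinForm.comp_apply, BilinForm.comp_apply, i x k y l, i z m t n, add_comm x, add_comm z,
        j y l x k, j t n z m]
  refine ⟨u.sup w, A.comp f f + C.comp g g, ?_, fun s => ?_, ?_⟩ <;> simp only [forall_mem_sup]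
  · intro x k y l z m t n
    rw [e x k y l x k y l, e x k y l z m t n, e z m t n x k y l]
    linear_combination u1 x k z m + w1 y l t n
  · intro x k y l z m t n
    rw [map_add (ρ s), map_add (ρ s), e _ (u s x k) _ (w s y l) _ (u s z m) _ (w s t n), e x k y l z m t n, u2 s x k z m,
      w2 s y l t n]
  · intro x k y l o
    rw [u3 x k fun z m => by simpa using (e x k y l z m 0 W.zero_mem).symm.trans (o z m 0 W.zero_mem),
      w3 y l fun z m => by simpa using (e x k y l 0 U.zero_mem z m).symm.trans (o 0 U.zero_mem z m), add_zero]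

theorem FTyp.global (h : FTyp ρ a b U) : ∃ A : LinearMap.BilinForm F V, (∀ x y, a * A x x + b * (A x y - A y x) = 0) ∧
    (∀ g, ∀ x ∈ U, ∀ y ∈ U, A (ρ g x) (ρ g y) = A x y) ∧ ∀ x ∈ U, (∀ y ∈ U, A x y = 0) → x = 0 := by
  obtain ⟨u, A, u1, u2, u3⟩ := h
  obtain ⟨f, i, j⟩ := exists_proj2 (disjoint_bot_right (a := U))
  have k : ∀ x ∈ U, f x = x := fun x k => by simpa using j x k 0 (zero_mem _)
  exact ⟨A.comp f f, fun x y => u1 _ (i x) _ (i y), fun g x l y m => by simp [k, l, m, u g, u2],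
    fun x l m => u3 x l fun y n => by simpa [k, l, n] using m y n⟩

variable [FiniteDimensional F V]

theorem exists_rep (h : ∀ y ∈ U, (∀ x ∈ U, B x y = 0) → y = 0) (v : V) : ∃ u ∈ U, ∀ x ∈ U, B x u = B x v := by
  obtain ⟨u, e⟩ := (injective_iff_surjective_of_finrank_eq_finrank (f := (B.domRestrict₁₂ U U).flip)
    Subspace.dual_finrank_eq.symm).mp ((injective_iff_map_eq_zero _).mpr fun y i => Subtype.ext (h y y.2 fun x j =>
      LinearMap.congr_fun i ⟨x, j⟩)) ((B.flip v).domRestrict U)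
  exact ⟨u, u.2, fun x i => LinearMap.congr_fun e ⟨x, i⟩⟩

theorem exists_split [Finite G] [NeZero (Nat.card G : F)] (hB : ∀ g x y, B (ρ g x) (ρ g y) = B x y) (X : Submodule F V) :
    Iv ρ X → (∀ y ∈ X, (∀ x ∈ X, B x y = 0) → y = 0) → ∃ U W, Disjoint U W ∧ U ⊔ W = X ∧ FTyp ρ 1 0 U ∧ FTyp ρ 0 1 W ∧
      ((2 : F) = 0 → ∀ g, ∀ w ∈ W, ρ g w = w) := by
  induction X using WellFoundedLT.induction with | _ X ih =>
  intro a b
  have m : ∀ g x y, B x (ρ g y) = B (ρ g⁻¹ x) y := fun g x y => by rw [← hB g (ρ g⁻¹ x)]; simp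
  have m' : ∀ g x y, B (ρ g y) x = B y (ρ g⁻¹ x) := fun g x y => by rw [← hB g y]; simp
  have o : ∀ S, Iv ρ S → Iv ρ (B.orthogonal S) := fun S i g y j x k => (m g x y).trans (j _ (i _ x k))
  let N := X ⊓ (B - B.flip).orthogonal X
  have n : ∀ s ∈ N, ∀ x ∈ X, B x s = B s x := fun s i x j => sub_eq_zero.mp (i.2 x j)
  by_cases c : N = ⊥
  · exact ⟨X, ⊥, disjoint_bot_right, sup_bot_eq X, ⟨a, B - B.flip, by simp, by simp [hB], fun x i j =>
      c.le ⟨i, fun y k => sub_eq_zero.mpr (sub_eq_zero.mp (j y k)).symm⟩⟩, ftyp_bot, by simp⟩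
  obtain ⟨S, ⟨s1, s2, s3⟩, s4⟩ := WellFoundedLT.exists_minimal (α := Submodule F V) inferInstance
    {S | Iv ρ S ∧ S ≠ ⊥ ∧ S ≤ N} ⟨N, fun g y i => ⟨a g y i.1, fun x j => sub_eq_zero.mpr
      ((m g x y).trans ((n y i _ (a _ x j)).trans (m' g x y).symm))⟩, c, le_rfl⟩
  have s5 : ∀ T, Iv ρ T → T ≤ S → T = ⊥ ∨ T = S := fun T i j =>
    or_iff_not_imp_left.mpr fun k => j.antisymm (s4 ⟨i, k, j.trans s3⟩ j)
  have s6 : S ≤ X := s3.trans inf_le_left
  obtain ⟨U, W, h1, h2, h3, h4, h5, h6, h7⟩ : ∃ U W, Disjoint U W ∧ U ⊔ W ≤ X ∧ U ⊔ W ≠ ⊥ ∧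
      (∀ y ∈ U ⊔ W, (∀ x ∈ U ⊔ W, B x y = 0) → y = 0) ∧ FTyp ρ 1 0 U ∧ FTyp ρ 0 1 W ∧
      ((2 : F) = 0 → ∀ g, ∀ w ∈ W, ρ g w = w) := by
    rcases s5 (S ⊓ B.orthogonal S) (fun g y i => ⟨s1 g y i.1, o S s1 g y i.2⟩) inf_le_left with d | d
    · have e : ∀ y ∈ S, (∀ x ∈ S, B x y = 0) → y = 0 := fun y i j => d.le ⟨i, j⟩
      have e' : ∀ y ∈ S, (∀ x ∈ S, B y x = 0) → y = 0 := fun y i j => e y i fun x k =>
        (n y (s3 i) x (s6 k)).trans (j x k)
      by_cases f : ∀ x ∈ S, B x x = 0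
      · exact ⟨S, ⊥, disjoint_bot_right, by simpa, by simpa, by simpa, ⟨s1, B, by simpa using fun x i _ _ => f x i,
          fun g x _ y _ => hB g x y, e'⟩, ftyp_bot, by simp⟩
      refine ⟨⊥, S, disjoint_bot_left, by simpa, by simpa, by simpa, ftyp_bot, ⟨s1, B, fun x i y j => by
        simp [n y (s3 j) x (s6 i)], fun g x _ y _ => hB g x y, e'⟩, fun t g w i => ?_⟩
      have q : ∀ x ∈ S, ∀ y ∈ S, B (x + y) (x + y) = B x x + B y y := fun x i y j => by
        simp only [map_add, LinearMap.add_apply, n y (s3 j) x (s6 i)]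
        linear_combination B y x * t
      let T : Submodule F V := ⟨⟨⟨{x | x ∈ S ∧ B x x = 0}, fun {x y} i j => ⟨add_mem i.1 j.1, by
        rw [q x i.1 y j.1, i.2, j.2, add_zero]⟩⟩, by simp⟩, fun r x i => ⟨S.smul_mem r i.1, by simp [i.2]⟩⟩
      refine sub_eq_zero.mp (((s5 T (fun g x i => ⟨s1 g x i.1, (hB g x x).trans i.2⟩) fun _ i => i.1).resolve_right
        fun i => f fun x j => (i.ge j).2).le ⟨sub_mem (s1 g w i) i, ?_⟩)
      rw [sub_eq_add_neg, q _ (s1 g w i) _ (neg_mem i), hB]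
      simp only [map_neg, LinearMap.neg_apply, neg_neg]
      linear_combination B w w * t
    have e : S ≤ X ⊓ B.orthogonal S := le_inf s6 (d.ge.trans inf_le_right)
    obtain ⟨T, t1, t2, t3⟩ := Iv.exists_compl (U := X ⊓ B.orthogonal S) (fun g y i => ⟨a g y i.1, o S s1 g y i.2⟩) a inf_le_left
    have t4 : T ≤ X := t3 ▸ le_sup_right
    have t5 : ∀ t ∈ T, (∀ s ∈ S, B s t = 0) → t = 0 := fun t i j => disjoint_def.mp t2 t ⟨t4 i, j⟩ i
    have t6 : ∀ s ∈ S, (∀ t ∈ T, B s t = 0) → s = 0 := fun s i j => b s (s6 i) fun x k => by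
      rw [n s (s3 i) x k]
      obtain ⟨y, l, t, r, rfl⟩ := mem_sup.mp (t3.ge k)
      rw [map_add, l.2 s i, j t r, add_zero]
    obtain ⟨f, -, f1⟩ := exists_proj2 (t2.mono_left e)
    obtain ⟨g, -, g1⟩ := exists_proj2 (t2.mono_left e).symm
    have v : ∀ x ∈ S, ∀ y ∈ T, ∀ z ∈ S, ∀ t ∈ T, (B.comp f g - (B.comp f g).flip) (x + y) (z + t) = B x t - B z y :=
      fun x k y l z m t n => by
        rw [LinearMap.sub_apply, LinearMap.sub_apply, BilinForm.flip_apply, BilinForm.comp_apply, BilinForm.comp_apply, f1 x k y l, f1 z m t n, add_comm x,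
          add_comm z, g1 y l x k, g1 t n z m]
    refine ⟨S ⊔ T, ⊥, disjoint_bot_right, by simp [s6, t4], by simp [s2], ?_, ⟨s1.sup t1, B.comp f g - (B.comp f g).flip,
      by simp, fun r => ?_, ?_⟩, ftyp_bot, by simp⟩ <;> simp only [sup_bot_eq, forall_mem_sup]
    · intro s i t j k
      obtain rfl := t5 t j fun x l => by simpa [(e i).2 x l] using k x l 0 T.zero_mem
      simpa using t6 s i fun x l => by simpa [n s (s3 i) x (t4 l)] using k 0 S.zero_mem x l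
    · intro x k y l z m t n
      rw [map_add (ρ r), map_add (ρ r), v _ (s1 r x k) _ (t1 r y l) _ (s1 r z m) _ (t1 r t n), v x k y l z m t n, hB, hB]
    · intro s i t j k
      rw [t5 t j fun x l => by simpa using (v s i t j x l 0 T.zero_mem).symm.trans (k x l 0 T.zero_mem),
        t6 s i fun x l => by simpa using (v s i t j 0 S.zero_mem x l).symm.trans (k 0 S.zero_mem x l), add_zero]
  have d : Disjoint (U ⊔ W) (X ⊓ B.orthogonal (U ⊔ W)) := disjoint_def.mpr fun x i j => h4 x i j.2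
  have e : (U ⊔ W) ⊔ (X ⊓ B.orthogonal (U ⊔ W)) = X := le_antisymm (sup_le h2 inf_le_left) fun x i => by
    obtain ⟨u, j, k⟩ := exists_rep h4 x
    exact mem_sup.mpr ⟨u, j, x - u, ⟨sub_mem i (h2 j), fun y l => by simp [k y l]⟩, add_sub_cancel u x⟩
  obtain ⟨U', W', k1, k2, k3, k4, k5⟩ := ih (X ⊓ B.orthogonal (U ⊔ W)) (lt_of_le_of_ne inf_le_left fun i =>
    h3 (d.eq_bot_of_le (i.symm ▸ h2))) (fun g y i => ⟨a g y i.1, o _ (h5.1.sup h6.1) g y i.2⟩) fun y i j => b y i.1 fun x k => by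
      obtain ⟨u, l, w, r, rfl⟩ := mem_sup.mp (e.ge k)
      rw [map_add, LinearMap.add_apply, i.2 u l, j w r, add_zero]
  rw [← k2] at d e
  refine ⟨U ⊔ U', W ⊔ W', disjoint_def.mpr fun x i j => ?_, by rw [← e, sup_sup_sup_comm],
    h5.sup k3 (d.mono le_sup_left le_sup_left), h6.sup k4 (d.mono le_sup_right le_sup_right), fun t g w i => ?_⟩
  · obtain ⟨u, l, u', l', rfl⟩ := mem_sup.mp i
    obtain ⟨w, r, w', r', z⟩ := mem_sup.mp j
    have y := disjoint_def.mp d (u - w) (sub_mem (mem_sup_left l) (mem_sup_right r))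
      ((show u - w = w' - u' by rw [sub_eq_sub_iff_add_eq_add, ← z, add_comm]) ▸ sub_mem (mem_sup_right r') (mem_sup_left l'))
    rw [sub_eq_zero] at y
    subst y
    rw [disjoint_def.mp h1 u l r, disjoint_def.mp k1 u' l' (add_left_cancel z ▸ r'), add_zero]
  · obtain ⟨w, r, w', r', rfl⟩ := mem_sup.mp i
    rw [map_add, h7 t g w r, k5 t g w' r']

end Cfsg.Agent.Isaacs
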