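import Mathlib

/-! Faithful irreducible modules of abelian groups over finite fields. -/

set_option autoImplicit false

namespace Cfsg.Agent.Isaacs

open Module Polynomial
open scoped IsMulCommutative

universe u
variable {F H : Type*} {V : Type u} [Field F] [CommGroup H] [AddCommGroup V] [Module F V] [FiniteDimensional F V]
  {ρ : Representation F H V}

theorem exists_field_model [Nontrivial V]
    (h : ∀ U : Submodule F V, (∀ g, ∀ u ∈ U, ρ g u ∈ U) → U = ⊥ ∨ U = ⊤) :
    ∃ (K : Type u) (_ : Field K) (_ : Algebra F K) (e : K ≃ₗ[F] V) (μ : H →* K),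
      (∀ g k, ρ g (e k) = e (μ g * k)) ∧ Algebra.adjoin F (Set.range μ) = ⊤ := by
  let K := Algebra.adjoin F (Set.range ρ)
  have : IsMulCommutative K := Algebra.isMulCommutative_adjoin F (by
    rintro _ ⟨x, rfl⟩ _ ⟨y, rfl⟩
    rw [← map_mul, mul_comm, map_mul])
  let μ : H →* K := ρ.codRestrict K fun g => Algebra.subset_adjoin ⟨g, rfl⟩
  have a : ∀ (k : K) v, v ≠ 0 → k.1 v = 0 → k = 0 := fun k v i j => Subtype.ext (LinearMap.ker_eq_top.mp
    ((h (LinearMap.ker k.1) fun g u l => (LinearMap.congr_fun (congrArg Subtype.val (mul_comm k (μ g))) u).trans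
      (by simp [LinearMap.mem_ker.mp l])).resolve_left fun l => i (l.le j)))
  obtain ⟨v, b⟩ := exists_ne (0 : V)
  have : NoZeroDivisors K := ⟨fun {x y} i => or_iff_not_imp_right.mpr fun j =>
    a x (y.1 v) (mt (a y v b) j) (LinearMap.congr_fun (congrArg Subtype.val i) v)⟩
  have : IsDomain K := NoZeroDivisors.to_isDomain K
  let f : K →ₗ[F] V := (LinearMap.applyₗ v).comp K.val.toLinearMap
  refine ⟨K, fieldOfFiniteDimensional F K, inferInstanceAs (Algebra F K), LinearEquiv.ofBijective f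
    ⟨(injective_iff_map_eq_zero f).mpr fun k => a k v b, LinearMap.range_eq_top.mp ((h _ ?_).resolve_left fun i =>
      b (i.le ⟨1, rfl⟩))⟩, μ, fun _ _ => rfl, ?_⟩
  · rintro g _ ⟨k, rfl⟩
    exact ⟨μ g * k, rfl⟩
  · rw [← Algebra.adjoin_adjoin_coe_preimage (R := F) (s := Set.range ρ)]
    exact congrArg _ (Set.ext fun x => by simp [μ, Subtype.ext_iff])

theorem selfDual_iff [Fintype F] [Finite H] (hf : Function.Injective ρ) (hn : 2 ≤ finrank F V)
    (h : ∀ U : Submodule F V, (∀ g, ∀ u ∈ U, ρ g u ∈ U) → U = ⊥ ∨ U = ⊤) :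
    (∃ B : LinearMap.BilinForm F V, B.Nondegenerate ∧ ∀ g x y, B (ρ g x) (ρ g y) = B x y) ↔
      Even (finrank F V) ∧ Nat.card H ∣ Fintype.card F ^ (finrank F V / 2) + 1 := by
  have := nontrivial_of_finrank_pos (R := F) (M := V) (by omega)
  obtain ⟨K, _, _, e, μ, a, b⟩ := exists_field_model h
  have := e.symm.finiteDimensional
  have := Module.finite_of_finite F (M := K)
  rw [← e.finrank_eq] at hn ⊢
  refine ⟨fun ⟨B, c, d⟩ => ?_, fun ⟨⟨m, c⟩, d⟩ => ?_⟩
  · have i : Function.Injective μ := fun x y i => hf (LinearMap.ext fun v => by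
      rw [← e.apply_symm_apply v, a, a, i])
    obtain ⟨g, j⟩ := (isCyclic_of_injective_ringHom μ i).exists_monoid_generator
    have k : ∀ σ : K ≃ₐ[F] K, σ (μ g) = μ g → σ = 1 := fun σ k => AlgEquiv.coe_toAlgHom_injective
      (AlgHom.ext_of_adjoin_eq_top b (by
        rintro _ ⟨x, rfl⟩
        obtain ⟨n, rfl⟩ := j x
        simp [k]))
    have l : ∀ f : F[X], ∀ x y, B (e (aeval (μ g) f * x)) (e y) = B (e x) (e (aeval (μ g⁻¹) f * y)) := fun f => by
      refine f.induction_on (fun r x y => by simp [← Algebra.smul_def]) (fun p q i j x y => by simp [add_mul, i, j])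
        fun n r i x y => ?_
      rw [pow_succ, ← mul_assoc, map_mul (aeval (μ g)), map_mul (aeval (μ g⁻¹)), aeval_X, aeval_X, mul_assoc, i, ← a, ← d g⁻¹, a, a, a]
      congr 2
      · rw [← mul_assoc, ← map_mul, inv_mul_cancel, map_one, one_mul]
      · ring
    obtain ⟨σ, s⟩ := minpoly.exists_algEquiv_of_root' (K := F) (x := μ g⁻¹) (y := μ g) (Algebra.IsAlgebraic.isAlgebraic _)
      (e.map_eq_zero_iff.mp (c.2 _ fun x => by
        rw [← e.apply_symm_apply x, ← mul_one (aeval _ _), ← l]; simp))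
    obtain ⟨⟨n, n1⟩, rfl⟩ := (FiniteField.bijective_frobeniusAlgEquivOfAlgebraic_pow F K).2 σ
    have o : finrank F K ∣ n + n := FiniteField.orderOf_frobeniusAlgEquivOfAlgebraic F K ▸ orderOf_dvd_of_pow_eq_one (k _ (by
      rw [pow_add, AlgEquiv.mul_apply, s, map_inv μ, map_inv₀, s, map_inv μ, inv_inv]))
    have n0 : n ≠ 0 := by
      rintro rfl
      have : μ g * μ g = 1 := by
        nth_rw 1 [show μ g = μ g⁻¹ from s]
        rw [← map_mul, inv_mul_cancel, map_one]
      have := k (FiniteField.frobeniusAlgEquivOfAlgebraic F K) (by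
        rcases mul_self_eq_one_iff.mp this with t | t <;> simp only [t, map_neg, map_one])
      rw [← FiniteField.orderOf_frobeniusAlgEquivOfAlgebraic, this, orderOf_one] at hn
      omega
    have t : finrank F K = n + n := by
      obtain ⟨r, t⟩ := o
      rcases r with _ | _ | r
      · omega
      · omega
      · nlinarith
    refine ⟨⟨n, t⟩, ?_⟩
    rw [t, ← two_mul, Nat.mul_div_cancel_left _ two_pos, ← orderOf_eq_card_of_forall_mem_powers j]
    refine orderOf_dvd_of_pow_eq_one (i ?_)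
    rw [AlgEquiv.coe_pow, FiniteField.coe_frobeniusAlgEquivOfAlgebraic_iterate] at s
    rw [pow_succ, map_mul, map_pow, show μ g ^ _ = _ from s, ← map_mul, inv_mul_cancel]
  rw [c, ← two_mul, Nat.mul_div_cancel_left _ two_pos] at d
  let σ := (FiniteField.frobeniusAlgEquivOfAlgebraic F K ^ m)
  have s : ∀ x, σ x = x ^ Fintype.card F ^ m := fun x => by
    rw [AlgEquiv.coe_pow, FiniteField.coe_frobeniusAlgEquivOfAlgebraic_iterate]
  have t := traceForm_nondegenerate F K
  refine ⟨(Algebra.traceForm F K).comp e.symm (σ.toLinearMap.comp e.symm.toLinearMap), ⟨fun x i => e.symm.map_eq_zero_iff.mp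
    (t.1 _ fun y => by simpa using i (e (σ.symm y))), fun y i => e.symm.map_eq_zero_iff.mp (σ.toLinearEquiv.map_eq_zero_iff.mp
      (t.2 _ fun x => by simpa using i (e x)))⟩, fun g x y => ?_⟩
  rw [← e.apply_symm_apply x, ← e.apply_symm_apply y, a, a]
  have : μ g * σ (μ g) = 1 := by rw [s, ← pow_succ', ← map_pow, orderOf_dvd_iff_pow_eq_one.mp
    ((orderOf_dvd_natCard g).trans d), map_one]
  simp [Algebra.traceForm_apply, mul_mul_mul_comm (μ g) _ (σ _), this]

theorem card_le_two_of_selfDual [Finite H] (hf : Function.Injective ρ) (hn : finrank F V = 1) {B : LinearMap.BilinForm F V}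
    (hB : B.Nondegenerate) (h : ∀ g x y, B (ρ g x) (ρ g y) = B x y) : Nat.card H ≤ 2 := by
  obtain ⟨v, a, b⟩ := finrank_eq_one_iff'.mp hn
  have c : B v v ≠ 0 := fun i => a (hB.1 v fun y => by obtain ⟨r, rfl⟩ := b y; simp [i])
  have d : ∀ g, ρ g v = v ∨ ρ g v = -v := fun g => by
    obtain ⟨r, e⟩ := b (ρ g v)
    have := h g v v
    rw [← e] at this ⊢
    have : r * r = 1 := mul_right_cancel₀ c (by simpa [mul_assoc] using this)
    rcases mul_self_eq_one_iff.mp this with rfl | rfl <;> simp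
  refine (Nat.card_le_card_of_injective (fun g => ρ g v = v) fun x y i => hf (LinearMap.ext fun w => ?_)).trans (by simp)
  obtain ⟨r, rfl⟩ := b w
  rw [map_smul, map_smul]
  by_cases j : ρ x v = v
  · rw [j, i.mp j]
  · rw [(d x).resolve_left j, (d y).resolve_left (mt i.mpr j)]

end Cfsg.Agent.Isaacs
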