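import Mathlib
import Cfsg.Agent.Isaacs.BInd

/-! Realizability of characters over subfields; Brauer's splitting field theorem. -/

set_option autoImplicit false

open scoped ComplexConjugate

namespace Cfsg.Agent.Isaacs

open Cfsg Cfsg.Agent.Char Subgroup Module Cfsg.Agent.Char.IndRep

variable {G : Type*} [Group G] {F : Type} [Field F] {φ : F →+* ℂ} {A B : G → ℂ}

/-- afforded by matrices over `F` -/
def RF (φ : F →+* ℂ) (χ : G → ℂ) : Prop :=
  ∃ (n : ℕ) (M : G →* Matrix (Fin n) (Fin n) F), χ = fun g => φ (M g).trace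

theorem rf_rep {V : Type*} [AddCommGroup V] [Module F V] [FiniteDimensional F V] (ρ : Representation F G V) :
    RF φ fun g => φ (ρ.character g) :=
  ⟨_, (LinearMap.toMatrixAlgEquiv (finBasis F V)).toAlgHom.toMonoidHom.comp ρ, funext fun g =>
    congrArg φ (LinearMap.trace_eq_matrix_trace F (finBasis F V) _)⟩

theorem rf_matrix {ι : Type*} [Fintype ι] [DecidableEq ι] (M : G →* Matrix ι ι F) : RF φ fun g => φ (M g).trace := by
  simpa only [character_repOfMatrix] using rf_rep (φ := φ) (repOfMatrix M)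

theorem RF.rep (h : RF φ A) : ∃ (n : ℕ) (ρ : Representation F G (Fin n → F)), A = fun g => φ (ρ.character g) := by
  obtain ⟨n, M, rfl⟩ := h
  exact ⟨n, repOfMatrix M, by simp only [character_repOfMatrix]⟩

theorem map_trace' {ι : Type*} [Fintype ι] [DecidableEq ι] (X : Matrix ι ι F) : (φ.mapMatrix X).trace = φ X.trace := by
  simp [Matrix.trace]

theorem RF.isChar (h : RF φ A) : IsCharacter G A := by
  obtain ⟨n, M, rfl⟩ := h
  simp only [← map_trace']
  exact isChar_of_matrix (φ.mapMatrix.toMonoidHom.comp M)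

theorem RF.add (h : RF φ A) (h' : RF φ B) : RF φ (A + B) := by
  obtain ⟨n, ρ, rfl⟩ := h.rep
  obtain ⟨m, σ, rfl⟩ := h'.rep
  convert rf_rep (φ := φ) (ρ.prod σ) using 2 with g
  rw [Pi.add_apply, ← map_add]
  exact congrArg φ (LinearMap.trace_prodMap' _ _).symm

theorem rf_zero : RF φ (0 : G → ℂ) := ⟨0, 1, funext fun _ => by simp⟩

theorem rf_ind [Fintype G] (H : Subgroup G) {θ : H → ℂ} (h : RF φ θ) : RF φ (indFun H θ) := by
  classical
  obtain ⟨n, M, rfl⟩ := h
  have := Fintype.ofFinite (G ⧸ H)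
  convert rf_matrix (φ := φ) (indMatrix H M) using 2 with g
  have := trace_indMatrix_eq_indFun H (φ.mapMatrix.toMonoidHom.comp M) g
  simp only [MonoidHom.comp_apply, RingHom.toMonoidHom_eq_coe, MonoidHom.coe_coe, map_trace'] at this
  rw [← this, trace_indMatrix, trace_indMatrix, map_sum]
  refine Finset.sum_congr rfl fun q _ => ?_
  by_cases hx : q.out⁻¹ * g * q.out ∈ H
  · rw [extM_of_mem _ _ hx, extM_of_mem _ _ hx, ← map_trace']; rfl
  · simp [extM_of_notMem _ _ hx]

theorem char_split [Finite G] [CharZero F] {V : Type*} [AddCommGroup V] [Module F V] [FiniteDimensional F V]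
    {ρ : Representation F G V} (U : Subrepresentation ρ) : ∃ W : Subrepresentation ρ,
      IsCompl U.toSubmodule W.toSubmodule ∧ ρ.character = U.toRepresentation.character + W.toRepresentation.character := by
  have : NeZero (Nat.card G : F) := ⟨by exact_mod_cast Nat.card_pos.ne'⟩
  obtain ⟨W, hW⟩ := ComplementedLattice.exists_isCompl U
  have h : IsCompl U.toSubmodule W.toSubmodule :=
    ⟨disjoint_iff.mpr (congrArg Subrepresentation.toSubmodule hW.inf_eq_bot),
      codisjoint_iff.mpr (congrArg Subrepresentation.toSubmodule hW.sup_eq_top)⟩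
  refine ⟨W, h, ?_⟩
  let e := Submodule.prodEquivOfIsCompl _ _ h
  have f : (U.toRepresentation.prod W.toRepresentation).Equiv ρ :=
    Representation.Equiv.mk e (fun g => by
      apply LinearMap.ext
      rintro ⟨u, w⟩
      simp [e, Subrepresentation.toRepresentation, Representation.prod])
  rw [← Representation.char_iso f]
  ext g
  exact LinearMap.trace_prodMap' _ _

theorem RF.sub [Finite G] (n : ℕ) : ∀ A B : G → ℂ, RF φ A → RF φ B → B 1 = n → IsCharacter G (A - B) → RF φ (A - B) := by
  have := Fintype.ofFinite G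
  have : CharZero F := φ.charZero
  induction n using Nat.strong_induction_on with
  | _ n ih =>
  intro A B hA hB hn h
  by_cases h0 : B = 0
  · rwa [h0, sub_zero]
  have h1 : inn ⊤ A B ≠ 0 := by
    obtain ⟨a, ha⟩ := (chr_top.mpr h).inn_nat (chr_top.mpr hB.isChar)
    obtain ⟨b, hb⟩ := (chr_top.mpr hB.isChar).inn_nat (chr_top.mpr hB.isChar)
    rw [← sub_add_cancel A B, inn_add_left, ha, hb, ← Nat.cast_add, Nat.cast_ne_zero]
    intro e
    rw [(Nat.add_eq_zero_iff.mp e).2, Nat.cast_zero, inn_self_eq_zero, eqv_top] at hb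
    exact h0 hb
  have hB' := (chr_top.mpr hB.isChar).gen
  obtain ⟨k, σ, rfl⟩ := hA.rep
  obtain ⟨m, ρ, rfl⟩ := hB.rep
  have : Invertible (Nat.card G : F) := invertibleOfNonzero (by exact_mod_cast Nat.card_pos.ne')
  have h2 := congrArg φ (Representation.card_inv_mul_sum_char_mul_char_eq_finrank ρ σ)
  have h3 : finrank F (ρ.IntertwiningMap σ) ≠ 0 := fun e => h1 (by
    rw [e, Nat.cast_zero, map_zero] at h2
    rw [← h2, inn_top, classInner_def]
    simp only [map_mul, map_inv₀, map_natCast, map_sum, ← hB'.apply_inv (mem_top _)])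
  obtain ⟨f, hf⟩ := finrank_pos_iff_exists_ne_zero.mp (Nat.pos_of_ne_zero h3)
  obtain ⟨U, hU, eU⟩ := char_split f.ker
  obtain ⟨W, -, eW⟩ := char_split f.range
  let g : U.toRepresentation.IntertwiningMap f.range.toRepresentation :=
    ⟨(f.toLinearMap.comp U.toSubmodule.subtype).codRestrict _ fun u => ⟨u, rfl⟩, fun x =>
      LinearMap.ext fun u => Subtype.ext (f.isIntertwining _ _ x u)⟩
  have hg : Function.Bijective g := by
    refine ⟨(injective_iff_map_eq_zero g).mpr fun u hu => Subtype.ext ?_, ?_⟩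
    · exact (Submodule.disjoint_def.mp hU.disjoint) _ (congrArg Subtype.val hu) u.2
    · rintro ⟨_, v, rfl⟩
      obtain ⟨a, ha, b, hb, rfl⟩ := Submodule.mem_sup.mp (hU.sup_eq_top.ge (Submodule.mem_top (x := v)))
      refine ⟨⟨b, hb⟩, Subtype.ext ?_⟩
      change f b = f (a + b)
      rw [map_add, show f a = 0 from ha, zero_add]
  have e : ((fun x => φ (σ.character x)) - fun x => φ (ρ.character x)) =
      (fun x => φ (W.toRepresentation.character x)) - fun x => φ (f.ker.toRepresentation.character x) := by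
    rw [eU, eW, Representation.char_iso (g.ofBijective hg)]
    funext x; simp only [Pi.sub_apply, Pi.add_apply, map_add]; ring
  rw [e] at h ⊢
  refine ih (finrank F f.ker.toSubmodule) ?_ _ _ (rf_rep _) (rf_rep _) (by simp) h
  have : finrank F (Fin m → F) = n := by simpa using hn
  rw [← this]
  refine Submodule.finrank_lt fun e => hf (Representation.IntertwiningMap.ext (LinearMap.ext fun v => ?_))
  exact e.ge Submodule.mem_top

theorem rf_of_lin [Fintype G] (h : ∀ (H : Subgroup G) (lam : H →* ℂˣ) (x : H), (lam x : ℂ) ∈ φ.range)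
    (hA : IsCharacter G A) : RF φ A := by
  let Λ : AddSubgroup (G → ℂ) :=
    { carrier := {χ | ∃ A B, RF φ A ∧ RF φ B ∧ χ = A - B}
      zero_mem' := ⟨0, 0, rf_zero, rf_zero, by simp⟩
      add_mem' := by
        rintro _ _ ⟨a, b, c, d, rfl⟩ ⟨a', b', c', d', rfl⟩
        exact ⟨_, _, c.add c', d.add d', by abel⟩
      neg_mem' := by
        rintro _ ⟨a, b, c, d, rfl⟩
        exact ⟨_, _, d, c, by abel⟩ }
  obtain ⟨a, b, c, d, rfl⟩ : A ∈ Λ := brauer_induction Λ (fun p E lam _ _ => by
    refine ⟨_, 0, rf_ind E ?_, rf_zero, (sub_zero _).symm⟩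
    choose l hl using h E lam
    let l' : E →* F := ⟨⟨l, φ.injective (by simp [hl])⟩, fun x y => φ.injective (by simp [hl])⟩
    exact ⟨1, (Matrix.scalar (Fin 1)).toMonoidHom.comp l', funext fun x => by simp [l', hl]⟩) (gen_top.mp (chr_top.mpr hA).gen)
  obtain ⟨n, hn⟩ := (chr_top.mpr d.isChar).deg
  exact RF.sub n _ _ c d hn hA

end Cfsg.Agent.Isaacs
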